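import Cfsg.Agent.MaxSub.UnitA

/-! Involutions of rank two in dimension five and characteristic two. -/

set_option autoImplicit false

namespace CF.UsC

open Matrix Cfsg Cfsg.Geo CF.MaxSub Subgroup
open scoped MatrixGroups

namespace Y

variable {K : Type*} [Field K] {n m l : Matrix (Fin 5) (Fin 5) K} {u u' : Fin 5 → K}

theorem ker3 (nn : n * n = 0) : 3 ≤ Module.finrank K (LinearMap.ker n.mulVecLin) := by
  have r := rank_add_rank_le_card_of_mul_eq_zero nn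
  have := LinearMap.finrank_range_add_finrank_ker n.mulVecLin
  simp only [Matrix.rank, Fintype.card_fin, Module.finrank_fintype_fun_eq_card] at r this
  omega

theorem fin5 (nn : n * n = 0) (a : ∀ x, n *ᵥ x = 0 → m *ᵥ x = 0) (b : ∀ x, m *ᵥ x = 0 → l *ᵥ x = 0)
    (c1 : n *ᵥ u ≠ 0) (c2 : m *ᵥ u = 0) (c3 : m *ᵥ u' ≠ 0) (c4 : l *ᵥ u' = 0) (x : Fin 5 → K) : l *ᵥ x = 0 := by
  have h0 := ker3 nn
  have h1 := Submodule.finrank_lt_finrank_of_lt (s := LinearMap.ker n.mulVecLin) (t := LinearMap.ker m.mulVecLin)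
    (SetLike.lt_iff_le_and_exists.2 ⟨a, u, c2, c1⟩)
  have h2 := Submodule.finrank_lt_finrank_of_lt (s := LinearMap.ker m.mulVecLin) (t := LinearMap.ker l.mulVecLin)
    (SetLike.lt_iff_le_and_exists.2 ⟨b, u', c4, c3⟩)
  have h3 := (LinearMap.ker l.mulVecLin).finrank_le
  exact (Submodule.eq_top_of_finrank_eq (S := LinearMap.ker l.mulVecLin) (by
    simp only [Module.finrank_fintype_fun_eq_card, Fintype.card_fin] at h3 ⊢; omega)).ge (Submodule.mem_top (x := x))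

theorem nil (h2 : (2 : K) = 0) {f : GL (Fin 5) K} (b : f * f = 1) : (f.val - 1) * (f.val - 1) = 0 := by
  rw [sub_mul, mul_sub, ← Units.val_mul, b, mul_one, one_mul, Units.val_one]
  linear_combination (norm := module) h2 • (1 - f.val)

theorem ex_dot (h : n ≠ 0) : ∃ u φ, φ ⬝ᵥ n *ᵥ u = 1 := by
  obtain ⟨u, k⟩ : ∃ u, n *ᵥ u ∉ (⊥ : Submodule K (Fin 5 → K)) := by
    by_contra! e; exact h (Matrix.ext_iff_mulVec.2 fun v => by simpa using e v)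
  exact ⟨u, (exists_dot k).imp fun _ e => e.1⟩

variable [Fintype K] {ψ : FD (Fin 5) K} {q : ℕ}

theorem ex_one (h : ψ.IsU q) {B : (Fin 5 → K) →ₛₗ[ψ.σ] (Fin 5 → K) →ₗ[K] K} (s : B.IsSymm) {x y : Fin 5 → K}
    (k : B x y ≠ 0) : ∃ a b : K, B (a • x + b • y) (a • x + b • y) = 1 := by
  obtain ⟨a, b, k⟩ := Geom.exists_nonisotropic (.inl h.ne) s k
  obtain ⟨t, k⟩ := Geom.exists_smul_norm_eq h.ne ψ.invol s k (map_one _)
  exact ⟨t * a, t * b, by rwa [mul_smul, mul_smul, ← smul_add]⟩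

theorem step (h : ψ.IsU q) (a : ∀ x y, ψ.f (n *ᵥ x) y = ψ.f x (n *ᵥ y)) (n0 : n ≠ 0) : ∃ u, ψ.f u (n *ᵥ u) = 1 := by
  obtain ⟨y, x, k⟩ : ∃ y x, ψ.f (n *ᵥ y) x ≠ 0 := by
    by_contra! e; exact n0 (Matrix.ext_iff_mulVec.2 fun v => by simpa using ψ.eq_zero_of_right (e v))
  obtain ⟨c, d, k⟩ := ex_one h (B := ψ.B.compl₂ n.mulVecLin) ⟨fun x y => (h.conj_f _ _).trans (a x y).symm⟩ (x := x) (y := y) k
  exact ⟨_, (a _ _).symm.trans k⟩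

/-- The map `x ↦ x + f(x, a) w`. -/
def T (ψ : FD (Fin 5) K) (a w : Fin 5 → K) (h : ψ.f w a = 0) : GL (Fin 5) K :=
  tv w (ψ.G.val *ᵥ (ψ.σ ∘ a)) ((dotProduct_comm ..).trans h)

omit [Fintype K] in
theorem T_mulVec (a w : Fin 5 → K) (h : ψ.f w a = 0) (x : Fin 5 → K) : (T ψ a w h).val *ᵥ x = x + ψ.f x a • w := by
  rw [T, tv_mulVec, dotProduct_comm]; rfl

end Y

open Y

theorem two_su {K : Type*} [Field K] [Fintype K] {ψ : FD (Fin 5) K} {q : ℕ} (h : ψ.IsU q) (h2 : (2 : K) = 0)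
    {f : GL (Fin 5) K} (a : f ∈ ψ.isom) (b : f * f = 1) (n : ∀ v χ, f.val ≠ 1 + vecMulVec v χ) :
    ∃ x ∈ ψ.su, ∃ y ∈ ψ.su, ∃ g ∈ ψ.su, x * x = 1 ∧ x * y = y * x ∧ g * x * g⁻¹ = y * y ∧ f = x * (y * y) := by
  have nn := nil h2 b
  have a1 : ∀ x y, ψ.f ((f.val - 1) *ᵥ x) y = ψ.f x ((f.val - 1) *ᵥ y) := ψ.adj_eq_iff.1 (by
    rw [ψ.adj_sub, ψ.adj_one, ψ.mem_isom_iff_adj.1 a, inv_eq_of_mul_eq_one_right b])
  obtain ⟨N, hN⟩ : ∃ N, f.val = 1 + N := ⟨f.val - 1, by simp⟩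
  rw [hN, add_sub_cancel_left] at nn a1
  have z : ∀ x, N *ᵥ N *ᵥ x = 0 := fun x => by rw [mulVec_mulVec, nn, zero_mulVec]
  obtain ⟨u, hu⟩ := step h a1 fun e => n 0 0 (by simp [hN, e])
  obtain ⟨v, hv⟩ : ∃ v, N *ᵥ u = v := ⟨_, rfl⟩
  obtain ⟨M, hM, m⟩ : ∃ M, N = M + ψ.r1 v v ∧ ∀ x, M *ᵥ x = N *ᵥ x - ψ.f x v • v :=
    ⟨N - ψ.r1 v v, by simp, fun x => by rw [sub_mulVec, ψ.r1_mulVec]⟩
  have a2 : ∀ x y, ψ.f (M *ᵥ x) y = ψ.f x (M *ᵥ y) := fun x y => by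
    simp only [m, ψ.f_sub_left, ψ.f_sub_right, ψ.f_smul_left, ψ.f_smul_right, a1, h.conj_f, mul_comm]
  obtain ⟨u', hu'⟩ := step h a2 fun e => n v _ (by rw [hN, hM, e, zero_add]; rfl)
  obtain ⟨w, hw⟩ : ∃ w, M *ᵥ u' = w := ⟨_, rfl⟩
  have k1 : ∀ x, N *ᵥ x = 0 → ψ.f x v = 0 := fun x e => by rw [← hv, ← a1, e, ψ.f_zero_left]
  have k2 : ∀ x, N *ᵥ x = 0 → M *ᵥ x = 0 := fun x e => by rw [m, k1 x e, e, zero_smul, sub_zero]
  have k3 : ∀ x, M *ᵥ x = 0 → ψ.f x w = 0 := fun x e => by rw [← hw, ← a2, e, ψ.f_zero_left]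
  have nv : N *ᵥ v = 0 := hv ▸ z u
  have nw : N *ᵥ w = 0 := by rw [← hw, m, mulVec_sub, z, mulVec_smul, nv, smul_zero, sub_zero]
  rw [hv] at hu
  rw [hw] at hu'
  have mu : M *ᵥ u = 0 := by rw [m, hu, hv, one_smul, sub_self]
  have d : ∀ x, M *ᵥ x = ψ.f x w • w := fun x => by
    have := fin5 (l := M - ψ.r1 w w) (u := u) (u' := u') nn k2 (fun x e => by
      rw [sub_mulVec, ψ.r1_mulVec, e, k3 x e, zero_smul, sub_zero]) (fun e => by simp [← hv, e] at hu) mu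
      (fun e => by simp [← hw, e] at hu') (by rw [sub_mulVec, ψ.r1_mulVec, hw, hu', one_smul, sub_self]) x
    rwa [sub_mulVec, ψ.r1_mulVec, sub_eq_zero] at this
  obtain ⟨x, hx, y, hy, k⟩ : ∃ x, N *ᵥ x = 0 ∧ ∃ y, N *ᵥ y = 0 ∧ ψ.B x y ≠ 0 := by
    by_contra! e
    have := ψ.two_mul_le_of_ts (ψ.ts_iff.2 fun y hy => ψ.mem_perp.2 fun x (hx : x ∈ LinearMap.ker N.mulVecLin) => e x hx y hy)
    have := ker3 nn
    simp only [Fintype.card_fin] at *; omega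
  obtain ⟨c, c', ee⟩ := ex_one h (ψ.B_symm h.eps) k
  obtain ⟨e, he, ee⟩ : ∃ e, N *ᵥ e = 0 ∧ ψ.f e e = 1 := ⟨_, by simp [mulVec_add, mulVec_smul, hx, hy], ee⟩
  obtain ⟨t, ht⟩ := Geom.exists_trace_eq ψ.σ (.inl h.ne) ψ.invol 1 (map_one _)
  have vv := k1 v nv
  have wv := k1 w nw
  have ev := k1 e he
  have vw := k3 v (k2 v nv)
  have ww := k3 w (k2 w nw)
  have ew := k3 e (k2 e he)
  have ve := ψ.f_eq_zero_comm ev
  have we := ψ.f_eq_zero_comm ew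
  obtain ⟨s, s0, s1, s2⟩ : ∃ s, ψ.f s s = 0 ∧ ψ.f s v = 1 ∧ ψ.f s w = 1 := by
    have i : ψ.f (u' + (1 - ψ.f u' v) • u) v = 1 := by simp [ψ.f_add_left, ψ.f_smul_left, hu]
    obtain ⟨r, hr⟩ := h.exists_iso_add vv (i ▸ one_ne_zero)
    exact ⟨_, hr, by rw [ψ.f_add_left, i, ψ.f_smul_left, vv]; simp, by
      simp [ψ.f_add_left, ψ.f_smul_left, hu', vw, k3 u mu]⟩
  have s3 : ψ.f v s = 1 := by rw [← h.conj_f, s1, map_one]
  have s4 : ψ.f w s = 1 := by rw [← h.conj_f, s2, map_one]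
  have o : ψ.σ 1 + ψ.ε * 1 = 0 := by rw [map_one, h.eps]; linear_combination h2
  have j1 : ψ.f (s + v) (s + v) = 0 := by simp only [ψ.f_add_left, ψ.f_add_right, *]; linear_combination h2
  have j2 : ψ.f (s + w) (s + w) = 0 := by simp only [ψ.f_add_left, ψ.f_add_right, *]; linear_combination h2
  have j3 : ψ.f w (e + t • w) = 0 := by simp [ψ.f_add_right, ψ.f_smul_right, *]
  have g := mul_mem (FD.IsU.tvf_mem j2 o) (FD.IsU.tvf_mem j1 o)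
  have yy : T ψ w e ew * T ψ (e + t • w) w j3 * (T ψ w e ew * T ψ (e + t • w) w j3) = ψ.tvf w ww 1 := gl_ext fun x => by
    simp only [Units.val_mul, ← mulVec_mulVec, T_mulVec, ψ.tvf_mulVec, ψ.f_add_left, ψ.f_add_right, ψ.f_smul_left,
      ψ.f_smul_right, ww, we, ew, ee]
    linear_combination (norm := module) h2 • ((ψ.f x e + ψ.σ t * ψ.f x w) • w + ψ.f x w • e)
  refine ⟨ψ.tvf v vv 1, FD.IsU.tvf_mem vv o, T ψ w e ew * T ψ (e + t • w) w j3, ⟨ψ.mem_isom.2 fun x y => ?_,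
    mul_mem (tv_mem_SL ..) (tv_mem_SL ..)⟩, _, g, ?_, gl_ext fun x => ?_, ?_, gl_ext fun x => ?_⟩
  · simp only [Units.val_mul, ← mulVec_mulVec, T_mulVec, ψ.f_add_left, ψ.f_add_right, ψ.f_smul_left,
      ψ.f_smul_right, ww, we, ew, ee, map_add, map_mul, ψ.invol, h.conj_f, map_zero]
    linear_combination (ψ.f e y * ψ.f x w + ψ.f w y * ψ.f x e + ψ.f x w * ψ.f w y) * h2 + ψ.f x w * ψ.f w y * ht
  · rw [← ψ.tvf_add, one_add_one_eq_two, h2, ψ.tvf_zero]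
  · simp only [Units.val_mul, ← mulVec_mulVec, T_mulVec, ψ.tvf_mulVec, ψ.f_add_left, ψ.f_add_right, ψ.f_smul_left,
      ψ.f_smul_right, ww, vw, wv, ve, ev]
    module
  · rw [yy, ψ.conj_tvf g.1]
    congr 1
    simp only [Units.val_mul, ← mulVec_mulVec, ψ.tvf_mulVec, ψ.f_add_left, ψ.f_add_right, ψ.f_smul_left, *]
    linear_combination (norm := module) h2 • (v + s + s + w)
  · rw [yy, hN, hM]
    simp only [Units.val_mul, ← mulVec_mulVec, ψ.tvf_mulVec, ψ.f_add_left, ψ.f_smul_left, add_mulVec, d, ψ.r1_mulVec, wv,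
      one_mulVec]
    module

theorem two_sl {K : Type*} [Field K] [Fintype K] (h2 : (2 : K) = 0)
    {f : GL (Fin 5) K} (b : f * f = 1) (n : ∀ v χ, f.val ≠ 1 + vecMulVec v χ) :
    ∃ x ∈ specialLinear (Fin 5) K, ∃ y ∈ specialLinear (Fin 5) K, ∃ g ∈ specialLinear (Fin 5) K,
      x * x = 1 ∧ x * y = y * x ∧ g * x * g⁻¹ = y * y ∧ f = x * (y * y) := by
  have nn := nil h2 b
  obtain ⟨N, hN⟩ : ∃ N, f.val = 1 + N := ⟨f.val - 1, by simp⟩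
  rw [hN, add_sub_cancel_left] at nn
  have z : ∀ x, N *ᵥ N *ᵥ x = 0 := fun x => by rw [mulVec_mulVec, nn, zero_mulVec]
  obtain ⟨u, φ, hu⟩ := ex_dot (n := N) fun e => n 0 0 (by simp [hN, e])
  obtain ⟨v, hv⟩ : ∃ v, N *ᵥ u = v := ⟨_, rfl⟩
  obtain ⟨χ, hχ⟩ : ∃ χ, ∀ x, φ ⬝ᵥ N *ᵥ x = χ ⬝ᵥ x := ⟨_, dotProduct_mulVec _ _⟩
  obtain ⟨M, hM, m⟩ : ∃ M, N = M + vecMulVec v χ ∧ ∀ x, M *ᵥ x = N *ᵥ x - (χ ⬝ᵥ x) • v :=
    ⟨N - vecMulVec v χ, by simp, fun x => by rw [sub_mulVec, vecMulVec_mulVec, op_smul_eq_smul]⟩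
  obtain ⟨u', φ', hu'⟩ := ex_dot (n := M) fun e => n v χ (by rw [hN, hM, e, zero_add])
  obtain ⟨w, hw⟩ : ∃ w, M *ᵥ u' = w := ⟨_, rfl⟩
  obtain ⟨η, hη⟩ : ∃ η, ∀ x, φ' ⬝ᵥ M *ᵥ x = η ⬝ᵥ x := ⟨_, dotProduct_mulVec _ _⟩
  have k1 : ∀ x, N *ᵥ x = 0 → χ ⬝ᵥ x = 0 := fun x e => by rw [← hχ, e, dotProduct_zero]
  have k2 : ∀ x, N *ᵥ x = 0 → M *ᵥ x = 0 := fun x e => by rw [m, k1 x e, e, zero_smul, sub_zero]
  have k3 : ∀ x, M *ᵥ x = 0 → η ⬝ᵥ x = 0 := fun x e => by rw [← hη, e, dotProduct_zero]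
  have nv : N *ᵥ v = 0 := hv ▸ z u
  have nw : N *ᵥ w = 0 := by rw [← hw, m, mulVec_sub, z, mulVec_smul, nv, smul_zero, sub_zero]
  have c1 := (hχ u).symm.trans hu
  have c2 := (hη u').symm.trans hu'
  rw [hv] at hu
  rw [hw] at hu'
  have c3 : φ ⬝ᵥ w = 0 := by rw [← hw, m, dotProduct_sub, hχ, dotProduct_smul, hu]; simp
  have mu : M *ᵥ u = 0 := by rw [m, c1, hv, one_smul, sub_self]
  have r : ∀ x, (M - vecMulVec w η) *ᵥ x = M *ᵥ x - (η ⬝ᵥ x) • w := fun x => by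
    rw [sub_mulVec, vecMulVec_mulVec, op_smul_eq_smul]
  have d : ∀ x, M *ᵥ x = (η ⬝ᵥ x) • w := fun x => by
    have := fin5 (l := M - vecMulVec w η) (u := u) (u' := u') nn k2 (fun x e => by rw [r, e, k3 x e, zero_smul, sub_zero])
      (fun e => by simp [← hv, e] at hu) mu (fun e => by simp [← hw, e] at hu') (by rw [r, hw, c2, one_smul, sub_self]) x
    rwa [r, sub_eq_zero] at this
  obtain ⟨e, he, k⟩ := SetLike.not_le_iff_exists.1 fun l : LinearMap.ker N.mulVecLin ≤ Submodule.span K (Set.range ![v, w]) => by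
    have := (ker3 nn).trans ((Submodule.finrank_mono l).trans (finrank_range_le_card _))
    simp at this
  obtain ⟨ξ, ee, k⟩ := exists_dot k
  have vv := k1 v nv
  have wv := k1 w nw
  have ev := k1 e he
  have vw := k3 v (k2 v nv)
  have ww := k3 w (k2 w nw)
  have ew := k3 e (k2 e he)
  have ve := k v (Submodule.subset_span ⟨0, rfl⟩)
  have we := k w (Submodule.subset_span ⟨1, rfl⟩)
  obtain ⟨s, s1, s2⟩ : ∃ s, χ ⬝ᵥ s = 1 ∧ η ⬝ᵥ s = 1 := ⟨u' + (1 - χ ⬝ᵥ u') • u, by simp [c1], by simp [c2, k3 u mu]⟩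
  obtain ⟨ζ, s3, s4⟩ : ∃ ζ, ζ ⬝ᵥ v = 1 ∧ ζ ⬝ᵥ w = 1 := ⟨φ' + (1 - φ' ⬝ᵥ v) • φ, by simp [hu], by simp [hu', c3]⟩
  have yy : tv e η ew * tv w ξ we * (tv e η ew * tv w ξ we) = tv w η ww := gl_ext fun x => by
    simp only [Units.val_mul, ← mulVec_mulVec, tv_mulVec, dotProduct_add, dotProduct_smul, smul_eq_mul, ww, we, ew, ee]
    linear_combination (norm := module) h2 • ((ξ ⬝ᵥ x) • w + (η ⬝ᵥ x) • e)
  refine ⟨tv v χ vv, tv_mem_SL .., _, mul_mem (tv_mem_SL e η ew) (tv_mem_SL w ξ we), _,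
    mul_mem (tv_mem_SL s (χ - η) (by simp [*])) (tv_mem_SL (w - v) ζ (by simp [*])), gl_ext fun x => ?_, gl_ext fun x => ?_,
    (mul_inv_eq_iff_eq_mul.2 (gl_ext fun x => ?_)).trans yy.symm, yy ▸ gl_ext fun x => ?_⟩ <;>
  simp only [Units.val_mul, ← mulVec_mulVec, tv_mulVec, dotProduct_add, dotProduct_sub, sub_dotProduct, dotProduct_smul,
    smul_eq_mul, ww, vv, vw, wv, ve, ev, s1, s2, s3, s4, hN, add_mulVec, one_mulVec, Units.val_one]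
  · linear_combination (norm := module) h2 • (χ ⬝ᵥ x) • v
  · module
  · module
  · linear_combination (norm := module) d x - m x

end CF.UsC
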