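import Cfsg.Agent.Us.LF2

/-! The local analysis of a `p`-group of unitary isometries: an invariant plane with small action. -/

set_option autoImplicit false

namespace CF.UsL

open Cfsg CF.MaxSub Matrix Module L4
open scoped MatrixGroups

variable {ι : Type} [Fintype ι] [DecidableEq ι] {F : Type*} [Field F] [Fintype F] {φ : FD ι F}
  {q p : ℕ} {U : Subgroup (GL ι F)} {W L : Submodule F (ι → F)} {y a : ι → F}

namespace L4.Su
variable (S : Su φ q p U W y L) (f : Fm U W L)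
include S

theorem bd {i j k n1 n2 : ℕ} (h0 : Nat.card U ≤ q ^ i * n1) (h1 : n1 ≤ q ^ j * n2)
    (h2 : n2 ≤ q ^ k * Nat.card (Cp U W)) (e : i + j + k = 9) : False :=
  fin S.h S.l (h0.trans ((Nat.mul_le_mul_left _ (h1.trans (Nat.mul_le_mul_left _ h2))).trans_eq (by
    rw [← e]; ring)))

theorem c1 : Fintype.card F = q ^ 2 := S.h.u.card
theorem c2 : Fintype.card (F × F) = q ^ 4 := by rw [Fintype.card_prod, S.c1]; ring
theorem c3 : Fintype.card (F × F × F) = q ^ 6 := by rw [Fintype.card_prod, S.c1, S.c2]; ring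

include f in
/-- reduction to case I -/
theorem red (hD : Nat.card U ≤ q ^ 1 * Nat.card (Cp U L)) :
    Nat.card (Cp U L) ≤ q ^ 4 * Nat.card (Mv U W L L) ∧ ∃ ψ : (ι → F) →ₗ[F] F,
      (∀ v ∈ L, ψ v = 0) ∧ If U W ψ ∧
      (∀ t ∈ Mv U W L L, ψ (nv t y) = 0 → ∀ v ∈ W, ψ v = 0 → nv t v = 0) ∧
      ∃ c b, Fx U b ∧ b ≠ 0 ∧ Tv U W ψ c b ∧ ¬ Ax φ U W y ψ c b := by
  have hI : Nat.card (Cp U L) ≤ q ^ 4 * Nat.card (Mv U W L L) := by
    by_cases h4 : ∀ g ∈ Cp U L, f.x4 (g.val *ᵥ f.w5) = 0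
    · exact S.c2 ▸ card_le' (fun g => (f.x3 (g.val *ᵥ f.w4), f.x3 (g.val *ᵥ f.w5)))
        fun g a g' a' e => S.toK f a a' (by rw [h4 g a, h4 g' a']) (Prod.ext_iff.1 e).1
          (Prod.ext_iff.1 e).2
    by_cases h3 : ∀ g ∈ Cp U L, f.x4 (g.val *ᵥ f.w5) = 0 → f.x3 (g.val *ᵥ f.w4) = 0
    · exact S.c2 ▸ card_le' (fun g => (f.x4 (g.val *ᵥ f.w5), f.x3 (g.val *ᵥ f.w5)))
        fun g a g' a' e => S.toK f a a' (Prod.ext_iff.1 e).1 (S.s3_eq f a.1 a'.1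
          (h3 _ (mul_mem (inv_mem a) a') (S.s4_div f a.1 a'.1 (Prod.ext_iff.1 e).1)))
          (Prod.ext_iff.1 e).2
    push Not at h4 h3
    obtain ⟨g4, a4, n4⟩ := h4
    obtain ⟨g3, a3, e3, n3⟩ := h3
    refine (S.bd (j := 6) (k := 2) hD (S.c3 ▸ card_le' (A := Mv U W L L)
      (fun g => (f.x4 (g.val *ᵥ f.w5), f.x3 (g.val *ᵥ f.w4), f.x3 (g.val *ᵥ f.w5)))
      fun g a g' a' e => ?_) (S.c1 ▸ card_le' (fun t => f.x3 (nv t y)) fun t a t' a' e => ?_)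
      rfl).elim
    · simp only [Prod.mk.injEq] at e
      exact S.toK f a a' e.1 e.2.1 e.2.2
    · have m := mul_mem (inv_mem a) a'
      have := S.two f a4 n4 a3 e3 n3 m
      exact S.toE f m (S.l_div f.z3 a a'.1 e) this.1 this.2
  refine ⟨hI, ?_⟩
  obtain ⟨τ, h, e, n⟩ : ∃ τ ∈ Cp U L, f.x4 (τ.val *ᵥ f.w5) = 0 ∧
      ¬ (f.x3 (τ.val *ᵥ f.w4) = 0 ∧ f.x3 (τ.val *ᵥ f.w5) = 0) := by
    by_contra n
    push Not at n
    refine S.bd (j := 2) (k := 6) hD (S.c1 ▸ card_le' (A := Mv U W L L)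
      (fun g => f.x4 (g.val *ᵥ f.w5)) fun g a g' a' e => ?_) (S.c3 ▸ card_le'
      (fun t => (f.x3 (nv t y), f.x4 (nv t y), f.x5 (nv t y))) fun t a t' a' e => ?_) rfl
    · have m := mul_mem (inv_mem a) a'
      have e4 := S.s4_div f a.1 a'.1 e
      have := n _ m e4
      simpa using S.toK f (one_mem _) m (by rw [e4]; simp [f.e5])
        (by rw [this.1]; simp [f.e4]) (by rw [this.2]; simp [f.e5])
    · simp only [Prod.mk.injEq] at e
      exact S.toE f (mul_mem (inv_mem a) a') (S.l_div f.z3 a a'.1 e.1) (S.l_div f.z4 a a'.1 e.2.1)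
        (S.l_div f.z5 a a'.1 e.2.2)
  obtain ⟨ψ, hψ⟩ : ∃ ψ, ψ = f.x3 (τ.val *ᵥ f.w4) • f.x4 + f.x3 (τ.val *ᵥ f.w5) • f.x5 := ⟨_, rfl⟩
  have zψ : ∀ v ∈ L, ψ v = 0 := fun v k => by simp [hψ, f.z4 v k, f.z5 v k]
  obtain ⟨t1, k1, n1⟩ : ∃ t ∈ Mv U W L L, ψ (nv t y) ≠ 0 := by
    by_contra n1
    push Not at n1
    by_cases h5 : f.x3 (τ.val *ᵥ f.w5) = 0
    · refine S.bd (k := 4) hD hI (S.c2 ▸ card_le' (fun t => (f.x3 (nv t y), f.x5 (nv t y)))
        fun t a t' a' e => ?_) rfl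
      have m := mul_mem (inv_mem a) a'
      exact S.toE f m (S.l_div f.z3 a a'.1 (Prod.ext_iff.1 e).1)
        (by simpa [hψ, h5, show _ ≠ _ from fun c => n ⟨c, h5⟩] using n1 _ m)
        (S.l_div f.z5 a a'.1 (Prod.ext_iff.1 e).2)
    · refine S.bd (k := 4) hD hI (S.c2 ▸ card_le' (fun t => (f.x3 (nv t y), f.x4 (nv t y)))
        fun t a t' a' e => ?_) rfl
      have m := mul_mem (inv_mem a) a'
      have := S.l_div f.z4 a a'.1 (Prod.ext_iff.1 e).2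
      exact S.toE f m (S.l_div f.z3 a a'.1 (Prod.ext_iff.1 e).1) this
        (by simpa [hψ, h5, this] using n1 _ m)
  obtain ⟨t', k', e', n'⟩ : ∃ t ∈ Mv U W L L, ψ (nv t y) = 0 ∧
      ¬ (f.x4 (nv t y) = 0 ∧ f.x5 (nv t y) = 0) := by
    by_contra n'
    push Not at n'
    refine S.bd (k := 4) hD hI (S.c2 ▸ card_le' (fun t => (f.x3 (nv t y), ψ (nv t y)))
      fun t a t' a' e => ?_) rfl
    have m := mul_mem (inv_mem a) a'
    have := n' _ m (S.l_div zψ a a'.1 (Prod.ext_iff.1 e).2)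
    exact S.toE f m (S.l_div f.z3 a a'.1 (Prod.ext_iff.1 e).1) this.1 this.2
  exact ⟨ψ, zψ, S.one f h e hψ k1 n1 k' e' n'⟩

end L4.Su

theorem Loc.lcase (h : Loc φ q p 5 U W y) (l : NL U W y) {w : ι → F} {β : F} (ha : a ∈ W) (hw : w ∈ W)
    (a0 : a ≠ 0) (fa : Fx U a) (hwa : w ∉ F ∙ a) (hβ : β ≠ 0)
    (s : ∀ g ∈ U, ∃ c : F, c * β + φ.σ (c * β) = 0 ∧ g.val *ᵥ w = w + c • a)
    (c : ∀ v ∈ W, Fx U v → v ∈ (F ∙ a) ⊔ F ∙ w)
    (ax : ∀ ψ t a, If U W ψ → Fx U a → a ≠ 0 → Tv U W ψ t a → Ax φ U W y ψ t a ∨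
      ∃ j ∈ W, j ≠ 0 ∧ Fx U j ∧ ∀ (θ : F) (t' : GL ι F), Tv U W ψ t' (θ • j) → φ.σ θ = θ) : False := by
  obtain ⟨L, hL⟩ : ∃ L, L = (F ∙ a) ⊔ F ∙ w := ⟨_, rfl⟩
  have mL : ∀ v, v ∈ L ↔ ∃ r r' : F, v = r • a + r' • w := fun v => by
    simp only [hL, mem_sup_iff, Submodule.mem_span_singleton]
    exact ⟨fun ⟨_, ⟨r, rfl⟩, e⟩ => ⟨r, e⟩, fun ⟨r, e⟩ => ⟨_, ⟨r, rfl⟩, e⟩⟩
  have ac : ∀ {g : GL ι F} {c : F}, g ∈ U → g.val *ᵥ w = w + c • a → ∀ r r' : F,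
      nv g (r • a + r' • w) = (r' * c) • a := fun k e r r' => by
    rw [nv_apply, mulVec_add, mulVec_smul, mulVec_smul, fa _ k, e]; module
  have i : Inv U L := fun g k v m => by
    obtain ⟨r, r', rfl⟩ := (mL v).1 m
    obtain ⟨c, -, e⟩ := s g k
    rw [mv_eq, ac k e]
    exact (mL _).2 ⟨r + r' * c, r', by module⟩
  have le : L ≤ W := by simp [hL, ha, hw]
  have S : Su φ q p U W y L := ⟨h, l, i, le, fun g k => h.tA l i le (fun v m b e => ?_) k⟩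
  swap
  · obtain ⟨r, r', rfl⟩ := (mL v).1 m
    have e' : ∀ θ : F, ∃ c, c * β + φ.σ (c * β) = 0 ∧ θ • b = (r' * c) • a := fun θ => by
      obtain ⟨g, k, e⟩ := e θ
      obtain ⟨c, e1, e2⟩ := s g k
      exact ⟨c, e1, by rw [← ac k e2 r, nv_apply, e, add_sub_cancel_left]⟩
    by_contra b0
    obtain ⟨c, -, e1⟩ := e' 1
    rw [one_smul] at e1
    have n := mul_ne_zero_iff.1 (left_ne_zero_of_smul (e1 ▸ b0))
    have e2 : ∀ θ : F, θ + φ.σ θ = 0 := fun θ => by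
      obtain ⟨c', e2, e3⟩ := e' (θ / (c * β))
      rw [e1, smul_smul] at e3
      have : c' * β = θ := by
        have := smul_left_injective F a0 e3
        field_simp [n.1, n.2] at this
        linear_combination -this
      rwa [this] at e2
    obtain ⟨θ, e3⟩ := h.u.exists_ne
    have := e2 1
    rw [map_one] at this
    exact e3 (by linear_combination e2 θ - θ * this)
  obtain ⟨f⟩ := exists_fm h i le (by
    have := rk_lt hwa
    have := rk_le (L := F ∙ a) w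
    rw [finrank_span_singleton a0, ← hL] at *
    omega)
  have mD : ∀ g ∈ U, g.val *ᵥ w = w → g ∈ Cp U L := fun g k e => ⟨k, fun v m => by
    obtain ⟨r, r', rfl⟩ := (mL v).1 m
    rw [mv_eq, ac (c := 0) k (by simpa using e)]; simp⟩
  have hD : Nat.card U ≤ q ^ 1 * Nat.card (Cp U L) :=
    (card_le (fun g => g.val *ᵥ w) ((fun c => w + c • a) '' {c | c * β + φ.σ (c * β) = 0})
      (Set.toFinite _) (fun g k => (s g k).imp fun c e => ⟨e.1, e.2.symm⟩)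
      fun g k g' k' e => mD _ (mul_mem (inv_mem k) k') (inv_mul_fix e)).trans
      (Nat.mul_le_mul_right _ ((Set.ncard_image_le (Set.toFinite _)).trans_eq (by
        rw [h.line hβ, pow_one])))
  obtain ⟨hI, ψ, zψ, iψ, kψ, c', b, fb, b0, tb, nb⟩ := S.red f hD
  obtain ⟨j, mj, j0, fj, hj⟩ := (ax ψ c' b iψ fb b0 tb).resolve_left nb
  obtain ⟨w', m', e'⟩ : ∃ w' ∈ W, ψ w' = 1 := by
    obtain ⟨w', m', e'⟩ := iψ.ne
    exact ⟨(ψ w')⁻¹ • w', W.smul_mem _ m', by simp [e']⟩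
  obtain ⟨H, hH⟩ : ∃ H, H = W ⊓ LinearMap.ker ψ := ⟨_, rfl⟩
  have LH : L ≤ H := fun v k => hH ▸ ⟨le k, zψ v k⟩
  have tv : ∀ {t T}, t ∈ Mv U W H T → ∀ v ∈ W, nv t v = ψ v • nv t w' := fun k v m => by
    have := k.2.1 (v - ψ v • w') (hH ▸ ⟨sub_mem m (W.smul_mem _ m'), by simp [e']⟩)
    rwa [map_sub, map_smul, sub_eq_zero] at this
  have k0 : Mv U W H L ≤ Mv U W L L := fun t k =>
    ⟨k.1, fun v m => k.2.1 v (LH m), fun v m => ⟨(k.2.2 v m).1, (k.2.2 v m).1⟩⟩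
  have B1 : Nat.card (Mv U W L L) ≤ q ^ 2 * Nat.card (Mv U W H L) :=
    S.c1 ▸ card_le' (fun t => ψ (nv t y)) fun t k t' k' e => by
      have m := mul_mem (inv_mem k) k'
      exact ⟨m.1, fun v a => kψ _ m (S.l_div zψ k k'.1 e) v (hH ▸ a).1 (hH ▸ a).2,
        fun v a => ⟨mv_L m a, LH (mv_L m a)⟩⟩
  have cS : ((fun θ : F => θ • j) '' {θ | φ.σ θ = θ}).ncard ≤ q ^ 1 := by
    obtain ⟨ε, ε0, e⟩ := h.u.exists_skew
    rw [h.u.eps, one_mul, add_eq_zero_iff_eq_neg] at e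
    refine (Set.ncard_image_le (Set.toFinite _)).trans_eq ?_
    rw [pow_one, ← h.line ε0]
    congr 1
    ext θ
    simp only [Set.mem_ofPred_eq, map_mul, e]
    exact ⟨fun a => by rw [a]; ring, fun a => mul_right_cancel₀ ε0 (by linear_combination -a)⟩
  have B3 : Nat.card (Mv U W H (F ∙ j)) ≤ q ^ 1 * Nat.card (Cp U W) :=
    (card_le (fun t => nv t w') _ (Set.toFinite _) (fun t k => by
      obtain ⟨θ, e⟩ := Submodule.mem_span_singleton.1 (k.2.2 w' m').1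
      exact ⟨θ, hj θ t ⟨k.1, fun v m => by rw [mv_eq, tv k v m, e]⟩, e⟩) fun t k t' k' e => by
      have m := mul_mem (inv_mem k) k'
      refine ⟨m.1, fun v a => ?_⟩
      rw [mv_eq, tv m v a, nv_div, mv_eq t, mv_eq t', e]
      simp).trans (Nat.mul_le_mul_right _ cS)
  have B2 : ∀ t ∈ Mv U W H L, ∀ t' ∈ Mv U W H L, nv t' w' - nv t w' ∈ F ∙ j →
      t⁻¹ * t' ∈ Mv U W H (F ∙ j) := fun t k t' k' e => by
    have m := mul_mem (inv_mem k) k'
    refine ⟨m.1, m.2.1, fun v a => ⟨?_, (m.2.2 v a).2⟩⟩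
    rw [tv m v a, Su.n_mul (inv_mem (k0 k)) (k0 k') m', Su.n_inv (k0 k) m', neg_add_eq_sub]
    exact Submodule.smul_mem _ _ e
  obtain ⟨r, r', ej⟩ := (mL j).1 (hL ▸ c j mj fj)
  by_cases hU : ∀ g ∈ U, g.val *ᵥ w = w
  · obtain ⟨j', hj'⟩ : ∃ j', ∀ v ∈ L, ∃ x x' : F, v = x • j + x' • j' := by
      by_cases h0 : r' = 0
      · have : r ≠ 0 := fun e => j0 (by simp [ej, e, h0])
        refine ⟨w, fun v m => ?_⟩
        obtain ⟨x, x', rfl⟩ := (mL v).1 m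
        exact ⟨x / r, x', by simp [ej, h0, smul_smul, this]⟩
      · refine ⟨a, fun v m => ?_⟩
        obtain ⟨x, x', rfl⟩ := (mL v).1 m
        refine ⟨x' / r', x - x' / r' * r, ?_⟩
        rw [ej, smul_add, smul_smul, smul_smul, div_mul_cancel₀ _ h0]
        module
    choose! x x' e using fun t (k : t ∈ Mv U W H L) => hj' _ (k.2.2 w' m').1
    have B := card_le' x' fun t k t' k' e1 => B2 t k t' k' (by
      rw [e t k, e t' k', e1, add_sub_add_right_eq_sub, ← sub_smul]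
      exact Submodule.smul_mem _ _ (Submodule.mem_span_singleton_self j))
    refine S.bd (i := 4) (j := 4) ((Subgroup.card_le_of_le fun g k => mD g k (hU g k)).trans hI)
      (B1.trans ((Nat.mul_le_mul_left _ B).trans_eq ?_)) B3 rfl
    rw [S.c1]; ring
  · push Not at hU
    obtain ⟨u, k, n⟩ := hU
    obtain ⟨c0, -, e0⟩ := s u k
    have n0 : c0 ≠ 0 := fun e => n (by simpa [e] using e0)
    have fx : ∀ r r' : F, nv u (r • a + r' • w) = 0 → r' = 0 := fun r r' e => by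
      simpa [ac k e0, a0, n0] using e
    obtain rfl := fx r r' (ej ▸ sub_eq_zero.2 (fj u k))
    have r0 : r ≠ 0 := fun e => j0 (by simp [ej, e])
    have aj : ∀ x : F, x • a = (x / r) • j := fun x => by simp [ej, smul_smul, r0]
    have B := (card_le (fun t => nv u (nv t w')) _ (Set.toFinite _) (fun t kt => by
      obtain ⟨x, x', e⟩ := (mL _).1 (kt.2.2 w' m').1
      have e1 : nv u (nv t w') = (x' * c0 / r) • j := by rw [e, ac k e0, aj]
      refine ⟨_, hj _ _ ⟨(S.cm k (k0 kt)).1, fun v m => ?_⟩, e1.symm⟩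
      have m1 := h.inv _ (inv_mem k) v m
      have := S.n_cm k (k0 kt) m1
      rw [mv_inv, tv kt _ m1, tv kt v m, iψ.inv _ (inv_mem k) v m, mulVec_smul, ← smul_sub,
        ← nv_apply, e1] at this
      rw [mv_eq, this]) fun t kt t' kt' e => B2 t kt t' kt' (by
      obtain ⟨x, x', e1⟩ := (mL _).1 (sub_mem (kt'.2.2 w' m').1 (kt.2.2 w' m').1)
      obtain rfl := fx x x' (by rw [← e1, map_sub, sub_eq_zero]; exact e.symm)
      rw [e1, zero_smul, add_zero, aj]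
      exact Submodule.smul_mem _ _ (Submodule.mem_span_singleton_self j))).trans
      (Nat.mul_le_mul_right _ cS)
    refine S.bd (i := 5) (j := 3) (hD.trans ((Nat.mul_le_mul_left _ hI).trans_eq (by ring)))
      (B1.trans ((Nat.mul_le_mul_left _ B).trans_eq (by ring))) B3 rfl

end CF.UsL
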