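import Mathlib

/-! The rank `3` case of the local analysis: a group of unitriangular `6 × 6` matrices. -/

set_option autoImplicit false

namespace CF.UsL.L5

/-- the entries of the matrices with respect to the basis `a, v, x₃, w₄, w₅, y` -/
structure Dt (G F : Type*) [Group G] [Field F] where
  σ : F →+* F
  θ : F
  hθ : σ θ ≠ θ
  (al mu ga n0 n1 n2 s p0 p1 p2 l r0 r1 r2 : G → F)
  (b β : F)
  b0 : b ≠ 0
  β0 : β ≠ 0
  hmu : ∀ g, mu g = b * σ (al g)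
  hga : ∀ g, al g = 0 → ga g * β + σ (ga g * β) = 0
  mal : ∀ g h, al (g * h) = al g + al h
  mga : ∀ g h, ga (g * h) = ga g + al g * mu h + ga h
  mn2 : ∀ g h, n2 (g * h) = n2 g + n2 h
  mn1 : ∀ g h, n1 (g * h) = n1 g + mu g * n2 h + n1 h
  mn0 : ∀ g h, n0 (g * h) = n0 g + ga g * n2 h + al g * n1 h + n0 h
  ms : ∀ g h, s (g * h) = s g + s h
  mp2 : ∀ g h, p2 (g * h) = p2 g + n2 g * s h + p2 h
  mp1 : ∀ g h, p1 (g * h) = p1 g + n1 g * s h + mu g * p2 h + p1 h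
  mp0 : ∀ g h, p0 (g * h) = p0 g + n0 g * s h + ga g * p2 h + al g * p1 h + p0 h
  ml : ∀ g h, l (g * h) = l g + s g * al h + l h
  mr2 : ∀ g h, r2 (g * h) = r2 g + p2 g * al h + n2 g * l h + r2 h
  mr1 : ∀ g h, r1 (g * h) = r1 g + p1 g * al h + n1 g * l h + mu g * r2 h + r1 h
  mr0 : ∀ g h, r0 (g * h) = r0 g + p0 g * al h + n0 g * l h + ga g * r2 h + al g * r1 h + r0 h
  tr : ∀ z w, ∃ g, al g = z ∧ l g = w
  nl : ∀ t, al t = 0 → ga t = 0 → n0 t = 0 → n1 t = 0 → n2 t = 0 → p0 t = 0 → p1 t = 0 → p2 t = 0 →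
    s t = 0 → r0 t = 0 ∧ r1 t = 0 ∧ r2 t = 0 ∧ l t = 0
  c1 : ∀ u1 u2 u3, (∀ g, n2 g * u3 = 0 ∧ n1 g * u3 + mu g * u2 = 0 ∧
    n0 g * u3 + ga g * u2 + al g * u1 = 0) → u1 = 0 ∧ u2 = 0 ∧ u3 = 0

namespace Dt

variable {G F : Type*} [Group G] [Field F] (c : Dt G F)

/-- trivial on `X` -/
def D (g : G) : Prop := c.al g = 0 ∧ c.ga g = 0
/-- trivial on `H` -/
def B (g : G) : Prop := c.D g ∧ c.n0 g = 0 ∧ c.n1 g = 0 ∧ c.n2 g = 0
/-- trivial on `W` -/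
def E (g : G) : Prop := c.B g ∧ c.p0 g = 0 ∧ c.p1 g = 0 ∧ c.p2 g = 0 ∧ c.s g = 0

include c in
theorem lin {A A' : F} (h : ∀ z, A * c.σ z = A' * z) : A = 0 := by
  have h1 := h 1
  rw [map_one] at h1
  exact (mul_eq_zero.1 (show A * (c.σ c.θ - c.θ) = 0 by
    linear_combination h c.θ - c.θ * h1)).resolve_right (sub_ne_zero.2 c.hθ)

include c in
theorem quad {A A' : F} (h : ∀ z, A * z ^ 2 = A' * z) : A = 0 := by
  have h0 : c.θ ≠ 0 := fun e => c.hθ (by rw [e, map_zero])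
  have h1 : c.θ - 1 ≠ 0 := fun e => c.hθ (by rw [sub_eq_zero.1 e, map_one])
  exact (mul_eq_zero.1 (show A * (c.θ * (c.θ - 1)) = 0 by
    linear_combination h c.θ - c.θ * h 1)).resolve_right (mul_ne_zero h0 h1)

theorem line (h : ∀ z, z * c.β + c.σ (z * c.β) = 0) : False := by
  have h1 := h (1 / c.β)
  have h2 := h (c.θ / c.β)
  rw [div_mul_cancel₀ _ c.β0] at h1 h2
  rw [map_one] at h1
  exact c.hθ (by linear_combination h2 - c.θ * h1)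

theorem al_surj (z : F) : ∃ g, c.al g = z := (c.tr z 0).imp fun _ h => h.1

theorem mu_surj (z : F) (hσ : ∀ x, c.σ (c.σ x) = x) : ∃ g, c.mu g = z := by
  obtain ⟨g, hg⟩ := c.al_surj (c.σ (z / c.b))
  exact ⟨g, by rw [c.hmu, hg, hσ, mul_div_cancel₀ _ c.b0]⟩

variable {c}

theorem mu0 {g : G} (h : c.al g = 0) : c.mu g = 0 := by rw [c.hmu, h, map_zero, mul_zero]

theorem E.nl {t : G} (h : c.E t) : c.r0 t = 0 ∧ c.r1 t = 0 ∧ c.r2 t = 0 ∧ c.l t = 0 :=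
  c.nl t h.1.1.1 h.1.1.2 h.1.2.1 h.1.2.2.1 h.1.2.2.2 h.2.1 h.2.2.1 h.2.2.2.1 h.2.2.2.2

/-- quotients in `D` -/
theorem D.quo {d d' : G} (h : c.D d) (h' : c.D d') : c.D (d⁻¹ * d') ∧
    c.n0 d' = c.n0 d + c.n0 (d⁻¹ * d') ∧ c.n1 d' = c.n1 d + c.n1 (d⁻¹ * d') ∧
    c.n2 d' = c.n2 d + c.n2 (d⁻¹ * d') ∧ c.s d' = c.s d + c.s (d⁻¹ * d') ∧
    c.p0 d' = c.p0 d + c.n0 d * c.s (d⁻¹ * d') + c.p0 (d⁻¹ * d') ∧
    c.p1 d' = c.p1 d + c.n1 d * c.s (d⁻¹ * d') + c.p1 (d⁻¹ * d') ∧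
    c.p2 d' = c.p2 d + c.n2 d * c.s (d⁻¹ * d') + c.p2 (d⁻¹ * d') ∧
    c.r0 d' = c.r0 d + c.n0 d * c.l (d⁻¹ * d') + c.r0 (d⁻¹ * d') := by
  generalize ht : d⁻¹ * d' = t
  obtain rfl : d' = d * t := by rw [← ht]; simp
  obtain ⟨h1, h2⟩ := h
  obtain ⟨h3, h4⟩ := h'
  rw [c.mal, h1, zero_add] at h3
  rw [c.mga, h1, h2] at h4
  simp only [c.mn0, c.mn1, c.mn2, c.ms, c.mp0, c.mp1, c.mp2, c.mr0, h1, h2, h3, mu0 h1, zero_mul,
    mul_zero, add_zero, and_self, and_true]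
  exact ⟨h3, by linear_combination h4⟩

/-- commutators with elements of `D` -/
theorem D.cm {d : G} (h : c.D d) (g : G) : ∃ e, c.D e ∧ c.n2 e = 0 ∧ c.n1 e = c.mu g * c.n2 d ∧
    c.n0 e = c.ga g * c.n2 d + c.al g * c.n1 d ∧ c.s e = 0 ∧
    c.p2 e = c.n2 g * c.s d - c.n2 d * c.s g ∧
    c.p1 e = c.n1 g * c.s d + c.mu g * c.p2 d - c.n1 d * c.s g - c.n1 e * (c.s d + c.s g) ∧
    c.p0 e = c.n0 g * c.s d + c.ga g * c.p2 d + c.al g * c.p1 d - c.n0 d * c.s g -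
      c.n0 e * (c.s d + c.s g) ∧
    c.l e = - (c.s d * c.al g) ∧
    c.r2 e = c.n2 g * c.l d - c.p2 d * c.al g - c.n2 d * c.l g - c.p2 e * c.al g ∧
    c.r1 e = c.n1 g * c.l d + c.mu g * c.r2 d - c.p1 d * c.al g - c.n1 d * c.l g - c.p1 e * c.al g -
      c.n1 e * (c.l d + c.s d * c.al g + c.l g) ∧
    c.r0 e = c.n0 g * c.l d + c.ga g * c.r2 d + c.al g * c.r1 d - c.p0 d * c.al g - c.n0 d * c.l g -
      c.p0 e * c.al g - c.n0 e * (c.l d + c.s d * c.al g + c.l g) := by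
  obtain ⟨e, he⟩ : ∃ e, e * (d * g) = g * d := ⟨g * d * (d * g)⁻¹, inv_mul_cancel_right _ _⟩
  obtain ⟨h1, h2⟩ := h
  have a1 := congrArg c.al he
  simp only [c.mal, h1, zero_add, add_zero, add_eq_right] at a1
  have a2 := congrArg c.ga he
  simp only [c.mga, h1, h2, a1, mu0 h1, zero_mul, mul_zero, zero_add, add_zero, add_eq_right] at a2
  have a3 := congrArg c.n2 he
  have a4 := congrArg c.n1 he
  have a5 := congrArg c.n0 he
  have a6 := congrArg c.s he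
  have a7 := congrArg c.p2 he
  have a8 := congrArg c.p1 he
  have a9 := congrArg c.p0 he
  have b1 := congrArg c.l he
  have b2 := congrArg c.r2 he
  have b3 := congrArg c.r1 he
  have b4 := congrArg c.r0 he
  simp only [c.mal, c.mn0, c.mn1, c.mn2, c.ms, c.mp0, c.mp1, c.mp2, c.ml, c.mr0, c.mr1, c.mr2, h1, h2,
    a1, a2, mu0 h1, mu0 a1, zero_mul, mul_zero, add_zero, zero_add] at a3 a4 a5 a6 a7 a8 a9 b1 b2 b3 b4
  have e1 : c.n2 e = 0 := by linear_combination a3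
  have e2 : c.s e = 0 := by linear_combination a6
  rw [e1] at a7 b2
  rw [e2] at b1
  exact ⟨e, ⟨a1, a2⟩, e1, by linear_combination a4, by linear_combination a5, e2,
    by linear_combination a7, by linear_combination a8, by linear_combination a9,
    by linear_combination b1, by linear_combination b2, by linear_combination b3,
    by linear_combination b4⟩

/-- commutators with elements of `B` -/
theorem B.cm {t : G} (h : c.B t) (g : G) : ∃ e, c.B e ∧ c.s e = 0 ∧ c.p2 e = c.n2 g * c.s t ∧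
    c.p1 e = c.n1 g * c.s t + c.mu g * c.p2 t ∧
    c.p0 e = c.n0 g * c.s t + c.ga g * c.p2 t + c.al g * c.p1 t ∧ c.l e = - (c.s t * c.al g) ∧
    c.r2 e = c.n2 g * c.l t - c.p2 t * c.al g - c.p2 e * c.al g ∧
    c.r1 e = c.n1 g * c.l t + c.mu g * c.r2 t - c.p1 t * c.al g - c.p1 e * c.al g ∧
    c.r0 e = c.n0 g * c.l t + c.ga g * c.r2 t + c.al g * c.r1 t - c.p0 t * c.al g - c.p0 e * c.al g := by
  obtain ⟨h0, h1, h2, h3⟩ := h
  obtain ⟨e, a1, a2, a3, a4, a5⟩ := h0.cm g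
  simp only [h2, h3, mul_zero, add_zero] at a3 a4
  simp only [h1, h2, h3, a3, a4, zero_mul, sub_zero] at a5
  exact ⟨e, ⟨a1, a4, a3, a2⟩, a5⟩

/-- transvections with centre `a` -/
theorem B.f0 {t : G} (h : c.B t) (h1 : c.p1 t = 0) (h2 : c.p2 t = 0) (h3 : c.s t = 0) :
    c.r1 t = c.p0 t ∧ c.r2 t = 0 ∧ c.l t = 0 := by
  have := c.c1 (c.r1 t - c.p0 t) (c.r2 t) (c.l t) fun g => by
    obtain ⟨e, a1, a2, a3, a4, a5, -, a7, a8, a9⟩ := h.cm g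
    simp only [h1, h2, h3, mul_zero, add_zero] at a3 a4 a5
    obtain ⟨b1, b2, b3, -⟩ := E.nl ⟨a1, a5, a4, a3, a2⟩
    simp only [h1, h2, a3, a4, a5, b1, b2, b3, zero_mul, sub_zero] at a7 a8 a9
    exact ⟨a7.symm, a8.symm, by linear_combination -a9⟩
  exact ⟨sub_eq_zero.1 this.1, this.2⟩

variable (c) in
/-- the graph of the function `f` -/
def Fr (z w : F) : Prop := ∃ t, c.B t ∧ c.p0 t = z ∧ c.p1 t = 0 ∧ c.p2 t = 0 ∧ c.s t = 0 ∧ c.r0 t = w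

theorem Fr.uniq {z w w' : F} (h : c.Fr z w) (h' : c.Fr z w') : w = w' := by
  obtain ⟨t, ⟨a0, a1, a2, a3⟩, a4, a5, a6, a7, a8⟩ := h
  obtain ⟨t', ⟨b0, b1, b2, b3⟩, b4, b5, b6, b7, b8⟩ := h'
  obtain ⟨e0, e1, e2, e3, e4, e5, e6, e7, e8⟩ := a0.quo b0
  simp only [a1, a2, a3, a4, a5, a6, a7, a8, b1, b2, b3, b4, b5, b6, b7, b8, zero_add, zero_mul, add_zero,
    left_eq_add] at e1 e2 e3 e4 e5 e6 e7 e8
  rw [e8, (E.nl ⟨⟨e0, e1.symm, e2.symm, e3.symm⟩, e5, e6.symm, e7.symm, e4.symm⟩).1, add_zero]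

theorem B.one {t : G} (h : c.B t) (h1 : c.p1 t ≠ 0) (h2 : c.p2 t = 0) (h3 : c.s t = 0) (h4 : c.l t = 0) :
    ∃ κ, ∀ z, c.Fr (z * c.p1 t) (κ * z - c.p1 t * z ^ 2) := by
  have k : ∀ g, ∃ e, c.B e ∧ c.p0 e = c.al g * c.p1 t ∧ c.p1 e = 0 ∧ c.p2 e = 0 ∧ c.s e = 0 ∧
      c.r0 e = c.ga g * c.r2 t + (c.r1 t - c.p0 t) * c.al g - c.p1 t * c.al g ^ 2 ∧
      c.b * c.r2 t * c.σ (c.al g) = 2 * c.p1 t * c.al g := fun g => by
    obtain ⟨e, a1, a2, a3, a4, a5, -, -, a8, a9⟩ := h.cm g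
    simp only [h2, h3, mul_zero, add_zero, zero_add] at a3 a4 a5
    have := (a1.f0 a4 a3 a2).1
    rw [h4, a5] at a9
    rw [h4, a4, this, a5, c.hmu] at a8
    exact ⟨e, a1, a5, a4, a3, a2, by linear_combination a9, by linear_combination -a8⟩
  have h5 : c.b * c.r2 t = 0 := c.lin (A' := 2 * c.p1 t) fun z => by
    obtain ⟨g, rfl⟩ := c.al_surj z
    obtain ⟨e, -, -, -, -, -, -, a⟩ := k g
    exact a
  refine ⟨c.r1 t - c.p0 t, fun z => ?_⟩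
  obtain ⟨g, rfl⟩ := c.al_surj z
  obtain ⟨e, a1, a2, a3, a4, a5, a6, -⟩ := k g
  rw [(mul_eq_zero.1 h5).resolve_left c.b0, mul_zero, zero_add] at a6
  exact (fun _ => ⟨e, a1, a2, a3, a4, a5, a6⟩) h1

theorem B.two {t t' : G} (h : c.B t) (h1 : c.p1 t ≠ 0) (h2 : c.p2 t = 0) (h3 : c.s t = 0)
    (h4 : c.l t = 0) (k : c.B t') (k1 : c.p1 t' ≠ 0) (k2 : c.p2 t' = 0) (k3 : c.s t' = 0)
    (k4 : c.l t' = 0) : c.p1 t = c.p1 t' := by
  obtain ⟨κ, a⟩ := h.one h1 h2 h3 h4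
  obtain ⟨κ', a'⟩ := k.one k1 k2 k3 k4
  have := c.quad (A := c.p1 t * c.p1 t' * (c.p1 t - c.p1 t')) (A' := κ' * c.p1 t - κ * c.p1 t') fun z => by
    have := (a (z * c.p1 t')).uniq (mul_right_comm z _ _ ▸ a' (z * c.p1 t))
    linear_combination this
  exact sub_eq_zero.1 ((mul_eq_zero.1 this).resolve_left (mul_ne_zero h1 k1))

/-- `Σ ∩ X ≤ l` -/
theorem B.lemA (hσ : ∀ x, c.σ (c.σ x) = x) {t : G} (h : c.B t) (h1 : c.s t = 0) : c.p2 t = 0 := by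
  by_contra h2
  have k : ∀ z, ∃ e, c.B e ∧ c.s e = 0 ∧ c.p2 e = 0 ∧ c.p1 e = z := fun z => by
    obtain ⟨g, hg⟩ := c.mu_surj (z / c.p2 t) hσ
    obtain ⟨e, a1, a2, a3, a4, -⟩ := h.cm g
    exact ⟨e, a1, a2, by rw [a3, h1, mul_zero], by rw [a4, h1, hg, div_mul_cancel₀ _ h2]; simp⟩
  obtain ⟨t', b1, b2, b3, b4⟩ : ∃ e, c.B e ∧ c.s e = 0 ∧ c.p2 e = 0 ∧ c.l e ≠ 0 := by
    by_contra! hn
    obtain ⟨e, a1, a2, a3, a4⟩ := k 1
    obtain ⟨e', a1', a2', a3', a4'⟩ := k c.θ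
    have := a1.two (a4 ▸ one_ne_zero) a3 a2 (hn e a1 a2 a3) a1'
      (fun e => c.hθ (by rw [← a4', e, map_zero])) a3' a2' (hn e' a1' a2' a3')
    exact c.hθ (by rw [← a4', ← this, a4, map_one])
  have m : ∀ e, c.B e → c.s e = 0 → c.p2 e = 0 → ∀ g, c.n2 g * c.l e = 0 ∧
      c.n1 g * c.l e + c.b * c.σ (c.al g) * c.r2 e = 2 * c.al g * c.p1 e := fun e a1 a2 a3 g => by
    obtain ⟨e', a4, a5, a6, a7, a8, -, a9, a10, -⟩ := a1.cm g
    simp only [a2, a3, mul_zero, add_zero, zero_add] at a6 a7 a8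
    obtain ⟨b1, b2, -⟩ := a4.f0 a7 a6 a5
    rw [b2, a3, a6] at a9
    rw [b1, a8, a7, c.hmu] at a10
    exact ⟨by linear_combination -a9, by linear_combination -a10⟩
  obtain ⟨g, hg⟩ := c.al_surj 1
  obtain ⟨e, a1, a2, a3, -, -, a6, a7, -⟩ := h.cm g
  rw [h1, mul_zero] at a3
  rw [h1, zero_mul, neg_zero] at a6
  rw [(mul_eq_zero.1 (m t' b1 b2 b3 g).1).resolve_right b4, a3, hg] at a7
  have := c.lin (A := c.b * c.r2 e) (A' := 2 * c.p1 e) fun z => by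
    obtain ⟨g, rfl⟩ := c.al_surj z
    linear_combination (m e a1 a2 a3 g).2 - c.n1 g * a6
  exact h2 (by linear_combination a7 - (mul_eq_zero.1 this).resolve_left c.b0)

theorem D.lemH {d : G} (h : c.D d) (h0 : c.n0 d ≠ 0) (h1 : c.n1 d = 0) (h2 : c.n2 d = 0) (h3 : c.s d = 0) :
    c.l d ≠ 0 := fun h4 => by
  have k : ∀ g, c.al g = 0 → c.ga g * c.r2 d = c.n0 d * c.l g := fun g hg => by
    obtain ⟨e, a1, a2, a3, a4, a5, a6, a7, -, -, -, a8, a9⟩ := h.cm g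
    simp only [h1, h2, h3, hg, mu0 hg, mul_zero, zero_mul, add_zero, sub_zero] at a3 a4 a6
    simp only [h1, h3, h4, hg, mu0 hg, a3, a4, mul_zero, zero_mul, add_zero, zero_add, sub_zero] at a7 a8 a9
    have b : c.B e := ⟨a1, a4, a3, a2⟩
    rw [(E.nl ⟨b, (b.f0 a7 a6 a5).1.symm.trans a8, a7, a6, a5⟩).1] at a9
    linear_combination -a9
  by_cases h5 : c.r2 d = 0
  · obtain ⟨g, a1, a2⟩ := c.tr 0 1
    exact h0 (by linear_combination c.ga g * h5 - k g a1 - c.n0 d * a2)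
  · refine c.line fun z => ?_
    obtain ⟨g, a1, a2⟩ := c.tr 0 (z * c.r2 d / c.n0 d)
    have := k g a1
    rw [a2, mul_div_cancel₀ _ h0] at this
    rw [← mul_right_cancel₀ h5 this]
    exact c.hga g a1

/-- `Ξ ≤ l` -/
theorem D.lemG (hσ : ∀ x, c.σ (c.σ x) = x) {d : G} (h : c.D d) : c.n2 d = 0 := by
  by_contra h2
  obtain ⟨g, hg⟩ := c.mu_surj 1 hσ
  obtain ⟨e, a1, a2, a3, -, a5, -⟩ := h.cm g
  obtain ⟨g', hg'⟩ := c.al_surj 1
  obtain ⟨e', b1, b2, b3, b4, b5, -, -, -, b6, -⟩ := a1.cm g'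
  exact b1.lemH (by simpa [b4, a2, a3, hg, hg'] using h2) (by rw [b3, a2, mul_zero]) b2 b5
    (by rw [b6, a5, zero_mul, neg_zero])

theorem main (hσ : ∀ x, c.σ (c.σ x) = x) :
    ∃ f : G → F × F × F, ∀ d d', c.D d → c.D d' → f d = f d' → c.E (d⁻¹ * d') := by
  by_cases hD : ∀ d, c.D d → c.B d
  · refine ⟨fun d => (c.p0 d, c.p1 d, c.s d), fun d d' h h' e => ?_⟩
    obtain ⟨e0, -, -, -, e4, e5, e6, -⟩ := h.quo h'
    simp only [Prod.mk.injEq] at e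
    rw [e.2.2, left_eq_add] at e4
    rw [e.1, e4, mul_zero, add_zero, left_eq_add] at e5
    rw [e.2.1, e4, mul_zero, add_zero, left_eq_add] at e6
    exact ⟨hD _ e0, e5, e6, (hD _ e0).lemA hσ e4, e4⟩
  push Not at hD
  obtain ⟨d0, h0, h1⟩ := hD
  have k1 : ∀ t, c.B t → c.s t = 0 → c.l t = 0 := fun t a1 a2 => by
    by_contra a3
    obtain ⟨e, b1, b2, b3, b4, b5, -, b7, b8, b9⟩ := a1.cm d0
    simp only [a2, h0.1, h0.2, mu0 h0.1, mul_zero, zero_mul, add_zero, sub_zero] at b3 b4 b5 b7 b8 b9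
    obtain ⟨c1, c2, c3, -⟩ := E.nl ⟨b1, b5, b4, b3, b2⟩
    exact h1 ⟨h0, (mul_eq_zero.1 (b9.symm.trans c1)).resolve_right a3,
      (mul_eq_zero.1 (b8.symm.trans c2)).resolve_right a3, (mul_eq_zero.1 (b7.symm.trans c3)).resolve_right a3⟩
  have k2 : ∀ t, c.B t → c.s t = 0 := fun t a1 => by
    obtain ⟨g, hg⟩ := c.al_surj 1
    obtain ⟨e, b1, b2, -, -, -, b6, -⟩ := a1.cm g
    linear_combination b6 - k1 e b1 b2 - c.s t * hg
  by_cases hB : ∀ t, c.B t → c.p1 t = 0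
  · refine ⟨fun d => (c.n0 d, c.n1 d, c.p0 d), fun d d' h h' e => ?_⟩
    obtain ⟨e0, e1, e2, -, -, e5, -⟩ := h.quo h'
    simp only [Prod.mk.injEq] at e
    rw [e.1, left_eq_add] at e1
    rw [e.2.1, left_eq_add] at e2
    have b : c.B _ := ⟨e0, e1, e2, e0.lemG hσ⟩
    rw [e.2.2, k2 _ b, mul_zero, add_zero, left_eq_add] at e5
    exact ⟨b, e5, hB _ b, b.lemA hσ (k2 _ b), k2 _ b⟩
  by_cases hX : ∀ d, c.D d → c.n1 d = 0
  · refine ⟨fun d => (c.n0 d, c.p0 d, c.p1 d), fun d d' h h' e => ?_⟩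
    obtain ⟨e0, e1, -, -, -, e5, e6, -⟩ := h.quo h'
    simp only [Prod.mk.injEq] at e
    rw [e.1, left_eq_add] at e1
    have b : c.B _ := ⟨e0, e1, hX _ e0, e0.lemG hσ⟩
    rw [e.2.1, k2 _ b, mul_zero, add_zero, left_eq_add] at e5
    rw [e.2.2, k2 _ b, mul_zero, add_zero, left_eq_add] at e6
    exact ⟨b, e5, e6, b.lemA hσ (k2 _ b), k2 _ b⟩
  exfalso
  push Not at hB hX
  obtain ⟨t, t1, t2⟩ := hB
  obtain ⟨g, g1, g2⟩ := hX
  obtain ⟨κ, hκ⟩ := t1.one t2 (t1.lemA hσ (k2 t t1)) (k2 t t1) (k1 t t1 (k2 t t1))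
  have g3 := g1.lemG hσ
  have k3 : ∀ z, ∃ d, c.D d ∧ c.n0 d = z * c.n1 g ∧ c.n1 d = 0 ∧ c.n2 d = 0 ∧ c.s d = 0 ∧
      c.l d = -(c.s g * z) := fun z => by
    obtain ⟨h, rfl⟩ := c.al_surj z
    obtain ⟨d, a1, a2, a3, a4, a5, -, -, -, a6, -⟩ := g1.cm h
    exact ⟨d, a1, by rw [a4, g3, mul_zero, zero_add], by rw [a3, g3, mul_zero], a2, a5, a6⟩
  have g4 : c.s g ≠ 0 := fun e => by
    obtain ⟨d, a1, a2, a3, a4, a5, a6⟩ := k3 1
    exact a1.lemH (by rwa [a2, one_mul]) a3 a4 a5 (by rw [a6, e, zero_mul, neg_zero])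
  refine mul_ne_zero t2 (pow_ne_zero 2 (mul_ne_zero g2 g4)) (c.quad
    (A' := c.p1 t * (c.n0 g * c.s g + c.n1 g * c.l g) - κ * (c.n1 g * c.s g)) fun z => ?_)
  obtain ⟨d, a1, a2, a3, a4, a5, a6⟩ := k3 (z * c.p1 t)
  obtain ⟨e, b1, b2, b3, b4, b5, b6, b7, b8, -, -, -, b9⟩ := a1.cm g
  simp only [a3, a4, a5, g1.1, g1.2, mu0 g1.1, mul_zero, zero_mul, add_zero, sub_zero] at b3 b4 b6
  simp only [a2, a3, a5, a6, b3, b4, g1.1, g1.2, mu0 g1.1, mul_zero, zero_mul, add_zero, sub_zero,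
    zero_sub] at b7 b8 b9
  have := (hκ (-(z * c.n1 g * c.s g))).uniq ⟨e, ⟨b1, b4, b3, b2⟩, by rw [b8]; ring, b7, b6, b5, b9⟩
  linear_combination -this

end Dt

end CF.UsL.L5
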