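import Cfsg.Agent.Us.LB
import Cfsg.Agent.Us.LG1

/-! The rank `3` case of the local analysis: passing to coordinates. -/

set_option autoImplicit false

namespace CF.UsL.L5

open Cfsg CF.MaxSub Matrix Module
open scoped MatrixGroups

variable {ι : Type} [Fintype ι] [DecidableEq ι] {F : Type*} [Field F] [Fintype F] {φ : FD ι F} {q p m : ℕ}
  {U : Subgroup (GL ι F)} {W X : Submodule F (ι → F)} {y a : ι → F} {Φ : (ι → F) → (ι → F) → F}
  {ψ : (ι → F) →ₗ[F] F}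

theorem core (h : Loc φ q p m U W y) (l : NL U W y) {v x3 w4 w5 : ι → F} {b β : F} (b0 : b ≠ 0)
    (β0 : β ≠ 0) (al : U → F)
    (ind : ∀ c4 c3 c2 c1 c0 : F, c4 • w5 + c3 • w4 + c2 • x3 + c1 • v + c0 • a = 0 →
      c4 = 0 ∧ c3 = 0 ∧ c2 = 0 ∧ c1 = 0 ∧ c0 = 0)
    (sp : ∀ w, w ∈ W ↔ ∃ c4 c3 c2 c1 c0 : F, w = c4 • w5 + c3 • w4 + c2 • x3 + c1 • v + c0 • a)
    (hvX : v ∈ X) (h3X : x3 ∈ X) (c1 : ∀ v ∈ W, Fx U v → v ∈ F ∙ a) (ha : Fx U a)
    (hv : ∀ g : U, g.1.val *ᵥ v = v + al g • a)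
    (h3 : ∀ g : U, ∃ γ, g.1.val *ᵥ x3 = x3 + (b * φ.σ (al g)) • v + γ • a ∧
      (al g = 0 → γ * β + φ.σ (γ * β) = 0))
    (h4 : ∀ g : U, ∃ n2 n1 n0 : F, g.1.val *ᵥ w4 = w4 + n2 • x3 + n1 • v + n0 • a)
    (h5 : ∀ g : U, ∃ s p2 p1 p0 : F, g.1.val *ᵥ w5 = w5 + s • w4 + p2 • x3 + p1 • v + p0 • a)
    (h6 : ∀ g : U, ∃ l r2 r1 r0 : F, g.1.val *ᵥ y = y + al g • w5 + l • w4 + r2 • x3 + r1 • v + r0 • a) :
    Nat.card (Cp U X) ≤ Fintype.card F ^ 3 * Nat.card (Cp U W) := by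
  classical
  choose ga h3 hga using h3
  choose n2 n1 n0 h4 using h4
  choose s p2 p1 p0 h5 using h5
  choose l3 r2 r1 r0 h6 using h6
  have ha' : ∀ g : U, g.1.val *ᵥ a = a := fun g => ha g g.2
  have uq : ∀ {c4 c3 c2 c1 c0 d4 d3 d2 d1 d0 : F}, c4 • w5 + c3 • w4 + c2 • x3 + c1 • v + c0 • a =
      d4 • w5 + d3 • w4 + d2 • x3 + d1 • v + d0 • a →
      c4 = d4 ∧ c3 = d3 ∧ c2 = d2 ∧ c1 = d1 ∧ c0 = d0 := fun {c4 c3 c2 c1 c0 d4 d3 d2 d1 d0} e => by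
    simpa only [sub_eq_zero] using ind (c4 - d4) (c3 - d3) (c2 - d2) (c1 - d1) (c0 - d0)
      (by linear_combination (norm := module) e)
  have mm : ∀ (g k : U) x, (g * k).1.val *ᵥ x = g.1.val *ᵥ (k.1.val *ᵥ x) := fun g k x =>
    (mulVec_mulVec _ _ _).symm
  have k3 : ∀ g k : U, ga (g * k) = ga g + al g * (b * φ.σ (al k)) + ga k := fun g k => by
    have e := h3 (g * k)
    rw [mm, h3 k] at e
    simp only [mulVec_add, mulVec_smul, h3 g, hv g, ha' g] at e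
    exact (uq (c4 := 0) (c3 := 0) (c2 := 0) (c1 := b * φ.σ (al (g * k))) (d4 := 0) (d3 := 0) (d2 := 0)
      (d1 := b * φ.σ (al g) + b * φ.σ (al k)) (by linear_combination (norm := module) -e)).2.2.2.2
  have k4 : ∀ g k : U, (0 : F) = 0 ∧ (0 : F) = 0 ∧ n2 (g * k) = n2 g + n2 k ∧
      n1 (g * k) = n1 g + b * φ.σ (al g) * n2 k + n1 k ∧
      n0 (g * k) = n0 g + ga g * n2 k + al g * n1 k + n0 k := fun g k => uq (by
    have e := h4 (g * k)
    rw [mm, h4 k] at e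
    simp only [mulVec_add, mulVec_smul, h4 g, h3 g, hv g, ha' g] at e
    linear_combination (norm := module) -e)
  have k5 : ∀ g k : U, (0 : F) = 0 ∧ s (g * k) = s g + s k ∧ p2 (g * k) = p2 g + n2 g * s k + p2 k ∧
      p1 (g * k) = p1 g + n1 g * s k + b * φ.σ (al g) * p2 k + p1 k ∧
      p0 (g * k) = p0 g + n0 g * s k + ga g * p2 k + al g * p1 k + p0 k := fun g k => uq (by
    have e := h5 (g * k)
    rw [mm, h5 k] at e
    simp only [mulVec_add, mulVec_smul, h5 g, h4 g, h3 g, hv g, ha' g] at e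
    linear_combination (norm := module) -e)
  have k6 : ∀ g k : U, al (g * k) = al g + al k ∧ l3 (g * k) = l3 g + s g * al k + l3 k ∧
      r2 (g * k) = r2 g + p2 g * al k + n2 g * l3 k + r2 k ∧
      r1 (g * k) = r1 g + p1 g * al k + n1 g * l3 k + b * φ.σ (al g) * r2 k + r1 k ∧
      r0 (g * k) = r0 g + p0 g * al k + n0 g * l3 k + ga g * r2 k + al g * r1 k + r0 k := fun g k => uq (by
    have e := h6 (g * k)
    rw [mm, h6 k] at e
    simp only [mulVec_add, mulVec_smul, h6 g, h5 g, h4 g, h3 g, hv g, ha' g] at e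
    linear_combination (norm := module) -e)
  have cp : ∀ t : U, al t = 0 → ga t = 0 → n0 t = 0 → n1 t = 0 → n2 t = 0 → p0 t = 0 → p1 t = 0 →
      p2 t = 0 → s t = 0 → t.1 ∈ Cp U W := fun t a1 a2 a3 a4 a5 a6 a7 a8 a9 => ⟨t.2, fun w hw => by
    obtain ⟨c4, c3, c2, c1, c0, rfl⟩ := (sp w).1 hw
    simp only [mulVec_add, mulVec_smul, h5 t, h4 t, h3 t, hv t, ha' t, a1, a2, a3, a4, a5, a6, a7, a8,
      a9, zero_smul, add_zero, map_zero, mul_zero]⟩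
  obtain ⟨θ, hθ⟩ := h.u.exists_ne
  let c : Dt U F :=
    { σ := φ.σ, θ := θ, hθ := hθ, al := al, mu := fun g => b * φ.σ (al g), ga := ga, n0 := n0, n1 := n1,
      n2 := n2, s := s, p0 := p0, p1 := p1, p2 := p2, l := l3, r0 := r0, r1 := r1, r2 := r2, b := b,
      β := β, b0 := b0, β0 := β0, hmu := fun _ => rfl, hga := hga, mal := fun g k => (k6 g k).1,
      mga := k3, mn2 := fun g k => (k4 g k).2.2.1, mn1 := fun g k => (k4 g k).2.2.2.1,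
      mn0 := fun g k => (k4 g k).2.2.2.2, ms := fun g k => (k5 g k).2.1,
      mp2 := fun g k => (k5 g k).2.2.1, mp1 := fun g k => (k5 g k).2.2.2.1,
      mp0 := fun g k => (k5 g k).2.2.2.2, ml := fun g k => (k6 g k).2.1,
      mr2 := fun g k => (k6 g k).2.2.1, mr1 := fun g k => (k6 g k).2.2.2.1,
      mr0 := fun g k => (k6 g k).2.2.2.2
      tr := fun z w => by
        obtain ⟨g, hg, e⟩ := h.tr _ ((sp _).2 ⟨z, w, 0, 0, 0, rfl⟩)
        have := uq (c2 := r2 ⟨g, hg⟩) (c1 := r1 ⟨g, hg⟩) (c0 := r0 ⟨g, hg⟩) (c4 := al ⟨g, hg⟩)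
          (c3 := l3 ⟨g, hg⟩) (d4 := z) (d3 := w) (d2 := 0) (d1 := 0) (d0 := 0)
          (by linear_combination (norm := module) e - h6 ⟨g, hg⟩)
        exact ⟨_, this.1, this.2.1⟩
      nl := fun t a1 a2 a3 a4 a5 a6 a7 a8 a9 => by
        have := ind (al t) (l3 t) (r2 t) (r1 t) (r0 t)
          (by linear_combination (norm := module) l _ (cp t a1 a2 a3 a4 a5 a6 a7 a8 a9) - h6 t)
        exact ⟨this.2.2.2.2, this.2.2.2.1, this.2.2.1, this.2.1⟩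
      c1 := fun u1 u2 u3 k => by
        obtain ⟨d, hd⟩ := Submodule.mem_span_singleton.1 (c1 _ ((sp _).2 ⟨0, u3, u2, u1, 0, rfl⟩)
          fun g hg => by
            obtain ⟨a1, a2, a3⟩ := k ⟨g, hg⟩
            simp only [mulVec_add, mulVec_smul, zero_smul, h4 ⟨g, hg⟩, h3 ⟨g, hg⟩, hv ⟨g, hg⟩, mulVec_zero]
            linear_combination (norm := module) a1 • x3 + a2 • v + a3 • a)
        have := ind 0 u3 u2 u1 (-d) (by linear_combination (norm := module) -hd)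
        exact ⟨this.2.2.2.1, this.2.2.1, this.2.1⟩ }
  obtain ⟨f, hf⟩ := c.main φ.invol
  have hD : ∀ g (hg : g ∈ Cp U X), c.D ⟨g, hg.1⟩ := fun g hg =>
    ⟨(ind 0 0 0 0 (al ⟨g, hg.1⟩) (by linear_combination (norm := module) hg.2 v hvX - hv ⟨g, hg.1⟩)).2.2.2.2,
     (ind 0 0 0 (b * φ.σ (al ⟨g, hg.1⟩)) (ga ⟨g, hg.1⟩)
      (by linear_combination (norm := module) hg.2 _ h3X - h3 ⟨g, hg.1⟩)).2.2.2.2⟩
  refine (card_le (A := Cp U W) (fun g => if hg : g ∈ U then f ⟨g, hg⟩ else 0) Set.univ Set.finite_univ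
    (fun _ _ => trivial) fun g hg g' hg' e => ?_).trans_eq ?_
  · simp only [dif_pos hg.1, dif_pos hg'.1] at e
    obtain ⟨⟨⟨a1, a2⟩, a3, a4, a5⟩, a6, a7, a8, a9⟩ := hf _ _ (hD g hg) (hD g' hg') e
    exact cp _ a1 a2 a3 a4 a5 a6 a7 a8 a9
  · simp [pow_succ, mul_assoc]

end CF.UsL.L5
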