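import Cfsg.Agent.Us.LE
import Cfsg.Agent.Us.LG2

/-! The rank `3` case of the local analysis. -/

set_option autoImplicit false

namespace CF.UsL

open Cfsg CF.MaxSub Matrix Module
open scoped MatrixGroups

variable {ι : Type} [Fintype ι] [DecidableEq ι] {F : Type*} [Field F] [Fintype F] {φ : FD ι F} {q p m : ℕ}
  {H U : Subgroup (GL ι F)} {W X L : Submodule F (ι → F)} {y a : ι → F} {Φ : (ι → F) → (ι → F) → F}
  {ψ : (ι → F) →ₗ[F] F} {t : GL ι F}

open L3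

namespace L5

variable {B : (ι → F) →ₛₗ[φ.σ] (ι → F) →ₗ[F] F}

/-- coordinates in a unitary `3`-space -/
theorem three (h : Loc φ q p m U W y) (f : Hb φ U X B) (r : finrank F X = 3) (ha : a ∈ X) (a0 : a ≠ 0)
    (fa : Fx U a) {v : ι → F} (hv : v ∈ X) (α : GL ι F → F) (on : ∀ c, ∃ g ∈ U, α g = c)
    (gv : ∀ g ∈ U, g.val *ᵥ v = v + α g • a) : ∃ x3 ∈ X, ∃ b β : F, b ≠ 0 ∧ β ≠ 0 ∧
      (∀ c2 c1 c0 : F, c2 • x3 + c1 • v + c0 • a = 0 → c2 = 0 ∧ c1 = 0 ∧ c0 = 0) ∧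
      (∀ x ∈ X, ∃ c2 c1 c0 : F, x = c2 • x3 + c1 • v + c0 • a) ∧
      ∀ g ∈ U, ∃ γ, g.val *ᵥ x3 = x3 + (b * φ.σ (α g)) • v + γ • a ∧
        (α g = 0 → γ * β + φ.σ (γ * β) = 0) := by
  have aa : B a a = 0 := by
    obtain ⟨g, hg, e⟩ := on 1
    have := f.inv g hg a ha v hv
    rw [fa g hg, gv g hg, e] at this
    simpa using this
  have va : B v a = 0 := skew h fun c => by
    obtain ⟨g, hg, rfl⟩ := on c
    have := f.inv g hg v hv v hv
    rw [gv g hg] at this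
    simp only [map_add, map_smul, LinearMap.map_smulₛₗ, LinearMap.add_apply,
      LinearMap.smul_apply, smul_eq_mul, aa] at this
    rw [map_mul, ← f.swap]
    linear_combination this
  have av := f.zero va
  have n1 : v ∉ F ∙ a := fun hm => by
    obtain ⟨g, hg, e⟩ := on 1
    obtain ⟨s, rfl⟩ := Submodule.mem_span_singleton.1 hm
    have := gv g hg
    rw [mulVec_smul, fa g hg, e, one_smul] at this
    exact a0 (left_eq_add.1 this)
  obtain ⟨x3, h3, e0⟩ := f.ex ha a0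
  have d1 := fr_cut' h3 e0
  have d0 : finrank F ((F ∙ a) ⊔ F ∙ v : Submodule F (ι → F)) = 2 := by
    rw [fr_sup' n1, finrank_span_singleton a0]
  have le : (F ∙ a) ⊔ F ∙ v ≤ X ⊓ LinearMap.ker (B a) := by
    simp only [sup_le_iff, Submodule.span_singleton_le_iff_mem]
    exact ⟨⟨ha, aa⟩, hv, av⟩
  have m2 : ∀ x ∈ X ⊓ LinearMap.ker (B a), ∃ c1 c0 : F, x = c1 • v + c0 • a := fun x hx => by
    rw [← Submodule.eq_of_le_of_finrank_le le (by omega)] at hx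
    obtain ⟨x', hx', z, hz, rfl⟩ := Submodule.mem_sup.1 hx
    obtain ⟨s, rfl⟩ := Submodule.mem_span_singleton.1 hx'
    obtain ⟨t, rfl⟩ := Submodule.mem_span_singleton.1 hz
    exact ⟨t, s, add_comm _ _⟩
  have vv : B v v ≠ 0 := fun k => by
    obtain ⟨s, hs⟩ := f.rad1 ha a0 hv fun x hx => by
      obtain ⟨c1, c0, rfl⟩ := m2 x hx
      simp [k, va]
    exact n1 (Submodule.mem_span_singleton.2 ⟨s, hs.symm⟩)
  refine ⟨x3, h3, -(B a x3 / B v v), B x3 a, neg_ne_zero.2 (div_ne_zero e0 vv), f.ne e0,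
    fun c2 c1 c0 e => ?_, fun x hx => ?_, fun g hg => ?_⟩
  · have e2 : c2 = 0 := by simpa [aa, av, e0] using congrArg (B a) e
    rw [e2, zero_smul, zero_add] at e
    have e1 : c1 = 0 := by simpa [va, vv] using congrArg (B v) e
    rw [e1, zero_smul, zero_add] at e
    exact ⟨e2, e1, (smul_eq_zero.1 e).resolve_right a0⟩
  · obtain ⟨x', h1, h2⟩ := dec h3 e0 hx
    obtain ⟨c1, c0, rfl⟩ := m2 x' h1
    exact ⟨_, c1, c0, h2.trans (by abel)⟩
  · obtain ⟨c, γ, hc⟩ := m2 (g.val *ᵥ x3 - x3) ⟨X.sub_mem (f.invX g hg x3 h3) h3, by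
      have := f.inv g hg a ha x3 h3
      rw [fa g hg] at this
      exact LinearMap.mem_ker.2 (by rw [map_sub, this, sub_self])⟩
    have hc' : g.val *ᵥ x3 = x3 + c • v + γ • a := by rw [add_assoc, ← hc]; abel
    have e1 := f.inv g hg v hv x3 h3
    have e2 := f.inv g hg x3 h3 x3 h3
    rw [hc'] at e1 e2
    rw [gv g hg] at e1
    simp only [map_add, map_smul, LinearMap.map_smulₛₗ, LinearMap.add_apply,
      LinearMap.smul_apply, smul_eq_mul, aa, av, va] at e1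
    have e3 : c = -(B a x3 / B v v) * φ.σ (α g) := by
      field_simp
      linear_combination e1
    refine ⟨γ, by rw [← e3]; exact hc', fun k => ?_⟩
    rw [e3, k, map_zero, mul_zero, zero_smul, add_zero] at e2
    simp only [map_add, map_smul, LinearMap.map_smulₛₗ, LinearMap.add_apply,
      LinearMap.smul_apply, smul_eq_mul, aa] at e2
    rw [map_mul, ← f.swap]
    linear_combination e2

omit [Fintype F] in
theorem mv_sup {A T : Submodule F (ι → F)} {b : ι → F} {g : GL ι F} (h1 : ∀ w ∈ A, g.val *ᵥ w - w ∈ T)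
    (h2 : g.val *ᵥ b - b ∈ T) : ∀ w ∈ A ⊔ F ∙ b, g.val *ᵥ w - w ∈ T := fun w hw => by
  obtain ⟨x, hx, z, hz, rfl⟩ := Submodule.mem_sup.1 hw
  obtain ⟨c, rfl⟩ := Submodule.mem_span_singleton.1 hz
  have : g.val *ᵥ (x + c • b) - (x + c • b) = g.val *ᵥ x - x + c • (g.val *ᵥ b - b) := by
    rw [mulVec_add, mulVec_smul, smul_sub]; abel
  rw [this]
  exact T.add_mem (h1 x hx) (T.smul_mem _ h2)

end L5

open L5

theorem Loc.k3 (h : Loc φ q p 5 U W y) (l : NL U W y) (hX : X ≤ W) (f : Hf φ U X Φ) (r : finrank F X = 3)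
    (c1 : ∀ v ∈ W, Fx U v → v ∈ F ∙ a)
    (ax : ∀ ψ t a, If U W ψ → Fx U a → a ≠ 0 → Tv U W ψ t a → Ax φ U W y ψ t a) : False := by
  have u3 := h.u3 f r
  obtain ⟨B, f⟩ := hb f
  have h2 := h.rk
  have key : ¬ Nat.card (Cp U X) ≤ Fintype.card F ^ 3 * Nat.card (Cp U W) := fun k =>
    absurd_pow h l (k := 9) (by omega) (u3.trans ((Nat.mul_le_mul_left _ k).trans (le_of_eq (by
      rw [h.u.card]; ring))))
  obtain ⟨w4, hw4, n4, g4⟩ := h.fix_quot f.invX h.inv fun e => by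
    have := Submodule.finrank_mono e; omega
  have mv : ∀ g ∈ U, ∀ w ∈ X ⊔ F ∙ w4, g.val *ᵥ w - w ∈ X := fun g hg =>
    mv_sup (fun w hw => X.sub_mem (f.invX g hg w hw) hw) (g4 g hg)
  have iH : Inv U (X ⊔ F ∙ w4) := fun g hg w hw => by
    simpa using Submodule.add_mem _ (Submodule.mem_sup_left (mv g hg w hw)) hw
  have d4 : finrank F (X ⊔ F ∙ w4 : Submodule F (ι → F)) = 4 := by rw [fr_sup' n4, r]
  have HW : X ⊔ F ∙ w4 ≤ W := sup_le hX ((Submodule.span_singleton_le_iff_mem _ _).2 hw4)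
  obtain ⟨b0, hb0, hbX, hg0⟩ := h.fix_quot iH h.inv fun e => by
    have := Submodule.finrank_mono e; omega
  obtain ⟨ψ, h4, h5⟩ := Submodule.exists_le_ker_of_notMem hbX
  obtain ⟨w5, hw5, b1, g5⟩ : ∃ b ∈ W, ψ b = 1 ∧ ∀ g ∈ U, g.val *ᵥ b - b ∈ X ⊔ F ∙ w4 :=
    ⟨(ψ b0)⁻¹ • b0, W.smul_mem _ hb0, by simp [h4], fun g hU => by
      rw [mulVec_smul, ← smul_sub]; exact Submodule.smul_mem _ _ (hg0 g hU)⟩
  have b0 : ψ w5 ≠ 0 := by rw [b1]; exact one_ne_zero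
  have h6 := fr_cut' hw5 b0
  have h7 : X ⊔ F ∙ w4 = W ⊓ LinearMap.ker ψ :=
    Submodule.eq_of_le_of_finrank_le (le_inf HW h5) (by omega)
  have i : If U W ψ := ⟨⟨w5, hw5, b0⟩, fun g hU w hw => by
    obtain ⟨x, hx, e⟩ := dec hw5 b0 hw
    generalize ψ w / ψ w5 = c at e
    have e1 : ψ (g.val *ᵥ w5) = ψ w5 := by rw [← sub_eq_zero, ← map_sub]; exact h5 (g5 g hU)
    have e2 : ψ (g.val *ᵥ x) = 0 := h5 (iH g hU x (h7 ▸ hx))
    have e3 : ψ x = 0 := hx.2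
    rw [e, mulVec_add, mulVec_smul, map_add, map_add, map_smul, map_smul, e1, e2, e3]⟩
  have h8 := step (U := U) hw5 b0 (Sg h.inv i) fun g hU => ⟨g, hU.1, fun w hw => by
    rw [tv_of hw5 b0 hU hw, b1, div_one]⟩
  rw [← h7] at h8
  obtain ⟨a', ⟨t, ht⟩, a0, fa⟩ := h.fix_add (Sg h.inv i) (Sg_inv h.inv i) fun e => by
    rw [e, AddSubgroup.coe_bot, Set.ncard_singleton, one_mul] at h8
    have := card_le_Cp (U := U) (T := X) 1 (fr_sup X w4) le_sup_left fun g hg => mv g hg.1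
    rw [r] at this
    exact key (this.trans (Nat.mul_le_mul_left _ h8))
  obtain ⟨m1, m2⟩ := tv_mem h.inv i ht
  have ha : a' ∈ X := by
    obtain ⟨x, hx, x0, fx⟩ := fixed h f.invX (by omega)
    exact (Submodule.span_singleton_le_iff_mem _ _).2 hx (same c1 (hX hx) x0 fx m1 fa)
  obtain ⟨v, hv, ρ, hρ, η, η0, v0, -, gv, gρ⟩ := ax ψ t a' i fa a0 ht
  have on := onto h i
  have hvX : v ∈ X := by
    by_contra nv
    have ρ0 : ψ ρ ≠ 0 := fun k => by
      obtain ⟨g, hg, e⟩ := on 1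
      obtain ⟨c, hc⟩ := gρ g hg
      have := mv g hg ρ (h7 ▸ ⟨hρ, k⟩)
      rw [hc, e, map_one, mul_one, add_assoc, add_sub_cancel_left] at this
      exact nv ((X.smul_mem_iff η0).1 ((X.add_mem_iff_left (X.smul_mem c ha)).1 this))
    have s1 : (Sg h.inv i : Set (ι → F)).ncard ≤ Fintype.card F := by
      refine (Set.ncard_le_ncard (t := (F ∙ a' : Submodule F _)) ?_).trans (by
        rw [ncard_sub, finrank_span_singleton a0, pow_one])
      rintro s ⟨t', ht'⟩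
      have α0 : ψ (t'.val *ᵥ y - y) = 0 := by
        have := gv t' ht'.1
        rw [ht'.2 v hv, v0, zero_smul, add_zero, left_eq_add] at this
        exact (smul_eq_zero.1 this).resolve_right a0
      obtain ⟨c, hc⟩ := gρ t' ht'.1
      rw [ht'.2 ρ hρ, α0, map_zero, mul_zero, zero_smul, add_zero, add_right_inj] at hc
      exact (Submodule.smul_mem_iff _ ρ0).1 (Submodule.mem_span_singleton.2 ⟨c, hc.symm⟩)
    have e4 : X ⊔ F ∙ v = X ⊔ F ∙ w4 := Submodule.eq_of_le_of_finrank_le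
      (sup_le le_sup_left ((Submodule.span_singleton_le_iff_mem _ _).2 (h7 ▸ ⟨hv, v0⟩)))
      (by rw [fr_sup' nv, d4, r])
    have := card_le_Cp (U := U) (T := F ∙ a') 1 (fr_sup X v) le_sup_left fun g hg =>
      mv_sup (fun w hw => by rw [hg.2 w hw, sub_self]; exact zero_mem _) (by
        rw [gv g hg.1, add_sub_cancel_left]
        exact Submodule.smul_mem _ _ (Submodule.mem_span_singleton_self _))
    rw [finrank_span_singleton a0, e4] at this
    refine key (this.trans ((Nat.mul_le_mul_left _ (h8.trans (Nat.mul_le_mul_right _ s1))).trans ?_))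
    rw [← mul_assoc, ← pow_succ]
    exact Nat.mul_le_mul_right _ (Nat.pow_le_pow_right Fintype.card_pos (by omega))
  obtain ⟨x3, h3, b, β, b0', β0, ind, sp, g3⟩ := three h f r ha a0 fa hvX _ on gv
  have spH : ∀ x ∈ X ⊔ F ∙ w4, ∃ c3 c2 c1 c0 : F, x = c3 • w4 + c2 • x3 + c1 • v + c0 • a' :=
    fun x hx => by
      obtain ⟨x', hx', z, hz, rfl⟩ := Submodule.mem_sup.1 hx
      obtain ⟨c, rfl⟩ := Submodule.mem_span_singleton.1 hz
      obtain ⟨c2, c1, c0, rfl⟩ := sp x' hx'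
      exact ⟨c, c2, c1, c0, by abel⟩
  have spW : ∀ x ∈ W, ∃ c3 c2 c1 c0 : F, x = ψ x • w5 + c3 • w4 + c2 • x3 + c1 • v + c0 • a' :=
    fun x hx => by
      obtain ⟨x', h1, e⟩ := dec hw5 b0 hx
      obtain ⟨c3, c2, c1, c0, rfl⟩ := spH x' (h7 ▸ h1)
      rw [b1, div_one] at e
      exact ⟨c3, c2, c1, c0, e.trans (by abel)⟩
  have ψX : ∀ x ∈ X, ψ x = 0 := fun x hx => h5 (Submodule.mem_sup_left hx)
  have ψ4 : ψ w4 = 0 := h5 (Submodule.mem_sup_right (Submodule.mem_span_singleton_self _))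
  refine key (core h l b0' β0 (fun g => ψ (g.1.val *ᵥ y - y)) (w4 := w4) (w5 := w5)
    (fun c4 c3 c2 c1 c0 e => ?_) (fun w => ⟨fun hw => ⟨_, spW w hw⟩, ?_⟩) hvX h3
    (fun x hx => same c1 m1 a0 fa hx) fa (fun g => gv g g.2) (fun g => g3 g g.2) (fun g => ?_)
    (fun g => ?_) fun g => ?_)
  · have e4 : c4 = 0 := by simpa [b1, ψ4, ψX _ h3, v0, m2] using congrArg ψ e
    rw [e4, zero_smul, zero_add, add_assoc, add_assoc, ← add_assoc (c2 • x3)] at e
    have e3 : c3 = 0 := by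
      by_contra k
      refine n4 ((X.smul_mem_iff k).1 ?_)
      rw [eq_neg_of_add_eq_zero_left e]
      exact X.neg_mem (X.add_mem (X.add_mem (X.smul_mem _ h3) (X.smul_mem _ hvX)) (X.smul_mem _ ha))
    rw [e3, zero_smul, zero_add] at e
    exact ⟨e4, e3, ind _ _ _ e⟩
  · rintro ⟨c4, c3, c2, c1, c0, rfl⟩
    exact W.add_mem (W.add_mem (W.add_mem (W.add_mem (W.smul_mem _ hw5) (W.smul_mem _ hw4))
      (W.smul_mem _ (hX h3))) (W.smul_mem _ hv)) (W.smul_mem _ m1)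
  · obtain ⟨c2, c1, c0, e⟩ := sp _ (g4 g g.2)
    exact ⟨c2, c1, c0, (eq_add_of_sub_eq' e).trans (by abel)⟩
  · obtain ⟨c3, c2, c1, c0, e⟩ := spH _ (g5 g g.2)
    exact ⟨c3, c2, c1, c0, (eq_add_of_sub_eq' e).trans (by abel)⟩
  · obtain ⟨c3, c2, c1, c0, e⟩ := spW _ (h.st g g.2)
    exact ⟨c3, c2, c1, c0, (eq_add_of_sub_eq' e).trans (by abel)⟩

end CF.UsL
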