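import Cfsg.Agent.Us.L7
import Cfsg.Agent.Us.LF
import Cfsg.Agent.Us.LG

/-! A group of unitary isometries that is transitive on every level contains a transvection. -/

set_option autoImplicit false

namespace CF.UsL

open Cfsg CF.MaxSub Matrix Module
open scoped MatrixGroups

variable {ι : Type} [Fintype ι] [DecidableEq ι] {F : Type*} [Field F] [Fintype F] {φ : FD ι F} {q p : ℕ}
  {H U : Subgroup (GL ι F)} {W : Submodule F (ι → F)} {y : ι → F}

theorem Loc.end5 (h : Loc φ q p 5 U W y) (nt : NT φ U) (l : NL U W y) : False := by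
  obtain ⟨a, aW, a0, fa⟩ := h.fix_add W.toAddSubgroup h.inv fun c => by
    have := h.rk
    rw [show W = ⊥ from Submodule.toAddSubgroup_injective c] at this
    simp at this
  have ao := fun ψ t a i b c d => h.ax_or (ψ := ψ) (t := t) (a := a) nt l i b c d
  by_cases c1 : ∀ v ∈ W, Fx U v → v ∈ F ∙ a
  · obtain ⟨X, Φ, hX, f, r | ⟨r, ax⟩⟩ := h.tri (by omega) nt l
    · obtain ⟨b, bX, w, wX, β, b0, fb, wb, β0, s⟩ := h.u2 f r
      refine h.lcase l (hX bX) (hX wX) b0 fb wb β0 s (fun v hv fv => Submodule.mem_sup_left ?_) ao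
      obtain ⟨c, rfl⟩ := Submodule.mem_span_singleton.1 (c1 b (hX bX) fb)
      rw [Submodule.span_singleton_smul_eq (IsUnit.mk0 c (left_ne_zero_of_smul b0))]
      exact c1 v hv fv
    · rcases r.eq_or_lt with r | r
      · exact h.k3 l hX f r.symm c1 ax
      · exact h.k45 l hX f r c1 ax
  · push Not at c1
    obtain ⟨w, wW, fw, wa⟩ := c1
    have fx : ∀ {A : Submodule F (ι → F)} {v}, (∀ x ∈ A, Fx U x) → Fx U v → ∀ x ∈ A ⊔ F ∙ v, Fx U x :=
      fun {A v} i j x k g hg => (mem_Cp_sup (A := A) ⟨hg, fun w c => i w c g hg⟩ (j g hg)).2 x k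
    have lt : ∀ {A : Submodule F (ι → F)} {v}, v ∉ A → finrank F A < finrank F (A ⊔ F ∙ v :) :=
      fun {A v} n => Submodule.finrank_lt_finrank_of_lt (lt_of_le_of_ne le_sup_left fun e =>
        n (e ▸ Submodule.mem_sup_right (Submodule.mem_span_singleton_self v)))
    refine h.lcase l aW wW a0 fa wa one_ne_zero (fun g hg => ⟨0, by simp, by simp [fw g hg]⟩)
      (fun v hv fv => by_contra fun n => ?_) ao
    have s := fun {v} (c : v ∈ W) => (Submodule.span_singleton_le_iff_mem v W).2 c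
    have h1 := h.c2 l (sup_le (sup_le (s aW) (s wW)) (s hv)) (fx (fx (fun x k g hg => by
      obtain ⟨c, rfl⟩ := Submodule.mem_span_singleton.1 k
      rw [mulVec_smul, fa g hg]) fw) fv)
    have h2 := lt n
    have h3 := lt wa
    rw [finrank_span_singleton a0] at h3
    omega

end CF.UsL

namespace CF.UsP

open Cfsg CF.MaxSub Matrix
open scoped MatrixGroups

variable {ι : Type} [Fintype ι] [DecidableEq ι] {F : Type*} [Field F] [Fintype F] {φ : FD ι F} {q : ℕ}

theorem tv11 (h : φ.IsU q) (hn : Fintype.card ι = 11) {H : Subgroup (GL ι F)} (h1 : H ≤ φ.isom) (t : Tr φ H) :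
    ∃ v, ∃ hv : φ.f v v = 0, ∃ a, v ≠ 0 ∧ a ≠ 0 ∧ φ.tvf v hv a ∈ H :=
  UsL.exists_tv (m := 5) h hn (by omega) (fun _ _ _ _ k => k.end5) h1 t

end CF.UsP
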