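import Cfsg.Agent.Us.LB

/-! The centre of the local group and the axis lemma. -/

set_option autoImplicit false

namespace CF.UsL

open Cfsg CF.MaxSub Matrix Module
open scoped MatrixGroups

variable {ι : Type} [Fintype ι] [DecidableEq ι] {F : Type*} [Field F] [Fintype F] {φ : FD ι F} {q p m : ℕ}
  {H U : Subgroup (GL ι F)} {W X L A : Submodule F (ι → F)} {y a s u v x ξ : ι → F} {Φ : (ι → F) → (ι → F) → F}
  {ψ : (ι → F) →ₗ[F] F} {t e g z : GL ι F}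

namespace L2

omit [Fintype F] in
theorem rep (φ : FD ι F) (ψ : (ι → F) →ₗ[F] F) : ∃ ξ, ∀ u, φ.f u ξ = ψ u :=
  ⟨φ.σ ∘ (φ.G⁻¹.val *ᵥ fun i => ψ (Pi.single i 1)), fun u => by
    rw [φ.f_def, sf, show φ.σ ∘ φ.σ ∘ (φ.G⁻¹.val *ᵥ fun i => ψ (Pi.single i 1)) = _ from funext fun i => φ.invol _,
      mulVec_inv_mulVec, LinearMap.pi_apply_eq_sum_univ]
    exact Finset.sum_congr rfl fun i _ => by
      rw [smul_eq_mul, show (fun j => if i = j then (1 : F) else 0) = Pi.single i 1 from funext fun j => by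
        simp [Pi.single_apply, eq_comm]]⟩

/-- `g - 1` -/
noncomputable def nn (g : GL ι F) : (ι → F) →ₗ[F] (ι → F) := toLin' g.val - 1

omit [Fintype F] in
theorem nn_apply (g : GL ι F) (u : ι → F) : nn g u = g.val *ᵥ u - u := rfl

omit [Fintype F] in
theorem act (g : GL ι F) (u : ι → F) : g.val *ᵥ u = u + nn g u := by rw [nn_apply]; abel

omit [Fintype F] in
theorem mm (g k : GL ι F) (u : ι → F) : (g * k).val *ᵥ u = g.val *ᵥ k.val *ᵥ u := by
  rw [Units.val_mul, mulVec_mulVec]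

omit [Fintype F] in
theorem nn_cj (g e : GL ι F) (u : ι → F) : nn (g * e * g⁻¹) (g.val *ᵥ u) = g.val *ᵥ nn e u := by
  rw [nn_apply, nn_apply, mm, mm, inv_mulVec_mulVec, mulVec_sub]

omit [Fintype F] in
theorem nn_cen (c : g * z * g⁻¹ * z⁻¹ = 1) (u : ι → F) : nn z (g.val *ᵥ u) = g.val *ᵥ nn z u := by
  rw [← nn_cj, mul_inv_eq_one.1 c]

omit [Fintype F] in
theorem eq_one (h : ∀ u, nn g u = 0) : g = 1 :=
  Units.ext (Matrix.ext_iff_mulVec.2 fun u => by rw [act, h, add_zero, Units.val_one, one_mulVec])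

omit [Fintype F] in
theorem cp_cj (i : Inv U A) (hg : g ∈ U) (he : e ∈ Cp U A) : g * e * g⁻¹ ∈ Cp U A :=
  ⟨mul_mem (mul_mem hg he.1) (inv_mem hg), fun w hw => by
    rw [mm, mm, he.2 _ (i _ (inv_mem hg) w hw), mulVec_inv_mulVec]⟩

variable (h : Loc φ q p m U W y)
include h

theorem fi (hg : g ∈ U) (u v : ι → F) : φ.f (g.val *ᵥ u) (g.val *ᵥ v) = φ.f u v := φ.mem_isom.1 (h.iso hg) u v

theorem fi' (hg : g ∈ U) (u v : ι → F) : φ.f u (g.val *ᵥ v) = φ.f (g⁻¹.val *ᵥ u) v := by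
  rw [← fi h hg (g⁻¹.val *ᵥ u), mulVec_inv_mulVec]

theorem yw (hx : x ∈ W) : φ.f y x = 0 := φ.f_eq_zero_comm (h.yW x hx)

theorem inW (h1 : v ∈ φ.perp W) (h2 : φ.f y v = 0) : v ∈ W := by
  obtain ⟨c, hc⟩ := h.perp (φ.mem_perp'.1 h1)
  have := yw h hc
  rw [φ.f_sub_right, h2, φ.f_smul_right, zero_sub, neg_eq_zero, mul_eq_zero, map_eq_zero] at this
  simpa [this.resolve_right h.y0] using hc

theorem WY (hx : x ∈ W) : x ∈ φ.perp W := φ.mem_perp.2 (h.ti x hx)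

theorem yY : y ∈ φ.perp W := φ.mem_perp'.2 h.yW

theorem fixY (l : NL U W y) (he : e ∈ Cp U W) (hv : v ∈ φ.perp W) : nn e v = 0 := by
  obtain ⟨c, hc⟩ := h.perp (φ.mem_perp'.1 hv)
  have := he.2 _ hc
  rw [mulVec_sub, mulVec_smul, l e he, sub_left_inj] at this
  rw [nn_apply, this, sub_self]

theorem nW (l : NL U W y) (he : e ∈ Cp U W) (u : ι → F) : nn e u ∈ W :=
  inW h (φ.mem_perp'.2 fun w hw => by
    rw [nn_apply, φ.f_sub_right, ← fi h he.1 w u, he.2 w hw, sub_self]) (by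
    rw [nn_apply, φ.f_sub_right, ← fi h he.1 y u, l e he, sub_self])

theorem skew (l : NL U W y) (he : e ∈ Cp U W) (u v : ι → F) : φ.f (nn e u) v = -φ.f u (nn e v) := by
  have := fi h he.1 u v
  rw [act e u, act e v, φ.f_add_left, φ.f_add_right, φ.f_add_right, h.ti _ (nW h l he u) _ (nW h l he v)] at this
  linear_combination this

theorem dich (i : Inv U A) (hx : x ∈ A) (h1 : x ∈ φ.perp W) (h2 : x ∉ W) : φ.perp W ≤ A := by
  obtain ⟨c, hc⟩ := h.perp (φ.mem_perp'.1 h1)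
  have c0 : c ≠ 0 := fun k => h2 (by simpa [k] using hc)
  obtain ⟨g, hg, k⟩ := h.tr _ (W.smul_mem c⁻¹ hc)
  have hy : y ∈ A := by
    have := A.smul_mem c⁻¹ (i _ (inv_mem hg) x hx)
    rwa [← mulVec_smul, show c⁻¹ • x = g.val *ᵥ y by rw [k, smul_sub, smul_smul, inv_mul_cancel₀ c0]; simp,
      inv_mulVec_mulVec] at this
  intro v hv
  obtain ⟨d, hd⟩ := h.perp (φ.mem_perp'.1 hv)
  obtain ⟨g, hg, k⟩ := h.tr _ hd
  have := add_mem (sub_mem (i g hg y hy) hy) (A.smul_mem d hy)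
  rwa [k, add_sub_cancel_left, sub_add_cancel] at this

theorem lemB (i : Inv U A) : A ≤ W ∨ φ.perp W ≤ A := by
  have yn : ∀ w ∈ W, y - w ∉ W := fun w hw k => h.y0 (h.yW y (by simpa using add_mem k hw))
  by_cases c : y ∈ A ⊔ W
  · obtain ⟨b, hb, w, hw, k⟩ := Submodule.mem_sup.1 c
    obtain rfl : b = y - w := eq_sub_of_add_eq k
    exact .inr (dich h i hb (sub_mem (yY h) (WY h hw)) (yn w hw))
  rw [← φ.perp_perp (A ⊔ W), φ.mem_perp] at c
  push Not at c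
  obtain ⟨x, hx, k⟩ := c
  have := dich h (A := φ.perp A) (fun g hg v hv => φ.mem_perp'.2 fun b hb => by
    rw [fi' h hg, φ.mem_perp'.1 hv _ (i _ (inv_mem hg) b hb)]) (φ.mem_perp.2 fun b hb => φ.mem_perp.1 hx b
      (Submodule.mem_sup_left hb)) (φ.mem_perp.2 fun b hb => φ.mem_perp.1 hx b (Submodule.mem_sup_right hb))
    fun n => k (yw h n)
  exact .inl fun b hb => inW h (φ.mem_perp'.2 fun w hw => φ.mem_perp.1 (this (WY h hw)) b hb)
    (φ.mem_perp.1 (this (yY h)) b hb)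

theorem two {b c : F} (k : ∀ d, d * b + φ.σ d * c = 0) : b = 0 := by
  obtain ⟨θ, hθ⟩ := h.u.exists_ne
  have := k 1
  rw [map_one] at this
  exact (mul_eq_zero.1 (show (φ.σ θ - θ) * b = 0 by linear_combination φ.σ θ * this - k θ)).resolve_left
    (sub_ne_zero.2 hθ)

/-- the centre acts trivially on `W` -/
theorem cen (hz : z ∈ U) (c : ∀ g ∈ U, g * z * g⁻¹ * z⁻¹ = 1) : z ∈ Cp U W := by
  refine ⟨hz, fun w hw => ?_⟩
  rcases lemB h (A := LinearMap.range (nn z)) (by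
    rintro g hg _ ⟨u, rfl⟩; exact ⟨_, nn_cen (c g hg) u⟩) with i | i
  · refine φ.ext_left fun u => ?_
    obtain ⟨u, rfl⟩ : ∃ v, u = z.val *ᵥ v := ⟨_, (mulVec_inv_mulVec z u).symm⟩
    rw [fi h hz, act z u, φ.f_add_left, h.ti _ (i ⟨u, rfl⟩) w hw, add_zero]
  rcases lemB h (A := LinearMap.ker (nn z)) (fun g hg u (hu : nn z u = 0) => show nn z _ = 0 by
    rw [nn_cen (c g hg), hu, mulVec_zero]) with k | k
  swap
  · rw [act, k (WY h hw), add_zero]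
  obtain ⟨y', hy⟩ := i (yY h)
  have e1 : ∀ u, nn z u ∈ W → φ.f y' (nn z u) + φ.f u y + φ.f u (nn z u) = 0 := fun u hu => by
    obtain ⟨g, hg, r⟩ := h.tr _ hu
    have m : g.val *ᵥ y' - (y' + u) ∈ W := k (show nn z _ = 0 by
      rw [map_sub, map_add, nn_cen (c g hg), hy, r, sub_self])
    have := fi h hg y' y
    rw [← sub_add_cancel (g.val *ᵥ y') (y' + u), r, φ.f_add_left, φ.f_add_right _ y, h.yW _ m, h.ti _ m _ hu,
      φ.f_add_left, φ.f_add_right, φ.f_add_right] at this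
    linear_combination this
  have e2 : ∀ u v, nn z u ∈ W → nn z v ∈ W → φ.f u (nn z v) = 0 := fun u v hu hv =>
    two h (c := φ.f v (nn z u)) fun d => by
      have a1 := e1 (d • u) (by rw [map_smul]; exact W.smul_mem d hu)
      have a2 := e1 (d • u + v) (by rw [map_add, map_smul]; exact add_mem (W.smul_mem d hu) hv)
      simp only [map_add, map_smul, φ.f_add_left, φ.f_add_right, φ.f_smul_left, φ.f_smul_right] at a1 a2
      linear_combination a2 - a1 - e1 v hv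
  have e3 : ∀ u, nn z u ∈ W → u ∈ W := fun u hu => inW h (φ.mem_perp.2 fun x hx => by
      obtain ⟨v, rfl⟩ := i (WY h hx)
      exact e2 u v hu hx) (φ.f_eq_zero_comm (two h (c := φ.f y' (nn z u)) fun d => by
      have a1 := e1 (d • u) (by rw [map_smul]; exact W.smul_mem d hu)
      simp only [map_smul, φ.f_smul_left, φ.f_smul_right, e2 u u hu hu] at a1
      linear_combination a1))
  by_cases w0 : W = ⊥
  · rw [(Submodule.eq_bot_iff _).1 w0 w hw, mulVec_zero]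
  obtain ⟨x, hx, x0, fx⟩ := h.fix_add W.toAddSubgroup h.inv fun n => w0 (Submodule.toAddSubgroup_injective n)
  have r : ∀ u ∈ W, nn z u ∈ W := fun u hu => sub_mem (h.inv z hz u hu) hu
  have inj := LinearMap.injective_iff_surjective.2 (show Function.Surjective ((nn z).restrict r) from fun ⟨x, hx⟩ => by
    obtain ⟨v, rfl⟩ := i (WY h hx)
    exact ⟨⟨v, e3 v hx⟩, rfl⟩)
  exact (x0 (congrArg Subtype.val (@inj ⟨x, hx⟩ 0 (Subtype.ext (by
    simp [LinearMap.restrict_apply, nn_apply, fx z hz]))))).elim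

/-- the Hermitian form of a central element -/
theorem herm (nt : NT φ U) (l : NL U W y) (hz : z ∈ U) (z1 : z ≠ 1) (c : ∀ g ∈ U, g * z * g⁻¹ * z⁻¹ = 1) :
    LinearMap.range (nn z) ≤ W ∧ 2 ≤ finrank F (LinearMap.range (nn z)) ∧ ∃ Φ, Hf φ U (LinearMap.range (nn z)) Φ := by
  classical
  have he := cen h hz c
  refine ⟨by rintro _ ⟨u, rfl⟩; exact nW h l he u, ?_, ?_⟩
  · by_contra n
    obtain ⟨⟨v, hv⟩, k⟩ := finrank_le_one_iff.1 (Nat.le_of_lt_succ (not_le.1 n))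
    replace k : ∀ u, ∃ d : F, d • v = nn z u := fun u => (k ⟨_, u, rfl⟩).imp fun d => congrArg Subtype.val
    have v0 : v ≠ 0 := fun n => z1 (eq_one fun u => by obtain ⟨d, r⟩ := k u; rw [← r, n, smul_zero])
    obtain ⟨x, hx⟩ := φ.exists_f_eq v0 1
    obtain ⟨b, hb⟩ := k x
    have vW : v ∈ W := by obtain ⟨u, rfl⟩ := hv; exact nW h l he u
    have : ∀ u, nn z u = (-φ.σ b * φ.f u v) • v := fun u => by
      obtain ⟨d, r⟩ := k u
      have := skew h l he u x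
      rw [← r, ← hb, φ.f_smul_left, φ.f_smul_right, ← h.u.conj_f x v, hx, map_one, mul_one] at this
      rw [← r, this, neg_mul]
    exact z1 (eq_one fun u => by
      rw [this, (nt z hz v (-φ.σ b) (h.ti v vW v vW) fun u => by rw [act, this]).resolve_right v0, zero_mul, zero_smul])
  obtain ⟨ε, ε0, hε⟩ := h.u.exists_skew
  rw [h.u.eps, one_mul] at hε
  obtain ⟨Φ, hΦ⟩ : ∃ Φ : (ι → F) → (ι → F) → F, ∀ u v, Φ (nn z u) (nn z v) = ε * φ.f u (nn z v) :=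
    ⟨fun x x' => ε * φ.f (Function.invFun (nn z) x) x', fun u v => by
      have a1 := skew h l he (Function.invFun (nn z) (nn z u)) v
      rw [Function.invFun_eq (f := nn z) ⟨u, rfl⟩, skew h l he, neg_inj] at a1
      simp only [a1]⟩
  refine ⟨Φ, by rintro g hg _ ⟨u, rfl⟩; exact ⟨_, nn_cen (c g hg) u⟩, ?_, ?_, ?_, ?_, ?_⟩
  · rintro _ ⟨u, rfl⟩ _ ⟨u', rfl⟩ _ ⟨v, rfl⟩
    rw [← map_add, hΦ, hΦ, hΦ, φ.f_add_left, mul_add]
  · rintro d _ ⟨u, rfl⟩ _ ⟨v, rfl⟩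
    rw [← map_smul, hΦ, hΦ, φ.f_smul_left, mul_left_comm]
  · rintro _ ⟨u, rfl⟩ _ ⟨v, rfl⟩
    rw [hΦ, hΦ, map_mul, h.u.conj_f, skew h l he]
    linear_combination φ.f u (nn z v) * hε
  · rintro _ ⟨u, rfl⟩ k
    refine φ.eq_zero_of_right fun v => ?_
    rw [skew h l he, neg_eq_zero]
    exact (mul_eq_zero.1 ((hΦ u v).symm.trans (k _ ⟨v, rfl⟩))).resolve_left ε0
  · rintro g hg _ ⟨u, rfl⟩ _ ⟨v, rfl⟩
    rw [← nn_cen (c g hg), ← nn_cen (c g hg), hΦ, hΦ, nn_cen (c g hg), fi h hg]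

theorem xiY (i : If U W ψ) (hξ : ∀ u, φ.f u ξ = ψ u) (hg : g ∈ U) : nn g ξ ∈ φ.perp W :=
  φ.mem_perp'.2 fun w hw => by
    rw [nn_apply, φ.f_sub_right, fi' h hg, hξ, hξ, i.inv _ (inv_mem hg) w hw, sub_self]

theorem xiW (i : If U W ψ) (hξ : ∀ u, φ.f u ξ = ψ u) (hg : g ∈ U) :
    nn g ξ - (-(φ.f y y)⁻¹ * φ.σ (ψ (nn g y))) • y ∈ W := by
  refine inW h (sub_mem (xiY h i hξ hg) (Submodule.smul_mem _ _ (yY h))) ?_
  have := fi h hg y ξ
  rw [act g y, act g ξ, φ.f_add_left, φ.f_add_right, φ.f_add_right, hξ (nn g y),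
    φ.mem_perp'.1 (xiY h i hξ hg) (nn g y) (h.st g hg)] at this
  rw [φ.f_sub_right, φ.f_smul_right, map_mul, map_neg, map_inv₀, h.u.conj_f, φ.invol]
  rw [neg_mul, neg_mul, mul_right_comm, inv_mul_cancel₀ h.y0]
  linear_combination this

theorem tvW (i : If U W ψ) (ht : Tv U W ψ t s) : s ∈ W := by
  obtain ⟨w, hw, k⟩ := i.ne
  have := W.smul_mem (ψ w)⁻¹ (sub_mem (h.inv t ht.1 w hw) hw)
  rwa [ht.2 w hw, add_sub_cancel_left, smul_smul, inv_mul_cancel₀ k, one_smul] at this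

theorem nn_mul (l : NL U W y) (he : e ∈ Cp U W) (hz : z ∈ Cp U W) (u : ι → F) : nn (e * z) u = nn e u + nn z u := by
  rw [nn_apply, mm, act z, mulVec_add, he.2 _ (nW h l hz u), nn_apply e]; abel

theorem nn_inv (l : NL U W y) (he : e ∈ Cp U W) (u : ι → F) : nn e⁻¹ u = -nn e u := by
  rw [eq_neg_iff_add_eq_zero, ← nn_mul h l (inv_mem he) he, inv_mul_cancel, nn_apply, Units.val_one, one_mulVec,
    sub_self]

/-- commutators with a transvection of `W` -/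
theorem comm (l : NL U W y) (i : If U W ψ) (hξ : ∀ u, φ.f u ξ = ψ u) (ht : Tv U W ψ t s) (he : e ∈ Cp U W)
    (u : ι → F) :
    nn (t * e * t⁻¹ * e⁻¹) u = φ.f u s • nn e ξ - φ.f u (nn e ξ) • s + (ψ (nn e ξ) * φ.f u s) • s := by
  have a1 : ∀ u, nn e (t⁻¹.val *ᵥ u) = nn e u + φ.f u s • nn e ξ := fun u => by
    rw [← map_smul, ← map_add, ← sub_eq_zero, ← map_sub]
    refine fixY h l he (φ.mem_perp'.2 fun w hw => ?_)
    rw [φ.f_sub_right, fi' h (inv_mem ht.1), inv_inv, ht.2 w hw, φ.f_add_left, φ.f_add_right, φ.f_smul_left,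
      φ.f_smul_right, hξ, h.u.conj_f]
    ring
  have a2 : nn e (e⁻¹.val *ᵥ u) = nn e u := by
    rw [act e⁻¹, map_add, fixY h l he (WY h (nW h l (inv_mem he) u)), add_zero]
  have a3 : e⁻¹.val *ᵥ u = u - nn e u := by rw [act, nn_inv h l he, sub_eq_add_neg]
  have a4 : φ.f (e⁻¹.val *ᵥ u) s = φ.f u s := by
    rw [a3, φ.f_sub_left, h.ti _ (nW h l he u) s (tvW h i ht), sub_zero]
  rw [nn_apply, mm, mm, mm, act e, a1, a2, a4, mulVec_add, mulVec_add, mulVec_smul, mulVec_inv_mulVec,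
    ht.2 _ (nW h l he u), ht.2 _ (nW h l he ξ), ← hξ (nn e u), skew h l he, a3]
  module

/-- the axis lemma -/
theorem ax (l : NL U W y) (i : If U W ψ) (hξ : ∀ u, φ.f u ξ = ψ u) (ha : Fx U a) (a0 : a ≠ 0) (ht : Tv U W ψ t a)
    (J : ∀ e ∈ Cp U W, ∃ c : F, nn e ξ = c • a) : Ax φ U W y ψ t a := by
  have aW := tvW h i ht
  have pa : ψ a = 0 := by simpa [a0, ha t ht.1] using ht.2 a aW
  have k : ∀ g ∈ U, g * t * g⁻¹ * t⁻¹ ∈ Cp U W := fun g hg =>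
    ⟨mul_mem (mul_mem (mul_mem hg ht.1) (inv_mem hg)) (inv_mem ht.1), fun w hw => by
      have w1 := h.inv _ (inv_mem ht.1) w hw
      rw [mm, mm, mm, ht.2 _ (h.inv _ (inv_mem hg) _ w1), mulVec_add, mulVec_smul, mulVec_inv_mulVec, ha g hg,
        i.inv _ (inv_mem hg) _ w1, ← ht.2 _ w1, mulVec_inv_mulVec]⟩
  have c : ∀ g ∈ U, ∀ u, g.val *ᵥ nn t u = nn t u + nn t (nn g u) +
      nn (g * t * g⁻¹ * t⁻¹) (t.val *ᵥ g.val *ᵥ u) := fun g hg u => by
    rw [nn_apply (_ * _), mm, mm, mm, inv_mulVec_mulVec, inv_mulVec_mulVec, ← map_add, ← act, nn_apply, nn_apply,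
      mulVec_sub]
    abel
  have tw : ∀ w ∈ W, nn t w = ψ w • a := fun w hw => by rw [nn_apply, ht.2 w hw, add_sub_cancel_left]
  have vW : nn t y ∈ W := h.st t ht.1
  have e0 : -(φ.f y y)⁻¹ ≠ 0 := neg_ne_zero.2 (inv_ne_zero h.y0)
  have r : ∀ g ∈ U, ∃ d : F, g.val *ᵥ nn t ξ =
      nn t ξ + (-(φ.f y y)⁻¹ * φ.σ (ψ (nn g y))) • nn t y + d • a := fun g hg => by
    obtain ⟨d, hd⟩ := J _ (k g hg)
    have b := xiW h i hξ hg
    refine ⟨ψ (nn g ξ - (-(φ.f y y)⁻¹ * φ.σ (ψ (nn g y))) • y) + d, ?_⟩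
    rw [c g hg, ← mm t g, act (t * g), map_add, hd, fixY h l (k g hg) (xiY h i hξ (mul_mem ht.1 hg)), add_smul,
      ← tw _ b, map_sub, map_smul]
    abel
  have pv : ψ (nn t y) = 0 := by
    obtain ⟨w, hw, n⟩ := i.ne
    refine (map_eq_zero φ.σ).1 (two h (c := -ψ (nn t y)) fun x => ?_)
    obtain ⟨g, hg, b⟩ := h.tr _ (W.smul_mem (x * (ψ w)⁻¹) hw)
    have b1 : ψ (nn g y) = x := by
      rw [nn_apply, b, add_sub_cancel_left, map_smul, smul_eq_mul, inv_mul_cancel_right₀ n]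
    obtain ⟨d, hd⟩ := r g hg
    have b2 := i.inv g hg _ (xiW h i hξ ht.1)
    rw [mulVec_sub, mulVec_smul, hd, act g y] at b2
    simp only [map_add, map_sub, map_smul, smul_eq_mul, pa, b1] at b2
    exact mul_left_cancel₀ e0 (by linear_combination -b2)
  refine ⟨_, vW, nn t ξ, by simpa [pv] using xiW h i hξ ht.1, _, e0, pv, act t y, fun g hg => ?_, r⟩
  rw [c g hg, tw (nn g y) (h.st g hg), ← mm t g, act (t * g), fixY h l (k g hg) (v := y + nn (t * g) y)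
    (add_mem (yY h) (WY h (h.st _ (mul_mem ht.1 hg)))), add_zero, nn_apply g]

end L2

open L2

theorem Loc.ax_or (h : Loc φ q p m U W y) (nt : NT φ U) (l : NL U W y) (i : If U W ψ) (ha : Fx U a) (a0 : a ≠ 0)
    (ht : Tv U W ψ t a) : Ax φ U W y ψ t a ∨
      ∃ j ∈ W, j ≠ 0 ∧ Fx U j ∧ ∀ (θ : F) (t' : GL ι F), Tv U W ψ t' (θ • j) → φ.σ θ = θ := by
  obtain ⟨ξ, hξ⟩ := rep φ ψ
  let J : AddSubgroup (ι → F) :=
    { carrier := {j | ∃ e ∈ Cp U W, nn e ξ = j}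
      zero_mem' := ⟨1, one_mem _, by simp [nn_apply]⟩
      add_mem' := by rintro _ _ ⟨e, he, rfl⟩ ⟨z, hz, rfl⟩; exact ⟨_, mul_mem he hz, nn_mul h l he hz ξ⟩
      neg_mem' := by rintro _ ⟨e, he, rfl⟩; exact ⟨_, inv_mem he, nn_inv h l he ξ⟩ }
  by_cases n : J = ⊥
  · exact .inl (ax h l i hξ ha a0 ht fun e he => ⟨0, by
      rw [zero_smul]; exact (AddSubgroup.eq_bot_iff_forall _).1 n _ ⟨e, he, rfl⟩⟩)
  obtain ⟨_, ⟨e, he, rfl⟩, j0, fj⟩ := h.fix_add J (by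
    rintro g hg _ ⟨e, he, rfl⟩
    have k := cp_cj h.inv hg he
    exact ⟨_, k, by rw [← nn_cj, act g, map_add, fixY h l k (xiY h i hξ hg), add_zero]⟩) n
  have jW := nW h l he ξ
  have pj : ψ (nn e ξ) = 0 := by simpa [a0, fj t ht.1] using ht.2 _ jW
  refine .inr ⟨_, jW, j0, fj, fun θ s hs => sub_eq_zero.1 ((nt _ (mul_mem (cp_cj h.inv hs.1 he) (inv_mem he)).1
    (nn e ξ) _ (h.ti _ jW _ jW) fun u => ?_).resolve_right j0)⟩
  rw [act, comm h l i hξ hs he, pj, φ.f_smul_right]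
  module

theorem Loc.tri (h : Loc φ q p m U W y) (hm : 1 ≤ m) (nt : NT φ U) (l : NL U W y) :
    ∃ X Φ, X ≤ W ∧ Hf φ U X Φ ∧ (finrank F X = 2 ∨ 3 ≤ finrank F X ∧
      ∀ ψ t a, If U W ψ → Fx U a → a ≠ 0 → Tv U W ψ t a → Ax φ U W y ψ t a) := by
  have ce : ∀ B ≤ U, (∀ g ∈ U, ∀ b ∈ B, g * b * g⁻¹ ∈ B) → ¬ B ≤ ⊥ →
      ∃ z ∈ B, z ≠ 1 ∧ ∀ g ∈ U, g * z * g⁻¹ * z⁻¹ = 1 := fun B hB nB n => by
    simpa only [Subgroup.mem_bot] using h.cen_mod (E := ⊥) hB bot_le nB (fun g _ b hb => by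
      rw [Subgroup.mem_bot.1 hb]; simp) n
  by_cases c : ∃ z ∈ U, z ≠ 1 ∧ (∀ g ∈ U, g * z * g⁻¹ * z⁻¹ = 1) ∧ finrank F (LinearMap.range (nn z)) = 2
  · obtain ⟨z, hz, z1, c, r⟩ := c
    obtain ⟨a1, -, Φ, a2⟩ := herm h nt l hz z1 c
    exact ⟨_, Φ, a1, a2, .inl r⟩
  push Not at c
  obtain ⟨z, hz, z1, cz⟩ := ce U le_rfl (fun g hg b hb => mul_mem (mul_mem hg hb) (inv_mem hg)) fun n => by
    obtain ⟨w, hw, w0⟩ := (Submodule.ne_bot_iff W).1 fun k => by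
      have := h.rk
      rw [k, finrank_bot] at this
      omega
    obtain ⟨g, hg, k⟩ := h.tr w hw
    rw [Subgroup.mem_bot.1 (n hg), Units.val_one, one_mulVec] at k
    exact w0 (by simpa using k)
  obtain ⟨a1, a2, Φ, a3⟩ := herm h nt l hz z1 cz
  refine ⟨_, Φ, a1, a3, .inr ⟨lt_of_le_of_ne a2 (c z hz z1 cz).symm, fun ψ t a i ha a0 ht => ?_⟩⟩
  obtain ⟨ξ, hξ⟩ := rep φ ψ
  obtain ⟨x, hx⟩ := φ.exists_f_eq a0 1
  let R : Subgroup (GL ι F) :=
    { carrier := {e | e ∈ Cp U W ∧ ∀ u, φ.f u a = 0 → nn e u ∈ F ∙ a}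
      one_mem' := ⟨one_mem _, fun u _ => by simp [nn_apply]⟩
      mul_mem' := fun he hz => ⟨mul_mem he.1 hz.1, fun u k => by
        rw [nn_mul h l he.1 hz.1]; exact add_mem (he.2 u k) (hz.2 u k)⟩
      inv_mem' := fun he => ⟨inv_mem he.1, fun u k => by rw [nn_inv h l he.1]; exact neg_mem (he.2 u k)⟩ }
  have R1 : R ≤ ⊥ := by
    by_contra n
    obtain ⟨z, hz, z1, cz⟩ := ce R (fun g hg => hg.1.1) (fun g hg b hb => ⟨cp_cj h.inv hg hb.1, fun u k => by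
      obtain ⟨d, hd⟩ := Submodule.mem_span_singleton.1 (hb.2 (g⁻¹.val *ᵥ u) (by rw [← fi' h hg, ha g hg, k]))
      rw [← mulVec_inv_mulVec g u, nn_cj, ← hd, mulVec_smul, ha g hg]
      exact Submodule.smul_mem _ _ (Submodule.mem_span_singleton_self a)⟩) n
    refine c z hz.1.1 z1 cz (le_antisymm ((Submodule.finrank_mono (t := (F ∙ a) ⊔ F ∙ nn z x) ?_).trans
      ((Submodule.finrank_add_le_finrank_add_finrank _ _).trans (add_le_add (finrank_span_le_card _)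
        (finrank_span_le_card _) |>.trans (by simp)))) (herm h nt l hz.1.1 z1 cz).2.1)
    rintro _ ⟨u, rfl⟩
    rw [← sub_add_cancel u (φ.f u a • x), map_add, map_smul]
    exact Submodule.add_mem_sup (hz.2 _ (by rw [φ.f_sub_left, φ.f_smul_left, hx, mul_one, sub_self]))
      (Submodule.smul_mem _ _ (Submodule.mem_span_singleton_self _))
  refine ax h l i hξ ha a0 ht fun e he => ⟨φ.f x (nn e ξ) - ψ (nn e ξ), ?_⟩
  have k := comm h l i hξ ht he x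
  rw [Subgroup.mem_bot.1 (R1 (x := t * e * t⁻¹ * e⁻¹) ⟨mul_mem (cp_cj h.inv ht.1 he) (inv_mem he), fun u k => by
    rw [comm h l i hξ ht he, k, zero_smul, zero_sub, mul_zero, zero_smul, add_zero]
    exact neg_mem (Submodule.smul_mem _ _ (Submodule.mem_span_singleton_self a))⟩), nn_apply, Units.val_one,
    one_mulVec, sub_self, hx] at k
  linear_combination (norm := module) -k

end CF.UsL
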