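import Cfsg.Agent.Us.LEa

/-! Small unitary groups: ranks four and five. -/

set_option autoImplicit false

namespace CF.UsL

open Cfsg CF.MaxSub Matrix Module
open scoped MatrixGroups

variable {ι : Type} [Fintype ι] [DecidableEq ι] {F : Type*} [Field F] [Fintype F] {φ : FD ι F}
  {q p m : ℕ} {U : Subgroup (GL ι F)} {W X : Submodule F (ι → F)} {y a : ι → F}
  {Φ : (ι → F) → (ι → F) → F}

namespace L3

variable {ψ : (ι → F) →ₗ[F] F} {B : (ι → F) →ₛₗ[φ.σ] (ι → F) →ₗ[F] F}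

theorem onto (h : Loc φ q p m U W y) (i : If U W ψ) (c : F) : ∃ g ∈ U, ψ (g.val *ᵥ y - y) = c := by
  obtain ⟨w, hw, h0⟩ := i.ne
  obtain ⟨g, hg, e⟩ := h.tr _ (W.smul_mem (c / ψ w) hw)
  exact ⟨g, hg, by rw [e, add_sub_cancel_left, map_smul, smul_eq_mul, div_mul_cancel₀ _ h0]⟩

omit [Fintype F] in
theorem same (c1 : ∀ v ∈ W, Fx U v → v ∈ F ∙ a) {a' : ι → F} (ha : a' ∈ W) (a0 : a' ≠ 0)
    (fa : Fx U a') {x : ι → F} (hx : x ∈ W) (fx : Fx U x) : x ∈ F ∙ a' := by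
  obtain ⟨s, rfl⟩ := Submodule.mem_span_singleton.1 (c1 _ ha fa)
  obtain ⟨r, rfl⟩ := Submodule.mem_span_singleton.1 (c1 _ hx fx)
  have s0 : s ≠ 0 := fun e => a0 (by rw [e, zero_smul])
  exact Submodule.mem_span_singleton.2 ⟨r / s, by rw [smul_smul, div_mul_cancel₀ _ s0]⟩

/-- The consequences of the axis lemma inside `X`. -/
theorem axf (h : Loc φ q p m U W y) (f : Hb φ U X B) (r : 4 ≤ finrank F X) (ha : a ∈ X) (a0 : a ≠ 0)
    (fa : Fx U a) (c1 : ∀ x ∈ X, Fx U x → x ∈ F ∙ a) {v ρ : ι → F} (hv : v ∈ X) (hρ : ρ ∈ X)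
    {η : F} (η0 : η ≠ 0) (α : GL ι F → F) (on : ∀ c, ∃ g ∈ U, α g = c)
    (gv : ∀ g ∈ U, g.val *ᵥ v = v + α g • a)
    (gρ : ∀ g ∈ U, ∃ c : F, g.val *ᵥ ρ = ρ + (η * φ.σ (α g)) • v + c • a) :
    5 ≤ finrank F X ∧ (finrank F X = 5 → Nat.card U ≤ q ^ 8 * Nat.card (Cp U X)) := by
  have aa : B a a = 0 := by
    obtain ⟨g, hg, e⟩ := on 1
    have := f.inv g hg a ha v hv
    rw [fa g hg, gv g hg, e] at this
    simpa using this
  have va : B v a = 0 := skew h fun c => by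
    obtain ⟨g, hg, rfl⟩ := on c
    have := f.inv g hg v hv v hv
    rw [gv g hg] at this
    simp only [map_add, map_smul, LinearMap.map_smulₛₗ, LinearMap.add_apply,
      LinearMap.smul_apply, smul_eq_mul, aa] at this
    rw [map_mul, ← f.swap]
    linear_combination this
  have av := f.zero va
  have e1 : B ρ a = -φ.σ η * B v v := by
    obtain ⟨g, hg, e⟩ := on 1
    obtain ⟨c, hc⟩ := gρ g hg
    have := f.inv g hg ρ hρ v hv
    rw [gv g hg, hc, e] at this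
    simp only [map_add, map_smul, LinearMap.map_smulₛₗ, LinearMap.add_apply,
      LinearMap.smul_apply, smul_eq_mul, aa, av, va, map_one, mul_one] at this
    linear_combination this
  have i2 : Inv U (X ⊓ LinearMap.ker (B a) ⊓ LinearMap.ker (B v)) := fun g hg x hx => by
    have h1 := f.inv1 ha fa g hg x hx.1
    refine ⟨h1, ?_⟩
    have h2 := f.inv g hg v hv x hx.1.1
    have h3 : B a (g.val *ᵥ x) = 0 := h1.2
    have h4 : B v x = 0 := hx.2
    rw [gv g hg] at h2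
    simpa [h3, h4] using h2
  have ρa : B ρ a = 0 := by
    have i3 : Inv U (X ⊓ LinearMap.ker (B a) ⊓ LinearMap.ker (B v) ⊓ LinearMap.ker (B ρ)) :=
      fun g hg x hx => by
        have h1 := i2 g hg x hx.1
        refine ⟨h1, ?_⟩
        obtain ⟨c, hc⟩ := gρ g hg
        have h2 := f.inv g hg ρ hρ x hx.1.1.1
        have h3 : B a (g.val *ᵥ x) = 0 := h1.1.2
        have h3' : B v (g.val *ᵥ x) = 0 := h1.2
        have h4 : B ρ x = 0 := hx.2
        rw [hc] at h2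
        simpa [h3, h3', h4] using h2
    have d1 := fr_cut X (B a)
    have d2 := fr_cut (X ⊓ LinearMap.ker (B a)) (B v)
    have d3 := fr_cut (X ⊓ LinearMap.ker (B a) ⊓ LinearMap.ker (B v)) (B ρ)
    obtain ⟨x, hx, x0, fx⟩ := fixed h i3 (by omega)
    obtain ⟨s, rfl⟩ := Submodule.mem_span_singleton.1 (c1 x hx.1.1.1 fx)
    have h4 : B ρ (s • a) = 0 := hx.2
    rw [map_smul, smul_eq_mul] at h4
    exact (mul_eq_zero.1 h4).resolve_left fun e => x0 (by rw [e, zero_smul])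
  have vv : B v v = 0 := by
    rw [ρa] at e1
    exact (mul_eq_zero.1 e1.symm).resolve_left (neg_ne_zero.2 ((map_ne_zero φ.σ).2 η0))
  have aρ := f.zero ρa
  have ρv : B ρ v = 0 := skew h fun c => by
    obtain ⟨g, hg, e⟩ := on (φ.σ (c / η))
    obtain ⟨c', hc⟩ := gρ g hg
    have := f.inv g hg ρ hρ ρ hρ
    rw [hc, e, φ.invol, mul_div_cancel₀ _ η0] at this
    simp only [map_add, map_smul, LinearMap.map_smulₛₗ, LinearMap.add_apply,
      LinearMap.smul_apply, smul_eq_mul, aa, av, va, vv, ρa, aρ] at this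
    rw [map_mul, ← f.swap]
    linear_combination this
  have vρ := f.zero ρv
  obtain ⟨g1', hg1, e9⟩ := on 1
  have n1 : v ∉ F ∙ a := fun hm => by
    obtain ⟨s, rfl⟩ := Submodule.mem_span_singleton.1 hm
    have := gv g1' hg1
    rw [mulVec_smul, fa g1' hg1, e9, one_smul] at this
    exact a0 (left_eq_add.1 this)
  have n2 : ρ ∉ (F ∙ a) ⊔ F ∙ v := fun hm => by
    obtain ⟨x, hx, z, hz, rfl⟩ := Submodule.mem_sup.1 hm
    obtain ⟨s, rfl⟩ := Submodule.mem_span_singleton.1 hx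
    obtain ⟨t, rfl⟩ := Submodule.mem_span_singleton.1 hz
    obtain ⟨c, hc⟩ := gρ g1' hg1
    rw [mulVec_add, mulVec_smul, mulVec_smul, fa g1' hg1, gv g1' hg1, e9, map_one, mul_one] at hc
    refine n1 (Submodule.mem_span_singleton.2 ⟨η⁻¹ * (t - c), ?_⟩)
    have : η • v = (t - c) • a := by linear_combination (norm := module) -hc
    rw [mul_smul, ← this, smul_smul, inv_mul_cancel₀ η0, one_smul]
  have d0 : finrank F (((F ∙ a) ⊔ F ∙ v) ⊔ F ∙ ρ : Submodule F (ι → F)) = 3 := by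
    rw [fr_sup' n2, fr_sup' n1, finrank_span_singleton a0]
  have le : ((F ∙ a) ⊔ F ∙ v) ⊔ F ∙ ρ ≤ X ⊓ LinearMap.ker (B a) ⊓ LinearMap.ker (B v) := by
    simp only [sup_le_iff, Submodule.span_singleton_le_iff_mem]
    exact ⟨⟨⟨⟨ha, aa⟩, va⟩, ⟨hv, av⟩, vv⟩, ⟨hρ, aρ⟩, vρ⟩
  obtain ⟨e, he, e0⟩ := f.ex ha a0
  obtain ⟨d, hd, h0⟩ : ∃ d ∈ X ⊓ LinearMap.ker (B a), B v d ≠ 0 := by
    by_contra! k
    obtain ⟨s, hs⟩ := f.rad1 ha a0 hv k
    exact n1 (Submodule.mem_span_singleton.2 ⟨s, hs.symm⟩)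
  have d1 := fr_cut' he e0
  have d2 := fr_cut' hd h0
  have d3 := Submodule.finrank_mono le
  refine ⟨by omega, fun h5 => ?_⟩
  have k1 := g4 h f ha a0 hv (fun g hg => ⟨_, gv g hg⟩) aa av hd h0
  have k2 := g1 h f ha a0 fa
  rw [← Submodule.eq_of_le_of_finrank_le le (by omega)] at k1
  have k3 := card_le (A := Cp U (((F ∙ a) ⊔ F ∙ v) ⊔ F ∙ ρ)) (B := U)
    (fun g => (g.val *ᵥ v, g.val *ᵥ ρ))
    ((fun c : F × F => (v + c.1 • a, ρ + (η * φ.σ c.1) • v + c.2 • a)) '' Set.univ)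
    (Set.toFinite _) (fun g hg => by
      obtain ⟨c, hc⟩ := gρ g hg
      exact ⟨(α g, c), trivial, Prod.ext (gv g hg).symm hc.symm⟩)
    fun g hg g' hg' e => by
      have hm := mul_mem (inv_mem hg) hg'
      refine mem_Cp_sup (mem_Cp_sup ⟨hm, fun w hw => ?_⟩ (inv_mul_fix (congrArg Prod.fst e)))
        (inv_mul_fix (congrArg Prod.snd e))
      obtain ⟨s, rfl⟩ := Submodule.mem_span_singleton.1 hw
      rw [mulVec_smul, fa _ hm]
  have k4 := k3.trans (Nat.mul_le_mul ((Set.ncard_image_le (Set.toFinite _)).trans (le_of_eq (by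
    rw [Set.ncard_univ, Nat.card_prod, Nat.card_eq_fintype_card, h.u.card])))
    (k1.trans (Nat.mul_le_mul_left _ k2)))
  exact k4.trans (le_of_eq (by ring))

omit [Fintype F] in
theorem tv_mem (hW : Inv U W) (i : If U W ψ) {t : GL ι F} {s : ι → F} (ht : Tv U W ψ t s) :
    s ∈ W ∧ ψ s = 0 := by
  obtain ⟨w, hw, h0⟩ := i.ne
  have e := ht.2 w hw
  have e1 := i.inv t ht.1 w hw
  rw [e, map_add, map_smul, smul_eq_mul, add_eq_left] at e1
  refine ⟨(W.smul_mem_iff h0).1 ?_, (mul_eq_zero.1 e1).resolve_left h0⟩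
  rw [← sub_eq_of_eq_add' e]
  exact W.sub_mem (hW t ht.1 w hw) hw

/-- the centres of the transvections with axis `ker ψ` -/
def Sg (hW : Inv U W) (i : If U W ψ) : AddSubgroup (ι → F) where
  carrier := {s | ∃ t, Tv U W ψ t s}
  zero_mem' := ⟨1, one_mem _, fun w _ => by simp⟩
  add_mem' := by
    rintro s s' ⟨t, ht⟩ ⟨t', ht'⟩
    obtain ⟨h1, h2⟩ := tv_mem hW i ht'
    refine ⟨t * t', mul_mem ht.1 ht'.1, fun w hw => ?_⟩
    rw [Units.val_mul, ← mulVec_mulVec, ht'.2 w hw, mulVec_add, mulVec_smul, ht.2 w hw,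
      ht.2 s' h1, h2, zero_smul, add_zero, smul_add, add_assoc]
  neg_mem' := by
    rintro s ⟨t, ht⟩
    obtain ⟨h1, h2⟩ := tv_mem hW i ht
    refine ⟨t⁻¹, inv_mem ht.1, fun w hw => ?_⟩
    have e : t.val *ᵥ (w + ψ w • -s) = w := by
      rw [mulVec_add, mulVec_smul, mulVec_neg, ht.2 w hw, ht.2 s h1, h2]
      simp
    conv_lhs => rw [← e]
    rw [mulVec_mulVec, Units.inv_mul, one_mulVec]

omit [Fintype F] in
theorem Sg_inv (hW : Inv U W) (i : If U W ψ) : ∀ g ∈ U, ∀ x ∈ Sg hW i, g.val *ᵥ x ∈ Sg hW i := by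
  rintro g hg s ⟨t, ht⟩
  refine ⟨g * t * g⁻¹, mul_mem (mul_mem hg ht.1) (inv_mem hg), fun w hw => ?_⟩
  rw [Units.val_mul, Units.val_mul, ← mulVec_mulVec, ← mulVec_mulVec,
    ht.2 _ (hW _ (inv_mem hg) w hw), i.inv _ (inv_mem hg) w hw, mulVec_add, mulVec_smul,
    mulVec_mulVec, Units.mul_inv, one_mulVec]

theorem k4 (h : Loc φ q p 5 U W y) (l : NL U W y) (hX : X ≤ W) (f : Hb φ U X B)
    (r : finrank F X = 4) (c1 : ∀ v ∈ W, Fx U v → v ∈ F ∙ a)
    (ax : ∀ ψ t a, If U W ψ → Fx U a → a ≠ 0 → Tv U W ψ t a → Ax φ U W y ψ t a) : False := by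
  have h2 := h.rk
  have hq := h.u.two_le
  obtain ⟨b0, hb0, hbX, hg0⟩ := h.fix_quot f.invX h.inv fun e => by
    have := Submodule.finrank_mono e; omega
  obtain ⟨ψ, h4, h5⟩ := Submodule.exists_le_ker_of_notMem hbX
  obtain ⟨b, hb, b1, hg⟩ : ∃ b ∈ W, ψ b = 1 ∧ ∀ g ∈ U, g.val *ᵥ b - b ∈ X :=
    ⟨(ψ b0)⁻¹ • b0, W.smul_mem _ hb0, by simp [h4], fun g hU => by
      rw [mulVec_smul, ← smul_sub]; exact X.smul_mem _ (hg0 g hU)⟩
  have b0 : ψ b ≠ 0 := by rw [b1]; exact one_ne_zero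
  have h6 := fr_cut' hb b0
  have h7 : X = W ⊓ LinearMap.ker ψ := Submodule.eq_of_le_of_finrank_le (le_inf hX h5) (by omega)
  have i : If U W ψ := ⟨⟨b, hb, b0⟩, fun g hU w hw => by
    obtain ⟨x, hx, e⟩ := dec hb b0 hw
    generalize ψ w / ψ b = c at e
    have e1 : ψ (g.val *ᵥ b) = ψ b := by rw [← sub_eq_zero, ← map_sub]; exact h5 (hg g hU)
    have e2 : ψ (g.val *ᵥ x) = 0 := h5 (f.invX g hU x (h7 ▸ hx))
    have e3 : ψ x = 0 := hx.2
    rw [e, mulVec_add, mulVec_smul, map_add, map_add, map_smul, map_smul, e1, e2, e3]⟩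
  have h8 := step (U := U) hb b0 (Sg h.inv i) fun g hU => ⟨g, hU.1, fun w hw => by
    rw [tv_of hb b0 hU hw, b1, div_one]⟩
  rw [← h7] at h8
  have e := g3 h f (r := 3) r
  have big : q ^ 2 < (Sg h.inv i : Set (ι → F)).ncard := by
    by_contra! k
    refine absurd_pow h l (k := 9) (by omega) (e.trans ((Nat.mul_le_mul_left _
      (h8.trans (Nat.mul_le_mul_right _ k))).trans (le_of_eq ?_)))
    rw [← mul_assoc, ← pow_add]
    rfl
  obtain ⟨a', ⟨t, ht⟩, a0, fa⟩ := h.fix_add (Sg h.inv i) (Sg_inv h.inv i) fun e => by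
    rw [e, AddSubgroup.coe_bot, Set.ncard_singleton] at big
    nlinarith
  obtain ⟨s, ⟨t', ht'⟩, hs⟩ : ∃ s ∈ Sg h.inv i, s ∉ F ∙ a' := by
    by_contra! k
    have := Set.ncard_le_ncard (s := (Sg h.inv i : Set (ι → F))) (t := (F ∙ a' : Submodule F _)) k
    rw [ncard_sub, finrank_span_singleton a0, h.u.card, pow_one] at this
    omega
  obtain ⟨v, hv, ρ, hρ, η, η0, v0, -, gv, gρ⟩ := ax ψ t a' i fa a0 ht
  obtain ⟨m1, m2⟩ := tv_mem h.inv i ht
  have α0 : ψ (t'.val *ᵥ y - y) = 0 := by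
    have := gv t' ht'.1
    rw [ht'.2 v hv, v0, zero_smul, add_zero, left_eq_add] at this
    exact (smul_eq_zero.1 this).resolve_right a0
  have ρ0 : ψ ρ = 0 := by
    by_contra k
    obtain ⟨c, hc⟩ := gρ t' ht'.1
    rw [ht'.2 ρ hρ, α0, map_zero, mul_zero, zero_smul, add_zero, add_right_inj] at hc
    exact hs ((Submodule.smul_mem_iff _ k).1 (Submodule.mem_span_singleton.2 ⟨c, hc.symm⟩))
  have := (axf h f r.ge (h7 ▸ ⟨m1, m2⟩) a0 fa (fun x hx => same c1 m1 a0 fa (hX hx))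
    (h7 ▸ ⟨hv, v0⟩) (h7 ▸ ⟨hρ, ρ0⟩) η0 _ (onto h i) gv gρ).1
  omega

theorem k5 (h : Loc φ q p 5 U W y) (l : NL U W y) (f : Hb φ U W B)
    (c1 : ∀ v ∈ W, Fx U v → v ∈ F ∙ a)
    (ax : ∀ ψ t a, If U W ψ → Fx U a → a ≠ 0 → Tv U W ψ t a → Ax φ U W y ψ t a) : False := by
  have h2 := h.rk
  obtain ⟨a', ha, a0, fa⟩ := fixed h h.inv (by omega)
  obtain ⟨e0, he0, e00⟩ := f.ex ha a0
  obtain ⟨e, he, e1⟩ : ∃ e ∈ W, B a' e = 1 := ⟨(B a' e0)⁻¹ • e0, W.smul_mem _ he0, by simp [e00]⟩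
  have e0 : B a' e ≠ 0 := by rw [e1]; exact one_ne_zero
  have d1 := fr_cut' he e0
  have iH := f.inv1 ha fa
  by_cases hc : Cp U (W ⊓ LinearMap.ker (B a')) ≤ Cp U W
  · have aa : B a' a' = 0 := by
      obtain ⟨x, hx, x0, fx⟩ := fixed h iH (by omega)
      obtain ⟨s, rfl⟩ := Submodule.mem_span_singleton.1 (same c1 ha a0 fa hx.1 fx)
      have h4 : B a' (s • a') = 0 := hx.2
      rw [map_smul, smul_eq_mul] at h4
      exact (mul_eq_zero.1 h4).resolve_left fun e => x0 (by rw [e, zero_smul])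
    obtain ⟨b, hb, hba, hg⟩ := h.fix_quot (inv_line fa) iH fun e => by
      have := Submodule.finrank_mono e
      rw [finrank_span_singleton a0] at this
      omega
    have gb : ∀ g ∈ U, ∃ s : F, g.val *ᵥ b = b + s • a' := fun g hU => by
      obtain ⟨s, hs⟩ := Submodule.mem_span_singleton.1 (hg g hU)
      exact ⟨s, eq_add_of_sub_eq' hs.symm⟩
    obtain ⟨d, hd, h0⟩ : ∃ d ∈ W ⊓ LinearMap.ker (B a'), B b d ≠ 0 := by
      by_contra! k
      obtain ⟨s, hs⟩ := f.rad1 ha a0 hb.1 k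
      exact hba (Submodule.mem_span_singleton.2 ⟨s, hs.symm⟩)
    have d2 := fr_cut' hd h0
    have iM : Inv U (W ⊓ LinearMap.ker (B a') ⊓ LinearMap.ker (B b)) := fun g hg x hx => by
      have h1 := iH g hg x hx.1
      refine ⟨h1, ?_⟩
      obtain ⟨s, hs⟩ := gb g hg
      have h2 := f.inv g hg b hb.1 x hx.1.1
      have h3 : B a' (g.val *ᵥ x) = 0 := h1.2
      have h4 : B b x = 0 := hx.2
      rw [hs] at h2
      simpa [h3, h4] using h2
    have k1 := flag h iM (n := 3) (by omega)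
    have k2 := g4 h f ha a0 hb.1 gb aa hb.2 hd h0
    refine absurd_pow h l (k := 9) (by omega) (k1.trans ((Nat.mul_le_mul_left _ (k2.trans
      (Nat.mul_le_mul_left _ (Subgroup.card_le_of_le hc)))).trans (le_of_eq ?_)))
    rw [← mul_assoc, ← pow_add]
    rfl
  · obtain ⟨t, ht, htW⟩ := SetLike.not_le_iff_exists.1 hc
    have i : If U W (B a') := ⟨⟨e, he, e0⟩, fun g hU w hw => by
      have := f.inv g hU a' ha w hw
      rwa [fa g hU] at this⟩
    have tv : Tv U W (B a') t (t.val *ᵥ e - e) := ⟨ht.1, fun w hw => by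
      rw [tv_of he e0 ht hw, e1, div_one]⟩
    have s0 : t.val *ᵥ e - e ≠ 0 := fun k => htW ⟨ht.1, fun w hw => by
      rw [tv.2 w hw, k, smul_zero, add_zero]⟩
    have hs := (tv_mem h.inv i tv).1
    obtain ⟨c, hc⟩ := f.rad1 ha a0 hs fun x hx => f.orth inf_le_left he ht hx
    have fs : Fx U (t.val *ᵥ e - e) := fun g hg => by rw [hc, mulVec_smul, fa g hg]
    obtain ⟨v, hv, ρ, hρ, η, η0, -, -, gv, gρ⟩ := ax _ t _ i fs s0 tv
    exact absurd_pow h l (k := 8) (by omega) ((axf h f (by omega) hs s0 fs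
      (fun x hx => same c1 hs s0 fs hx) hv hρ η0 _ (onto h i) gv gρ).2 h2)

end L3

open L3

theorem Loc.k45 (h : Loc φ q p 5 U W y) (l : NL U W y) (hX : X ≤ W) (f : Hf φ U X Φ) (r : 4 ≤ finrank F X)
    (c1 : ∀ v ∈ W, Fx U v → v ∈ F ∙ a)
    (ax : ∀ ψ t a, If U W ψ → Fx U a → a ≠ 0 → Tv U W ψ t a → Ax φ U W y ψ t a) : False := by
  obtain ⟨B, f⟩ := hb f
  have h1 := Submodule.finrank_mono hX
  have h2 := h.rk
  by_cases h4 : finrank F X = 4
  · exact k4 h l hX f h4 c1 ax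
  · obtain rfl := Submodule.eq_of_le_of_finrank_le hX (by omega)
    exact k5 h l f c1 ax

end CF.UsL
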