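import Cfsg.Agent.Us.LC
import Cfsg.Agent.Us.LD
import Cfsg.Agent.Us.LE

/-! A group of unitary isometries that is transitive on every level contains a transvection. -/

set_option autoImplicit false

namespace CF.UsL

open Cfsg CF.MaxSub Matrix Module
open scoped MatrixGroups

variable {ι : Type} [Fintype ι] [DecidableEq ι] {F : Type*} [Field F] [Fintype F] {φ : FD ι F} {q p : ℕ}
  {H U : Subgroup (GL ι F)} {W : Submodule F (ι → F)} {y : ι → F}

theorem exists_tv {m : ℕ} (h : φ.IsU q) (hn : Fintype.card ι = 2 * m + 1) (hm : 2 ≤ m)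
    (k : ∀ p U W y, Loc φ q p m U W y → NT φ U → NL U W y → False) (h1 : H ≤ φ.isom) (t : UsP.Tr φ H) :
    ∃ v, ∃ hv : φ.f v v = 0, ∃ a, v ≠ 0 ∧ a ≠ 0 ∧ φ.tvf v hv a ∈ H := by
  by_contra c
  have nt : NT φ H := fun g hg v a hv e => by_contra fun n => c ⟨v, hv, a, fun z => n (.inr z),
    fun z => n (.inl z), by
      rwa [show φ.tvf v hv a = g from Units.ext (Matrix.ext_iff_mulVec.2 fun x => by rw [φ.tvf_mulVec, e])]⟩
  obtain ⟨p, U, W, y, hU, h2, l⟩ := exists_loc h hn hm h1 t nt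
  exact k p U W y h2 (fun g hg => nt g (hU hg)) l

end CF.UsL

namespace CF.UsP

open Cfsg CF.MaxSub Matrix
open scoped MatrixGroups

variable {ι : Type} [Fintype ι] [DecidableEq ι] {F : Type*} [Field F] [Fintype F] {φ : FD ι F} {q : ℕ}

theorem tv7 (h : φ.IsU q) (hn : Fintype.card ι = 7) {H : Subgroup (GL ι F)} (h1 : H ≤ φ.isom) (t : Tr φ H) :
    ∃ v, ∃ hv : φ.f v v = 0, ∃ a, v ≠ 0 ∧ a ≠ 0 ∧ φ.tvf v hv a ∈ H :=
  UsL.exists_tv (m := 3) h hn (by omega) (fun _ _ _ _ k nt l => by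
    obtain ⟨X, Φ, hX, f, r⟩ := k.tri (by omega) nt l
    exact k.end3 l hX f (by omega)) h1 t

end CF.UsP
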