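import Cfsg.Agent.Us.P6a

/-! The local analysis of a `p`-group of unitary isometries: definitions. -/

set_option autoImplicit false

namespace CF.UsL

open Cfsg CF.MaxSub Matrix
open scoped MatrixGroups

variable {ι : Type} [Fintype ι] [DecidableEq ι] {F : Type*} [Field F]

/-- the elements of `U` fixing `A` pointwise -/
def Cp (U : Subgroup (GL ι F)) (A : Submodule F (ι → F)) : Subgroup (GL ι F) where
  carrier := {g | g ∈ U ∧ ∀ w ∈ A, g.val *ᵥ w = w}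
  one_mem' := ⟨one_mem _, fun _ _ => one_mulVec _⟩
  mul_mem' := fun a b => ⟨mul_mem a.1 b.1, fun w h => by
    rw [Units.val_mul, ← mulVec_mulVec, b.2 w h, a.2 w h]⟩
  inv_mem' := fun {g} a => ⟨inv_mem a.1, fun w h => by
    conv_lhs => rw [← a.2 w h]
    rw [mulVec_mulVec, Units.inv_mul, one_mulVec]⟩

theorem mem_Cp {U : Subgroup (GL ι F)} {A : Submodule F (ι → F)} {g : GL ι F} :
    g ∈ Cp U A ↔ g ∈ U ∧ ∀ w ∈ A, g.val *ᵥ w = w := Iff.rfl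

/-- invariant subspace -/
def Inv (U : Subgroup (GL ι F)) (A : Submodule F (ι → F)) : Prop := ∀ g ∈ U, ∀ w ∈ A, g.val *ᵥ w ∈ A

/-- fixed vector -/
def Fx (U : Subgroup (GL ι F)) (a : ι → F) : Prop := ∀ g ∈ U, g.val *ᵥ a = a

/-- a `p`-group of isometries that is transitive on `y + W` -/
structure Loc [Fintype F] (φ : FD ι F) (q p m : ℕ) (U : Subgroup (GL ι F)) (W : Submodule F (ι → F))
    (y : ι → F) : Prop where
  u : φ.IsU q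
  pp : p.Prime
  ch : CharP F p
  dim : Fintype.card ι = 2 * m + 1
  iso : U ≤ φ.isom
  pg : IsPGroup p U
  ti : ∀ w ∈ W, ∀ w' ∈ W, φ.f w w' = 0
  rk : Module.finrank F W = m
  inv : Inv U W
  y0 : φ.f y y ≠ 0
  yW : ∀ w ∈ W, φ.f w y = 0
  st : ∀ g ∈ U, g.val *ᵥ y - y ∈ W
  tr : ∀ w ∈ W, ∃ g ∈ U, g.val *ᵥ y = y + w

/-- no transvections -/
def NT (φ : FD ι F) (H : Subgroup (GL ι F)) : Prop :=
  ∀ g ∈ H, ∀ v c, φ.f v v = 0 → (∀ x, g.val *ᵥ x = x + (c * φ.f x v) • v) → c = 0 ∨ v = 0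

/-- no translations -/
def NL (U : Subgroup (GL ι F)) (W : Submodule F (ι → F)) (y : ι → F) : Prop :=
  ∀ g ∈ Cp U W, g.val *ᵥ y = y

/-- an invariant non-degenerate Hermitian form on `X` -/
structure Hf (φ : FD ι F) (U : Subgroup (GL ι F)) (X : Submodule F (ι → F))
    (Φ : (ι → F) → (ι → F) → F) : Prop where
  invX : Inv U X
  add : ∀ x ∈ X, ∀ x' ∈ X, ∀ z ∈ X, Φ (x + x') z = Φ x z + Φ x' z
  smul : ∀ (c : F), ∀ x ∈ X, ∀ z ∈ X, Φ (c • x) z = c * Φ x z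
  swap : ∀ x ∈ X, ∀ z ∈ X, Φ x z = φ.σ (Φ z x)
  nd : ∀ x ∈ X, (∀ z ∈ X, Φ x z = 0) → x = 0
  inv : ∀ g ∈ U, ∀ x ∈ X, ∀ z ∈ X, Φ (g.val *ᵥ x) (g.val *ᵥ z) = Φ x z

/-- an invariant functional on `W` -/
structure If (U : Subgroup (GL ι F)) (W : Submodule F (ι → F)) (ψ : (ι → F) →ₗ[F] F) : Prop where
  ne : ∃ w ∈ W, ψ w ≠ 0
  inv : ∀ g ∈ U, ∀ w ∈ W, ψ (g.val *ᵥ w) = ψ w

/-- `t` induces on `W` the transvection with axis `ker ψ` and centre `s` -/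
def Tv (U : Subgroup (GL ι F)) (W : Submodule F (ι → F)) (ψ : (ι → F) →ₗ[F] F) (t : GL ι F)
    (s : ι → F) : Prop := t ∈ U ∧ ∀ w ∈ W, t.val *ᵥ w = w + ψ w • s

/-- the conclusion of the axis lemma -/
def Ax (φ : FD ι F) (U : Subgroup (GL ι F)) (W : Submodule F (ι → F)) (y : ι → F)
    (ψ : (ι → F) →ₗ[F] F) (t : GL ι F) (a : ι → F) : Prop :=
  ∃ v ∈ W, ∃ ρ ∈ W, ∃ η : F, η ≠ 0 ∧ ψ v = 0 ∧ t.val *ᵥ y = y + v ∧
    (∀ g ∈ U, g.val *ᵥ v = v + ψ (g.val *ᵥ y - y) • a) ∧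
    ∀ g ∈ U, ∃ c : F, g.val *ᵥ ρ = ρ + (η * φ.σ (ψ (g.val *ᵥ y - y))) • v + c • a

end CF.UsL
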