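import Cfsg.Agent.Us.LA

/-! The local analysis of a `p`-group of unitary isometries: tools. -/

set_option autoImplicit false
set_option linter.style.haveILetI false

namespace CF.UsL

open Cfsg CF.MaxSub Matrix Module
open scoped MatrixGroups

variable {ι : Type} [Fintype ι] [DecidableEq ι] {F : Type*} [Field F] [Fintype F] {φ : FD ι F} {q p m : ℕ}
  {H U : Subgroup (GL ι F)} {W X L : Submodule F (ι → F)} {y a : ι → F}

theorem card_le {G β : Type*} [Group G] [Finite G] {A B : Subgroup G} (f : G → β) (S : Set β) (hS : S.Finite)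
    (h : ∀ g ∈ B, f g ∈ S) (k : ∀ g ∈ B, ∀ g' ∈ B, f g = f g' → g⁻¹ * g' ∈ A) :
    Nat.card B ≤ S.ncard * Nat.card A := by
  classical
  have e : ∀ g : B, ∃ r : B, f r = f g := fun g => ⟨g, rfl⟩
  let r : β → B := fun s => if h : ∃ r : B, f r = s then h.choose else 1
  have hr : ∀ g : B, f (r (f g)) = f g := fun g => by
    simp only [r, dif_pos (e g)]; exact (e g).choose_spec
  haveI := hS.to_subtype
  rw [← Nat.card_coe_set_eq, ← Nat.card_prod]
  refine Nat.card_le_card_of_injective (fun g : B =>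
    ((⟨f g, h g g.2⟩, ⟨(r (f g)).1⁻¹ * g, k _ (r _).2 _ g.2 (hr g)⟩) : S × A)) fun g g' c => ?_
  simp only [Prod.mk.injEq, Subtype.mk.injEq] at c
  exact Subtype.ext (mul_left_cancel (c.2.trans (by rw [c.1])))

omit [Fintype F] in
theorem inv_mul_fix {g g' : GL ι F} {w : ι → F} (h : g.val *ᵥ w = g'.val *ᵥ w) : (g⁻¹ * g').val *ᵥ w = w := by
  rw [Units.val_mul, ← mulVec_mulVec, ← h, mulVec_mulVec, Units.inv_mul, one_mulVec]

omit [Fintype F] in
theorem Cp_le : Cp U W ≤ U := fun _ h => h.1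

omit [Fintype F] in
theorem Cp_anti {A B : Submodule F (ι → F)} (h : A ≤ B) : Cp U B ≤ Cp U A := fun _ k => ⟨k.1, fun w c => k.2 w (h c)⟩

omit [Fintype F] in
theorem Cp_bot : Cp U ⊥ = U := le_antisymm Cp_le fun _ h => ⟨h, fun w c => by
  rw [(Submodule.mem_bot F).1 c, mulVec_zero]⟩

omit [Fintype F] in
theorem mem_Cp_sup {A : Submodule F (ι → F)} {w : ι → F} {g : GL ι F} (h : g ∈ Cp U A)
    (k : g.val *ᵥ w = w) : g ∈ Cp U (A ⊔ F ∙ w) := ⟨h.1, fun v c => by
  obtain ⟨x, hx, z, hz, rfl⟩ := Submodule.mem_sup.1 c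
  obtain ⟨c, rfl⟩ := Submodule.mem_span_singleton.1 hz
  rw [mulVec_add, mulVec_smul, h.2 x hx, k]⟩

omit [DecidableEq ι] in
theorem ncard_sub (T : Submodule F (ι → F)) : (T : Set (ι → F)).ncard = Fintype.card F ^ finrank F T := by
  rw [← Nat.card_coe_set_eq, ← Nat.card_eq_fintype_card]
  exact Module.natCard_eq_pow_finrank (K := F) (V := T)

/-- subspaces `A ≤ B`: if `U` is trivial on `A` and moves the vectors of `B` by elements of `T` -/
theorem card_le_Cp {A B T : Submodule F (ι → F)} (k : ℕ) (hk : finrank F B ≤ finrank F A + k) (hAB : A ≤ B)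
    (h : ∀ g ∈ Cp U A, ∀ w ∈ B, g.val *ᵥ w - w ∈ T) :
    Nat.card (Cp U A) ≤ Fintype.card F ^ (k * finrank F T) * Nat.card (Cp U B) := by
  induction k generalizing A with
  | zero => rw [Submodule.eq_of_le_of_finrank_le hAB hk]; simp
  | succ k ih =>
    by_cases c : B ≤ A
    · rw [le_antisymm hAB c]; exact Nat.le_mul_of_pos_left _ (by positivity)
    obtain ⟨w, hw, hn⟩ := SetLike.not_le_iff_exists.1 c
    have l : A < A ⊔ F ∙ w := lt_of_le_of_ne le_sup_left fun e =>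
      hn (e ▸ Submodule.mem_sup_right (Submodule.mem_span_singleton_self w))
    have h1 := ih (A := A ⊔ F ∙ w) (by have := Submodule.finrank_lt_finrank_of_lt l; omega)
      (sup_le hAB ((Submodule.span_singleton_le_iff_mem _ _).2 hw)) fun g hg => h g (Cp_anti l.le hg)
    have h2 := card_le (A := Cp U (A ⊔ F ∙ w)) (fun g : GL ι F => g.val *ᵥ w - w) T (Set.toFinite _)
      (fun g hg => h g hg w hw) fun g hg g' hg' e =>
        mem_Cp_sup (mul_mem (inv_mem hg) hg') (inv_mul_fix (sub_left_injective e))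
    rw [ncard_sub] at h2
    refine h2.trans ((Nat.mul_le_mul_left _ h1).trans (le_of_eq ?_))
    ring

theorem fix_gen {G M : Type*} [Group G] [AddCommGroup M] [Finite M] (hp : p.Prime) (hG : IsPGroup p G)
    (hM : ∀ x : M, p • x = 0) (ρ : G →* AddMonoid.End M) (J : AddSubgroup M)
    (i : ∀ g, ∀ x ∈ J, ρ g x ∈ J) (n : J ≠ ⊥) : ∃ x ∈ J, x ≠ 0 ∧ ∀ g, ρ g x = x := by
  haveI := Fact.mk hp
  letI : MulAction G J :=
    { smul := fun g x => ⟨ρ g x, i g x x.2⟩
      one_smul := fun x => Subtype.ext (by change ρ 1 x = x; simp)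
      mul_smul := fun g g' x => Subtype.ext (by change ρ (g * g') x = ρ g (ρ g' x); simp) }
  obtain ⟨x, hx⟩ := AddSubgroup.ne_bot_iff_exists_ne_zero.1 n
  have d : p ∣ Nat.card J := by
    rw [← addOrderOf_eq_prime (x := x) (Subtype.ext (hM x)) hx]; exact addOrderOf_dvd_natCard x
  obtain ⟨b, h1, h2⟩ := hG.exists_fixed_point_of_prime_dvd_card_of_fixed_point J d (a := 0)
    fun g => Subtype.ext (map_zero (ρ g))
  exact ⟨b, b.2, fun c => h2 (Subtype.ext c.symm), fun g => congrArg Subtype.val (h1 g)⟩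

namespace Loc
variable (h : Loc φ q p m U W y)
include h

theorem isom {g : GL ι F} (hg : g ∈ U) (u v : ι → F) : φ.f (g.val *ᵥ u) (g.val *ᵥ v) = φ.f u v :=
  φ.mem_isom.1 (h.iso hg) u v

theorem y_notMem : y ∉ W := fun c => h.y0 (h.yW y c)

theorem perp_eq : φ.perp W = W ⊔ F ∙ y := by
  have l : W < W ⊔ F ∙ y := lt_of_le_of_ne le_sup_left fun e =>
    h.y_notMem (e ▸ Submodule.mem_sup_right (Submodule.mem_span_singleton_self y))
  refine (Submodule.eq_of_le_of_finrank_le (sup_le (fun w c => φ.mem_perp.2 (h.ti w c))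
    ((Submodule.span_singleton_le_iff_mem _ _).2 (φ.mem_perp'.2 h.yW))) ?_).symm
  have := Submodule.finrank_lt_finrank_of_lt l
  have := φ.finrank_perp W
  have := h.rk
  have := h.dim
  omega

theorem perp {v : ι → F} (hv : ∀ w ∈ W, φ.f w v = 0) : ∃ c : F, v - c • y ∈ W := by
  obtain ⟨x, hx, z, hz, rfl⟩ := Submodule.mem_sup.1 (h.perp_eq ▸ φ.mem_perp'.2 hv)
  obtain ⟨c, rfl⟩ := Submodule.mem_span_singleton.1 hz
  exact ⟨c, by simpa using hx⟩

theorem big (l : NL U W y) : q ^ (2 * m) * Nat.card (Cp U W) ≤ Nat.card U := by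
  choose g hg e using h.tr
  have c : Nat.card W = q ^ (2 * m) := by
    rw [pow_mul, ← h.u.card, ← h.rk, ← ncard_sub, ← Nat.card_coe_set_eq]; rfl
  rw [← c, ← Nat.card_prod]
  refine Nat.card_le_card_of_injective (fun z : W × Cp U W =>
    (⟨g z.1 z.1.2 * z.2, mul_mem (hg _ _) z.2.2.1⟩ : U)) fun z z' c => ?_
  have c1 : g z.1 z.1.2 * z.2 = g z'.1 z'.1.2 * z'.2 := congrArg Subtype.val c
  have c2 := congrArg (fun k : GL ι F => k.val *ᵥ y) c1
  simp only [Units.val_mul, ← mulVec_mulVec, l _ z.2.2, l _ z'.2.2, e, add_right_inj] at c2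
  obtain ⟨⟨w, hw⟩, k⟩ := z
  obtain ⟨⟨w', hw'⟩, k'⟩ := z'
  obtain rfl : w = w' := c2
  exact Prod.ext rfl (Subtype.ext (mul_left_cancel c1))

theorem p_smul {M : Type*} [AddCommGroup M] [Module F M] (x : M) : p • x = 0 := by
  haveI := h.ch
  rw [← Nat.cast_smul_eq_nsmul F, CharP.cast_eq_zero, zero_smul]

theorem fix_add (J : AddSubgroup (ι → F)) (i : ∀ g ∈ U, ∀ x ∈ J, g.val *ᵥ x ∈ J)
    (n : J ≠ ⊥) : ∃ x ∈ J, x ≠ 0 ∧ Fx U x := by
  obtain ⟨x, a, b, c⟩ := fix_gen h.pp h.pg h.p_smul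
    { toFun := fun g : U => (mulVecLin g.1.val).toAddMonoidHom
      map_one' := AddMonoidHom.ext fun x => one_mulVec x
      map_mul' := fun g g' => AddMonoidHom.ext fun x => (mulVec_mulVec x _ _).symm } J (fun g => i g g.2) n
  exact ⟨x, a, b, fun g hg => c ⟨g, hg⟩⟩

theorem fix_quot {A B : Submodule F (ι → F)} (hA : Inv U A) (hB : Inv U B)
    (n : ¬ B ≤ A) : ∃ b ∈ B, b ∉ A ∧ ∀ g ∈ U, g.val *ᵥ b - b ∈ A := by
  haveI : Finite ((ι → F) ⧸ A) := Quotient.finite _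
  obtain ⟨_, ⟨x, a, rfl⟩, b, c⟩ := fix_gen (M := (ι → F) ⧸ A) h.pp h.pg h.p_smul
    { toFun := fun g : U => (A.mapQ A (mulVecLin g.1.val) (hA g g.2)).toAddMonoidHom
      map_one' := AddMonoidHom.ext fun x => by
        obtain ⟨x, rfl⟩ := A.mkQ_surjective x; exact congrArg A.mkQ (one_mulVec x)
      map_mul' := fun g g' => AddMonoidHom.ext fun x => by
        obtain ⟨x, rfl⟩ := A.mkQ_surjective x; exact congrArg A.mkQ (mulVec_mulVec x _ _).symm } (B.map A.mkQ).toAddSubgroup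
    (by rintro g _ ⟨x, a, rfl⟩; exact ⟨_, hB g g.2 x a, rfl⟩) (fun c => n fun x a => by
      have : A.mkQ x ∈ (B.map A.mkQ).toAddSubgroup := ⟨x, a, rfl⟩
      rw [c] at this
      simpa using this)
  exact ⟨x, a, by simpa using b, fun g hg => (Submodule.Quotient.eq A).1 (c ⟨g, hg⟩)⟩

theorem cen_mod {E B : Subgroup (GL ι F)} (hB : B ≤ U) (hE : E ≤ B)
    (nB : ∀ g ∈ U, ∀ b ∈ B, g * b * g⁻¹ ∈ B) (nE : ∀ g ∈ U, ∀ b ∈ E, g * b * g⁻¹ ∈ E) (n : ¬ B ≤ E) :
    ∃ t ∈ B, t ∉ E ∧ ∀ g ∈ U, g * t * g⁻¹ * t⁻¹ ∈ E := by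
  haveI := Fact.mk h.pp
  letI : MulAction U B :=
    { smul := fun g x => ⟨g * x * g.1⁻¹, nB g g.2 x x.2⟩
      one_smul := fun x => Subtype.ext (by change (1 : GL ι F) * x * 1⁻¹ = x; simp)
      mul_smul := fun g g' x => Subtype.ext (by
        change (g.1 * g'.1) * x * (g.1 * g'.1)⁻¹ = g * (g' * x * g'.1⁻¹) * g.1⁻¹; group) }
  have sm : ∀ (g : U) (x : B), (g • x).1 = g * x * g.1⁻¹ := fun _ _ => rfl
  letI : MulAction.QuotientAction U (E.subgroupOf B) := ⟨fun g x x' c => by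
    have := nE g g.2 _ (Subgroup.mem_subgroupOf.1 c)
    rw [Subgroup.mem_subgroupOf]
    convert this using 1
    simp only [Subgroup.coe_mul, Subgroup.coe_inv, sm]; group⟩
  have d : p ∣ Nat.card (B ⧸ E.subgroupOf B) := by
    obtain ⟨k, hk⟩ := (h.pg.to_le hB).index (E.subgroupOf B)
    rw [← Subgroup.index, hk]
    refine dvd_pow_self p fun c => n ?_
    rwa [c, pow_zero, Subgroup.index_eq_one, Subgroup.subgroupOf_eq_top] at hk
  obtain ⟨b, h1, h2⟩ := h.pg.exists_fixed_point_of_prime_dvd_card_of_fixed_point _ d (a := ((1 : B) : _ ⧸ _))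
    fun g => by
      rw [MulAction.Quotient.smul_coe]; congr 1; exact Subtype.ext (by simp [sm])
  obtain ⟨b, rfl⟩ := QuotientGroup.mk_surjective b
  refine ⟨b⁻¹, inv_mem b.2, fun c => h2 (QuotientGroup.eq.2 ?_), fun g hg => ?_⟩
  · simpa [Subgroup.mem_subgroupOf] using c
  · have := QuotientGroup.eq.1 ((MulAction.Quotient.smul_coe _ _ _).symm.trans (h1 ⟨g, hg⟩))
    rw [Subgroup.mem_subgroupOf] at this
    convert this using 1
    simp only [Subgroup.coe_mul, Subgroup.coe_inv, sm]; group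

theorem line {β : F} (hβ : β ≠ 0) : {c : F | c * β + φ.σ (c * β) = 0}.ncard = q := by
  rw [← Geom.card_skew_eq h.u.card, ← Nat.card_coe_set_eq]
  refine Nat.card_congr ((Equiv.mulRight₀ β hβ).subtypeEquiv fun c => ?_)
  simp only [Set.mem_ofPred_eq, Equiv.mulRight₀_apply, h.u.σ]
  exact ⟨fun e => by linear_combination e, fun e => by linear_combination e⟩

omit h [Fintype F] in
theorem _root_.CF.UsL.Inv.conj {A : Submodule F (ι → F)} (hA : Inv U A) {g b : GL ι F} (hg : g ∈ U)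
    (hb : b ∈ Cp U A) : g * b * g⁻¹ ∈ Cp U A :=
  ⟨mul_mem (mul_mem hg hb.1) (inv_mem hg), fun w c => by
    simp only [Units.val_mul, ← mulVec_mulVec]
    rw [hb.2 _ (hA _ (inv_mem hg) w c), mulVec_mulVec, Units.mul_inv, one_mulVec]⟩

/-- `T_A = 1` -/
theorem tA (l : NL U W y) {A : Submodule F (ι → F)} (hA : Inv U A) (hW : A ≤ W)
    (s : ∀ v ∈ A, ∀ b : ι → F, (∀ c : F, ∃ g ∈ U, g.val *ᵥ v = v + c • b) → b = 0) {g : GL ι F} (hg : g ∈ U)
    (h1 : ∀ w ∈ W, g.val *ᵥ w - w ∈ A) (h2 : g.val *ᵥ y - y ∈ A) : g ∈ Cp U W := by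
  let T : Subgroup (GL ι F) :=
    { carrier := {g | g ∈ U ∧ ∀ w ∈ W ⊔ F ∙ y, g.val *ᵥ w - w ∈ A}
      one_mem' := ⟨one_mem _, by simp⟩
      mul_mem' := fun {a b} c d => ⟨mul_mem c.1 d.1, fun w k => by
        have := add_mem (hA a c.1 _ (d.2 w k)) (c.2 w k)
        rwa [mulVec_sub, mulVec_mulVec, sub_add_sub_cancel] at this⟩
      inv_mem' := fun {a} c => ⟨inv_mem c.1, fun w k => by
        have := neg_mem (hA _ (inv_mem c.1) _ (c.2 w k))
        rwa [mulVec_sub, mulVec_mulVec, Units.inv_mul, one_mulVec, neg_sub] at this⟩ }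
  have mT : ∀ g ∈ U, (∀ w ∈ W, g.val *ᵥ w - w ∈ A) → g.val *ᵥ y - y ∈ A → g ∈ T := fun g a b c =>
    ⟨a, fun w k => by
      obtain ⟨x, hx, z, hz, rfl⟩ := Submodule.mem_sup.1 k
      obtain ⟨r, rfl⟩ := Submodule.mem_span_singleton.1 hz
      convert add_mem (b x hx) (A.smul_mem r c) using 1
      rw [mulVec_add, mulVec_smul, smul_sub]; abel⟩
  have iY : Inv U (W ⊔ F ∙ y) := fun g a w k => by
    rw [← h.perp_eq, φ.mem_perp'] at k ⊢
    intro x hx
    have := h.isom a (g⁻¹.val *ᵥ x) w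
    rw [mulVec_mulVec, Units.mul_inv, one_mulVec] at this
    rw [this, k _ (h.inv _ (inv_mem a) x hx)]
  by_contra n
  obtain ⟨t, a, b, c⟩ := h.cen_mod (B := T) (E := Cp U W) (fun _ k => k.1)
    (fun k d => mT k d.1 (fun w e => by simp [d.2 w e]) (by simp [l k d]))
    (fun k d b e => ⟨mul_mem (mul_mem d e.1) (inv_mem d), fun w j => by
      have := hA k d _ (e.2 _ (iY _ (inv_mem d) w j))
      rw [mulVec_sub, mulVec_mulVec w k.val, Units.mul_inv, one_mulVec] at this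
      simpa only [Units.val_mul, ← mulVec_mulVec] using this⟩)
    (fun k d b e => h.inv.conj d e) fun k => n (k (mT g hg h1 h2))
  refine b ⟨a.1, fun w hw => sub_eq_zero.1 (s _ (a.2 y (Submodule.mem_sup_right
    (Submodule.mem_span_singleton_self y))) _ fun r => ?_)⟩
  obtain ⟨k, d, e⟩ := h.tr _ (W.smul_mem r hw)
  refine ⟨k, d, ?_⟩
  have c1 := c k d
  have c2 : (k * t * k⁻¹ * t⁻¹).val *ᵥ (t.val *ᵥ (k.val *ᵥ y)) = t.val *ᵥ (k.val *ᵥ y) := by
    have := h.st _ (mul_mem a.1 d)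
    rw [Units.val_mul, ← mulVec_mulVec] at this
    rw [← sub_add_cancel (t.val *ᵥ (k.val *ᵥ y)) y, mulVec_add, c1.2 _ this, l _ c1]
  rw [mulVec_mulVec, mulVec_mulVec, ← Units.val_mul, ← Units.val_mul,
    show k * t * k⁻¹ * t⁻¹ * t * k = k * t by group, Units.val_mul, ← mulVec_mulVec] at c2
  rw [mulVec_sub, c2, e, mulVec_add, mulVec_smul, smul_sub]; abel

end Loc

end CF.UsL
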