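import Cfsg.Agent.Us.LA

/-! The local analysis of a `p`-group of unitary isometries: set-up and no translations. -/

set_option autoImplicit false

namespace CF.UsL

open Cfsg CF.MaxSub Matrix Module
open scoped MatrixGroups Pointwise

variable {ι : Type} [Fintype ι] [DecidableEq ι] {F : Type*} [Field F] [Fintype F] {φ : FD ι F} {q p m : ℕ}
  {H U : Subgroup (GL ι F)} {W X L : Submodule F (ι → F)} {y a : ι → F}

namespace L1

theorem fixq [Fact p.Prime] [CharP F p] (pg : IsPGroup p U) (A B : AddSubgroup (ι → F))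
    (hA : ∀ g ∈ U, ∀ x ∈ A, g.val *ᵥ x ∈ A) (hB : ∀ g ∈ U, ∀ x ∈ B, g.val *ᵥ x ∈ B) (n : ¬ B ≤ A) :
    ∃ b ∈ B, b ∉ A ∧ ∀ g ∈ U, g.val *ᵥ b - b ∈ A := by
  let S := B.map (QuotientAddGroup.mk' A)
  let ρ : U → ((ι → F) ⧸ A →+ (ι → F) ⧸ A) := fun g =>
    QuotientAddGroup.map A A (mulVecLin g.1.val).toAddMonoidHom fun x hx => hA g.1 g.2 x hx
  have hρ : ∀ g x, ρ g (QuotientAddGroup.mk' A x) = QuotientAddGroup.mk' A (g.1.val *ᵥ x) := fun _ _ => rfl
  letI : MulAction U S :=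
    { smul := fun g x => ⟨ρ g x, by
        obtain ⟨_, b, hb, rfl⟩ := x
        exact ⟨_, hB g.1 g.2 b hb, (hρ g b).symm⟩⟩
      one_smul := by
        rintro ⟨_, b, hb, rfl⟩
        exact Subtype.ext ((hρ 1 b).trans (congrArg _ (one_mulVec b)))
      mul_smul := by
        rintro g g' ⟨_, b, hb, rfl⟩
        refine Subtype.ext ((hρ _ b).trans ?_)
        change _ = ρ g (ρ g' (QuotientAddGroup.mk' A b))
        rw [hρ, hρ, mulVec_mulVec]; rfl }
  obtain ⟨b, hb, hb'⟩ := SetLike.not_le_iff_exists.1 n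
  have d : p ∣ Nat.card S := by
    have e : addOrderOf (⟨_, b, hb, rfl⟩ : S) = p := addOrderOf_eq_prime (Subtype.ext (by
      change p • QuotientAddGroup.mk' A b = 0
      rw [← map_nsmul, ← Nat.cast_smul_eq_nsmul F, CharP.cast_eq_zero, zero_smul, map_zero]))
      fun e => hb' ((QuotientAddGroup.eq_zero_iff b).1 (congrArg Subtype.val e))
    exact e ▸ addOrderOf_dvd_natCard _
  obtain ⟨⟨_, c, hc, rfl⟩, h1, h2⟩ := pg.exists_fixed_point_of_prime_dvd_card_of_fixed_point S d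
    (a := 0) fun g => Subtype.ext (map_zero (ρ g))
  refine ⟨c, hc, fun e => h2 (Subtype.ext ((QuotientAddGroup.eq_zero_iff c).2 e).symm), fun g hg => ?_⟩
  exact QuotientAddGroup.eq_iff_sub_mem.1 ((hρ ⟨g, hg⟩ c).symm.trans (congrArg Subtype.val (h1 ⟨g, hg⟩)))

theorem dvd_rel {G : Type*} [Group G] [Finite G] [Fact p.Prime] (P : Sylow p G) (K : Subgroup G) {k : ℕ}
    (h : p ^ k ∣ K.index) : p ^ k ∣ K.relIndex P := by
  obtain ⟨a, ha⟩ := IsPGroup.iff_card.1 (P.isPGroup'.to_subgroup (K.subgroupOf P))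
  have h1 : p ^ a ∣ Nat.card K := by
    rw [← ha, ← Subgroup.card_map_of_injective (P : Subgroup G).subtype_injective]
    exact Subgroup.card_dvd_of_le (by rw [Subgroup.subgroupOf_map_subtype]; exact inf_le_left)
  have h2 : p ^ (k + a) ∣ Nat.card P := P.pow_dvd_card_of_pow_dvd_card (by
    rw [← K.index_mul_card, pow_add]; exact mul_dvd_mul h h1)
  rw [← (K.subgroupOf P).index_mul_card, ha, pow_add] at h2
  exact Nat.dvd_of_mul_dvd_mul_right (pow_pos (Fact.out : p.Prime).pos a) h2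

theorem conj_in {G : Type*} [Group G] [Finite G] [Fact p.Prime] (P Q : Sylow p G) (K : Subgroup G)
    (hP : (P : Subgroup G) ≤ K) (hQ : (Q : Subgroup G) ≤ K) : ∃ k ∈ K, k • P = Q := by
  obtain ⟨k, hk⟩ := MulAction.exists_smul_eq K (P.subtype hP) (Q.subtype hQ)
  refine ⟨k, k.2, ?_⟩
  rw [Sylow.smul_subtype] at hk
  exact Sylow.subtype_injective hk

/-- the Sylow subgroup: long orbits and the Frattini argument -/
theorem sylow (h : φ.IsU q) (hn : Fintype.card ι = 2 * m + 1) (h1 : H ≤ φ.isom) (tr : UsP.Tr φ H)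
    [Fact p.Prime] [CharP F p] : ∃ U ≤ H, IsPGroup p U ∧
      (∀ y, φ.f y y = 1 → q ^ (2 * m) ≤ {z | ∃ g ∈ U, g.val *ᵥ y = z}.ncard) ∧
      ∀ x, Fx U x → φ.f x x = 0 → ∀ θ : F, θ ≠ 0 →
        ∃ g ∈ H, g.val *ᵥ x = θ • x ∧ ∀ u, u ∈ U ↔ g * u * g⁻¹ ∈ U := by
  obtain ⟨P⟩ : Nonempty (Sylow p H) := inferInstance
  refine ⟨(P : Subgroup H).map H.subtype, Subgroup.map_subtype_le _, P.isPGroup'.map _, fun y hy => ?_,
    fun x fx hx θ hθ => ?_⟩
  · obtain ⟨n, -, hn'⟩ := FiniteField.card F p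
    obtain ⟨e, -, he⟩ := (Nat.dvd_prime_pow (Fact.out : p.Prime)).1
      (show q ∣ p ^ (n : ℕ) by rw [← hn', h.card]; exact dvd_pow_self q two_ne_zero)
    have y0 : ∀ z : ι → F, φ.f z z = 1 → z ≠ 0 := fun z hz e => by simp [e] at hz
    have o : MulAction.orbit H y = {v | φ.B v v = 1} := Set.ext fun z =>
      ⟨fun ⟨g, hg⟩ => by
        rw [← hg]; exact (φ.mem_isom.1 (h1 g.2) y y).trans hy, fun hz => by
        obtain ⟨g, hg, e⟩ := tr y z (y0 y hy) (y0 z hz) (hy.trans (Eq.symm hz))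
        exact ⟨⟨g, hg⟩, e⟩⟩
    have c := Geom.card_norm_one h.card h.σ ⟨h.ne, φ.invol, φ.B_symm h.eps⟩ φ.B_nondeg
      (n := 2 * m + 1) (by simpa)
    rw [if_neg (by simp), Nat.add_sub_cancel] at c
    have d : p ^ (e * (2 * m)) ∣ (MulAction.stabilizer H y).index := by
      rw [MulAction.index_stabilizer, o, pow_mul, ← he]
      exact Dvd.intro _ c.symm
    have d' := dvd_rel P _ d
    have o' : MulAction.orbit (P : Subgroup H) y =
        {z | ∃ g ∈ (P : Subgroup H).map H.subtype, g.val *ᵥ y = z} := Set.ext fun z =>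
      ⟨fun ⟨g, hg⟩ => ⟨_, ⟨g, g.2, rfl⟩, hg⟩, fun ⟨_, ⟨g, hg, rfl⟩, e⟩ => ⟨⟨g, hg⟩, e⟩⟩
    rw [← o', ← MulAction.index_stabilizer, he, ← pow_mul]
    exact Nat.le_of_dvd (Nat.pos_of_ne_zero Subgroup.index_ne_zero_of_finite) d'
  · by_cases x0 : x = 0
    · exact ⟨1, one_mem _, by simp [x0], fun u => by simp⟩
    obtain ⟨g, hg, e⟩ := tr x (θ • x) x0 (smul_ne_zero hθ x0) (by simp [φ.f_smul_left, φ.f_smul_right, hx])
    have hP : (P : Subgroup H) ≤ MulAction.stabilizer H x := fun u hu => fx _ ⟨u, hu, rfl⟩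
    have hQ : (((⟨g, hg⟩ : H) • P : Sylow p H) : Subgroup H) ≤ MulAction.stabilizer H x := by
      rintro _ ⟨u, hu, rfl⟩
      have e1 : u.1.val *ᵥ x = x := hP hu
      have e2 : (g⁻¹).val *ᵥ (θ • x) = x := by rw [← e, inv_mulVec_mulVec]
      refine smul_right_injective _ hθ ?_
      change θ • (g * u.1 * g⁻¹).val *ᵥ x = θ • x
      rw [← mulVec_smul, Units.val_mul, Units.val_mul, ← mulVec_mulVec, ← mulVec_mulVec, e2, e1, e]
    obtain ⟨k, hk, e'⟩ := conj_in _ _ _ hQ hP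
    rw [← mul_smul, Sylow.smul_eq_iff_mem_normalizer] at e'
    refine ⟨(k * ⟨g, hg⟩ : H), Subtype.prop _, ?_, fun u => ⟨?_, ?_⟩⟩
    · change (k.1 * g).val *ᵥ x = _
      rw [Units.val_mul, ← mulVec_mulVec, e, mulVec_smul]
      exact congrArg _ hk
    · rintro ⟨u, hu, rfl⟩
      exact ⟨_, (e' u).1 hu, rfl⟩
    · rintro ⟨v, hv, e2⟩
      have hu : u ∈ H := by
        have := H.mul_mem (H.mul_mem (H.inv_mem (k * ⟨g, hg⟩ : H).2) v.2) (k * ⟨g, hg⟩ : H).2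
        rw [show v.1 = _ from e2] at this
        simpa [mul_assoc] using this
      have e3 : v = k * ⟨g, hg⟩ * ⟨u, hu⟩ * (k * ⟨g, hg⟩)⁻¹ := Subtype.ext e2
      exact ⟨⟨u, hu⟩, (e' ⟨u, hu⟩).2 (e3 ▸ hv), rfl⟩

theorem fixs [Fact p.Prime] [CharP F p] (pg : IsPGroup p U) {A B : Submodule F (ι → F)} (hA : Inv U A)
    (hB : Inv U B) (n : ¬ B ≤ A) : ∃ b ∈ B, b ∉ A ∧ ∀ g ∈ U, g.val *ᵥ b - b ∈ A :=
  fixq pg A.toAddSubgroup B.toAddSubgroup hA hB n

omit [Fintype F] in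
theorem inv_perp (h1 : U ≤ φ.isom) (i : Inv U W) : Inv U (φ.perp W) := fun g hg v hv =>
  φ.mem_perp.2 fun w hw => by
    rw [← mulVec_inv_mulVec g w, φ.mem_isom.1 (h1 hg)]
    exact φ.mem_perp.1 hv _ (i _ (inv_mem hg) w hw)

theorem loc (h : φ.IsU q) (hn : Fintype.card ι = 2 * m + 1) (h1 : U ≤ φ.isom) [Fact p.Prime] [CharP F p]
    (pg : IsPGroup p U) (big : ∀ y, φ.f y y = 1 → q ^ (2 * m) ≤ {z | ∃ g ∈ U, g.val *ᵥ y = z}.ncard) :
    ∃ W y, Loc φ q p m U W y := by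
  obtain ⟨W, ⟨i, t⟩, mx⟩ := (wellFounded_gt (α := Submodule F (ι → F))).has_min
    {W | Inv U W ∧ W ≤ φ.perp W} ⟨⊥, fun g _ w hw => by simp [(Submodule.mem_bot F).1 hw], bot_le⟩
  have r := φ.finrank_perp W
  have r' := Submodule.finrank_mono t
  obtain ⟨b, hb, hb', fb⟩ := fixs pg i (inv_perp h1 i) fun e => by
    have := Submodule.finrank_mono e
    omega
  have b0 : φ.f b b ≠ 0 := fun e => mx (W ⊔ F ∙ b) ⟨fun g hg v hv => by
      obtain ⟨w, hw, _, hc, rfl⟩ := Submodule.mem_sup.1 hv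
      obtain ⟨c, rfl⟩ := Submodule.mem_span_singleton.1 hc
      rw [mulVec_add, mulVec_smul, ← sub_add_cancel (g.val *ᵥ b) b, smul_add, ← add_assoc]
      exact Submodule.add_mem_sup (add_mem (i g hg w hw) (W.smul_mem _ (fb g hg)))
        (Submodule.smul_mem _ _ (Submodule.mem_span_singleton_self b)), by
      rw [φ.perp_sup]
      refine sup_le (le_inf t fun w hw => φ.mem_perp_span.2 ?_) ((Submodule.span_singleton_le_iff_mem _ _).2
        ⟨hb, φ.mem_perp_span.2 ?_⟩)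
      · rintro _ rfl; exact φ.mem_perp'.1 hb w hw
      · rintro _ rfl; exact e⟩
    (lt_of_le_of_ne le_sup_left fun e => hb' (by
      rw [e]; exact Submodule.mem_sup_right (Submodule.mem_span_singleton_self b)))
  obtain ⟨c, hc⟩ := h.exists_norm (c := (φ.f b b)⁻¹) (by rw [map_inv₀, h.conj_f])
  have y1 : φ.f (c • b) (c • b) = 1 := by
    rw [φ.f_smul_left, φ.f_smul_right, ← mul_assoc, hc, inv_mul_cancel₀ b0]
  have st : ∀ g ∈ U, g.val *ᵥ (c • b) - c • b ∈ W := fun g hg => by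
    rw [mulVec_smul, ← smul_sub]; exact W.smul_mem _ (fb g hg)
  have sub : {z | ∃ g ∈ U, g.val *ᵥ (c • b) = z} ⊆ (fun w => c • b + w) '' W := by
    rintro _ ⟨g, hg, rfl⟩
    exact ⟨_, st g hg, add_sub_cancel _ _⟩
  have cd : ((fun w => c • b + w) '' (W : Set (ι → F))).ncard = q ^ (2 * finrank F W) := by
    rw [Set.ncard_image_of_injective _ (add_right_injective _), pow_mul, ← h.card, ← Nat.card_eq_fintype_card,
      ← natCard_eq_pow_finrank]
    rfl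
  have le := (big _ y1).trans (Set.ncard_le_ncard sub)
  rw [cd, Nat.pow_le_pow_iff_right h.two_le] at le
  have rk : finrank F W = m := by omega
  have eq := Set.eq_of_subset_of_ncard_le sub (by rw [cd, rk]; exact big _ y1)
  exact ⟨W, c • b, h, Fact.out, inferInstance, hn, h1, pg, fun w hw w' hw' => φ.mem_perp.1 (t hw) w' hw', rk, i,
    y1 ▸ one_ne_zero, fun w hw => φ.mem_perp'.1 (Submodule.smul_mem _ _ hb) w hw, st,
    fun w hw => eq.ge ⟨w, hw, rfl⟩⟩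

theorem perp (h : Loc φ q p m U W y) {v : ι → F} (hv : ∀ w ∈ W, φ.f w v = 0) : ∃ c : F, v - c • y ∈ W := by
  have yW : y ∉ W := fun e => h.y0 (h.ti y e y e)
  have e : W ⊔ (F ∙ y) = φ.perp W := Submodule.eq_of_le_of_finrank_le
    (sup_le (fun w hw => φ.mem_perp.2 (h.ti w hw))
      ((Submodule.span_singleton_le_iff_mem _ _).2 (φ.mem_perp'.2 h.yW))) (by
    have r := φ.finrank_perp W
    have := Submodule.finrank_lt_finrank_of_lt (lt_of_le_of_ne (le_sup_left : W ≤ W ⊔ F ∙ y) fun e => yW (by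
      rw [e]; exact Submodule.mem_sup_right (Submodule.mem_span_singleton_self y)))
    have := h.rk
    have := h.dim
    omega)
  obtain ⟨w, hw, _, hc, rfl⟩ := Submodule.mem_sup.1 (e.ge (φ.mem_perp'.2 hv))
  obtain ⟨c, rfl⟩ := Submodule.mem_span_singleton.1 hc
  exact ⟨c, by simpa using hw⟩

theorem f_yy (h : Loc φ q p m U W y) {v : ι → F} {c : F} (hv : v - c • y ∈ W) :
    φ.f v v = c * φ.σ c * φ.f y y := by
  rw [← sub_add_cancel v (c • y)]
  generalize v - c • y = w at hv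
  simp only [φ.f_add_left, φ.f_add_right, φ.f_smul_left, φ.f_smul_right, h.ti w hv w hv, h.yW w hv,
    φ.f_eq_zero_comm (h.yW w hv)]
  ring

/-- every invariant totally isotropic subspace lies in `W` -/
theorem uniq (h : Loc φ q p m U W y) (i : Inv U X) (t : ∀ x ∈ X, φ.f x x = 0) : X ≤ W := by
  haveI := Fact.mk h.pp
  haveI := h.ch
  by_contra n
  obtain ⟨b, hb, hb', fb⟩ := fixs h.pg h.inv i n
  obtain ⟨c, hc⟩ := perp h (v := b) fun w hw => by
    obtain ⟨g, hg, e⟩ := h.tr w hw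
    have := φ.mem_isom.1 (h.iso hg) y b
    rw [e, ← sub_add_cancel (g.val *ᵥ b) b] at this
    simpa only [φ.f_add_left, φ.f_add_right, h.ti w hw _ (fb g hg), φ.f_eq_zero_comm (h.yW _ (fb g hg)),
      zero_add, add_eq_left] using this
  have := f_yy h hc
  rw [t b hb, eq_comm, mul_eq_zero, mul_eq_zero, _root_.map_eq_zero, or_self] at this
  rw [this.resolve_right h.y0, zero_smul, sub_zero] at hc
  exact hb' hc

/-- products of two translations -/
theorem nn (h : Loc φ q p m U W y) {g g' : GL ι F} (hg : g ∈ Cp U W) (hg' : g' ∈ Cp U W) (v : ι → F) :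
    g.val *ᵥ (g'.val *ᵥ v - v) - (g'.val *ᵥ v - v) =
      (-(φ.f y y)⁻¹ * φ.f v (g'.val *ᵥ y - y)) • (g.val *ᵥ y - y) := by
  have p1 : ∀ w ∈ W, φ.f w (g'.val *ᵥ v - v) = 0 := fun w hw => by
    rw [φ.f_sub_right, sub_eq_zero]
    conv_lhs => rw [← hg'.2 w hw]
    exact φ.mem_isom.1 (h.iso hg'.1) w v
  obtain ⟨c, hc⟩ := perp h p1
  have e1 := φ.mem_isom.1 (h.iso hg'.1) v y
  have e2 := h.yW _ hc
  have e3 := φ.f_eq_zero_comm (p1 _ (h.st g' hg'.1))
  have e4 := hg.2 _ hc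
  simp only [φ.f_sub_left, φ.f_sub_right, φ.f_smul_left] at e2 e3 ⊢
  have : -(φ.f y y)⁻¹ * (φ.f v (g'.val *ᵥ y) - φ.f v y) = c := by
    have := h.y0
    field_simp
    linear_combination e2 + e3 - e1
  rw [this]
  rw [mulVec_sub _ _ (c • y), mulVec_smul] at e4
  linear_combination (norm := module) e4

theorem nl (h : Loc φ q p m U W y) (hU : U ≤ H) (h1 : H ≤ φ.isom) (nt : NT φ H)
    (fr : ∀ x, Fx U x → φ.f x x = 0 → ∀ θ : F, θ ≠ 0 →
      ∃ g ∈ H, g.val *ᵥ x = θ • x ∧ ∀ u, u ∈ U ↔ g * u * g⁻¹ ∈ U) : NL U W y := by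
  haveI := Fact.mk h.pp
  haveI := h.ch
  have y0 := h.y0
  have mul : ∀ g ∈ Cp U W, ∀ g' ∈ U, (g * g').val *ᵥ y - y = (g.val *ᵥ y - y) + (g'.val *ᵥ y - y) :=
    fun g hg g' hg' => by
      have := hg.2 _ (h.st g' hg')
      rw [mulVec_sub] at this
      rw [Units.val_mul, ← mulVec_mulVec]
      linear_combination (norm := module) this
  -- conjugation
  have cj : ∀ k : GL ι F, (∀ u ∈ U, k * u * k⁻¹ ∈ U) → (∀ w ∈ W, k⁻¹.val *ᵥ w ∈ W) → ∀ c : F,
      k⁻¹.val *ᵥ y - c • y ∈ W → ∀ g ∈ Cp U W, k * g * k⁻¹ ∈ Cp U W ∧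
        (k * g * k⁻¹).val *ᵥ y - y = c • k.val *ᵥ (g.val *ᵥ y - y) := fun k k1 k2 c hc g hg => by
    refine ⟨⟨k1 g hg.1, fun w hw => ?_⟩, ?_⟩
    · rw [Units.val_mul, Units.val_mul, ← mulVec_mulVec, ← mulVec_mulVec, hg.2 _ (k2 w hw), mulVec_inv_mulVec]
    · have := hg.2 _ hc
      rw [mulVec_sub, mulVec_smul, sub_eq_iff_eq_add] at this
      rw [Units.val_mul, Units.val_mul, ← mulVec_mulVec, ← mulVec_mulVec, this]
      simp only [mulVec_add, mulVec_sub, mulVec_smul, mulVec_inv_mulVec, smul_sub]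
      abel
  let T : AddSubgroup (ι → F) :=
    { carrier := {x | ∃ g ∈ Cp U W, g.val *ᵥ y - y = x}
      zero_mem' := ⟨1, one_mem _, by simp⟩
      add_mem' := by
        rintro _ _ ⟨g, hg, rfl⟩ ⟨g', hg', rfl⟩
        exact ⟨_, mul_mem hg hg', mul g hg g' hg'.1⟩
      neg_mem' := by
        rintro _ ⟨g, hg, rfl⟩
        refine ⟨_, inv_mem hg, eq_neg_of_add_eq_zero_left ?_⟩
        rw [← mul _ (inv_mem hg) g hg.1]; simp }
  intro g0 hg0
  by_contra n0
  obtain ⟨_, ⟨g, hg, rfl⟩, x0, fx⟩ := fixq h.pg ⊥ T (fun g _ x hx => by simp [AddSubgroup.mem_bot.1 hx]) (by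
      rintro u hu _ ⟨g, hg, rfl⟩
      have := cj u (fun v hv => mul_mem (mul_mem hu hv) (inv_mem hu)) (h.inv _ (inv_mem hu)) 1
        (by simpa using h.st _ (inv_mem hu)) g hg
      exact ⟨_, this.1, by rw [this.2, one_smul]⟩)
    fun e => n0 (sub_eq_zero.1 (AddSubgroup.mem_bot.1 (e ⟨g0, hg0, rfl⟩)))
  rw [AddSubgroup.mem_bot] at x0
  have xW := h.st g hg.1
  generalize ex : g.val *ᵥ y - y = x at x0 fx xW
  have xx := h.ti x xW x xW
  by_cases p2 : (2 : F) = 0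
  · refine (nt (g * g) (hU (mul_mem hg.1 hg.1)) x (-(φ.f y y)⁻¹) xx fun v => ?_).elim (by simpa) x0
    have := nn h hg hg v
    rw [ex, mulVec_sub] at this
    rw [Units.val_mul, ← mulVec_mulVec]
    linear_combination (norm := module) this + p2 • (g.val *ᵥ v - v)
  -- real multiples only
  have re : ∀ g' ∈ Cp U W, ∀ c : F, g'.val *ᵥ y - y = c • x → φ.σ c = c := fun g' hg' c e => by
    refine (nt (g * g' * (g' * g)⁻¹) (hU (mul_mem (mul_mem hg.1 hg'.1) (inv_mem (mul_mem hg'.1 hg.1)))) x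
      ((φ.f y y)⁻¹ * (c - φ.σ c)) xx fun v => ?_).elim (fun e => ?_) fun e => (x0 e).elim
    · obtain ⟨v, rfl⟩ : ∃ v', v = (g' * g).val *ᵥ v' := ⟨_, (mulVec_inv_mulVec _ v).symm⟩
      have e1 := nn h hg hg' v
      have e2 := nn h hg' hg v
      have e3 := φ.mem_isom.1 (h.iso (mul_mem hg'.1 hg.1)) v x
      rw [(mul_mem hg' hg).2 x xW] at e3
      rw [Units.val_mul, ← mulVec_mulVec, inv_mulVec_mulVec, e3]
      simp only [ex, e, φ.f_smul_right, mulVec_sub, Units.val_mul, ← mulVec_mulVec] at e1 e2 ⊢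
      linear_combination (norm := module) e1 - e2
    · exact (sub_eq_zero.1 ((mul_eq_zero.1 e).resolve_left (inv_ne_zero y0))).symm
  obtain ⟨θ, hθ⟩ := IsCyclic.exists_ofOrder_eq_natCard (α := Fˣ)
  obtain ⟨k, hk, k1, k2⟩ := fr x (fun u hu => sub_eq_zero.1 (AddSubgroup.mem_bot.1 (fx u hu))) xx θ θ.ne_zero
  have kW : ∀ w ∈ W, k⁻¹.val *ᵥ w ∈ W := fun w hw => uniq h (X := W.map (mulVecLin k⁻¹.val)) (by
      rintro u hu _ ⟨w, hw, rfl⟩
      refine ⟨_, h.inv _ ((k2 u).1 hu) w hw, ?_⟩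
      simp only [mulVecLin_apply, mulVec_mulVec, ← Units.val_mul]
      congr 2; group) (by
      rintro _ ⟨w, hw, rfl⟩
      exact (φ.mem_isom.1 (inv_mem (h1 hk)) w w).trans (h.ti w hw w hw)) ⟨w, hw, rfl⟩
  have kW' : ∀ w ∈ W, k.val *ᵥ w ∈ W := fun w hw => uniq h (X := W.map (mulVecLin k.val)) (by
      rintro u hu _ ⟨w, hw, rfl⟩
      refine ⟨_, h.inv (k⁻¹ * u * k) ((k2 _).2 (by simpa [mul_assoc] using hu)) w hw, ?_⟩
      simp only [mulVecLin_apply, mulVec_mulVec, ← Units.val_mul]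
      congr 2; group) (by
      rintro _ ⟨w, hw, rfl⟩
      exact (φ.mem_isom.1 (h1 hk) w w).trans (h.ti w hw w hw)) ⟨w, hw, rfl⟩
  obtain ⟨c, hc⟩ := perp h (v := k⁻¹.val *ᵥ y) fun w hw => by
    rw [← inv_mulVec_mulVec k w, φ.mem_isom.1 (inv_mem (h1 hk))]
    exact h.yW _ (kW' w hw)
  have c1 : c * φ.σ c = 1 := by
    have := f_yy h hc
    rw [φ.mem_isom.1 (inv_mem (h1 hk))] at this
    exact mul_right_cancel₀ y0 (this.symm.trans (one_mul _).symm)
  obtain ⟨a1, a2⟩ := cj k (fun u hu => (k2 u).1 hu) kW c hc g hg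
  rw [ex, k1, smul_smul] at a2
  have a3 := re _ a1 _ a2
  rw [h.u.σ] at a3 c1
  have q2 := h.u.two_le
  obtain ⟨r, hr⟩ : Odd q := by
    by_contra e
    exact p2 (h.u.two_eq_zero e)
  have c0 : c ≠ 0 := left_ne_zero_of_mul_eq_one c1
  have b1 : (c * θ) ^ (2 * r) = 1 := mul_right_cancel₀ (mul_ne_zero c0 θ.ne_zero) (by
    rw [← pow_succ, ← hr, a3, one_mul])
  have b2 : c ^ (2 * (r + 1)) = 1 := by rw [← c1, hr]; ring
  have b3 : θ ^ (2 * r * (r + 1)) = 1 := Units.ext (by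
    have e1 : (c * θ) ^ (2 * r * (r + 1)) = 1 := by rw [pow_mul, b1, one_pow]
    have e2 : c ^ (2 * r * (r + 1)) = 1 := by
      rw [show 2 * r * (r + 1) = 2 * (r + 1) * r by ring, pow_mul, b2, one_pow]
    rw [mul_pow, e2, one_mul] at e1
    simpa using e1)
  have b4 := Nat.le_of_dvd (by
    have : 0 < r := by omega
    positivity) (orderOf_dvd_of_pow_eq_one b3)
  rw [hθ, Nat.card_units, Nat.card_eq_fintype_card, h.u.card, hr] at b4
  have : 0 < r := by omega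
  have e : (2 * r + 1) ^ 2 = 4 * (r * (r + 1)) + 1 := by ring
  have : 0 < r * (r + 1) := by positivity
  rw [e, mul_assoc] at b4
  omega

end L1

theorem exists_loc (h : φ.IsU q) (hn : Fintype.card ι = 2 * m + 1) (_hm : 2 ≤ m) (h1 : H ≤ φ.isom)
    (tr : UsP.Tr φ H) (nt : NT φ H) : ∃ p U W y, U ≤ H ∧ Loc φ q p m U W y ∧ NL U W y := by
  obtain ⟨p, hp⟩ := CharP.exists F
  haveI := Fact.mk (CharP.char_is_prime F p)
  obtain ⟨U, hU, pg, big, fr⟩ := L1.sylow h hn h1 tr (p := p)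
  obtain ⟨W, y, l⟩ := L1.loc h hn (hU.trans h1) pg big
  exact ⟨p, U, W, y, hU, l, L1.nl l hU h1 nt fr⟩

end CF.UsL
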