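import Cfsg.Agent.Us.LB

/-! Small unitary groups: counting lemmas, ranks two and three. -/

set_option autoImplicit false

namespace CF.UsL

open Cfsg CF.MaxSub Matrix Module
open scoped MatrixGroups

variable {ι : Type} [Fintype ι] [DecidableEq ι] {F : Type*} [Field F] [Fintype F] {φ : FD ι F}
  {q p m : ℕ} {U : Subgroup (GL ι F)} {W X : Submodule F (ι → F)} {y a : ι → F}
  {Φ : (ι → F) → (ι → F) → F}

namespace L3

variable {A : Submodule F (ι → F)} {ψ : (ι → F) →ₗ[F] F} {d : ι → F}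

omit [Fintype ι] [DecidableEq ι] [Fintype F] in
theorem dec (hd : d ∈ A) (h : ψ d ≠ 0) {x : ι → F} (hx : x ∈ A) :
    ∃ x' ∈ A ⊓ LinearMap.ker ψ, x = x' + (ψ x / ψ d) • d :=
  ⟨x - (ψ x / ψ d) • d, ⟨A.sub_mem hx (A.smul_mem _ hd), by simp [h]⟩, by simp⟩

omit [DecidableEq ι] [Fintype F] in
theorem fr_sup (A : Submodule F (ι → F)) (d : ι → F) :
    finrank F (A ⊔ F ∙ d : Submodule F (ι → F)) ≤ finrank F A + 1 :=
  (Submodule.finrank_add_le_finrank_add_finrank _ _).trans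
    (Nat.add_le_add_left ((finrank_span_le_card _).trans (by simp)) _)

omit [DecidableEq ι] [Fintype F] in
theorem fr_sup' (h : d ∉ A) : finrank F (A ⊔ F ∙ d : Submodule F (ι → F)) = finrank F A + 1 :=
  le_antisymm (fr_sup A d) (Submodule.finrank_lt_finrank_of_lt (lt_of_le_of_ne le_sup_left
    fun e => h (e ▸ Submodule.mem_sup_right (Submodule.mem_span_singleton_self d))))

omit [DecidableEq ι] [Fintype F] in
theorem fr_cut (A : Submodule F (ι → F)) (ψ : (ι → F) →ₗ[F] F) :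
    finrank F A ≤ finrank F (A ⊓ LinearMap.ker ψ : Submodule F (ι → F)) + 1 := by
  by_cases h : ∃ d ∈ A, ψ d ≠ 0
  · obtain ⟨d, hd, h⟩ := h
    refine (Submodule.finrank_mono fun x hx => ?_).trans (fr_sup _ d)
    obtain ⟨x', h1, h2⟩ := dec hd h hx
    rw [h2]
    exact Submodule.add_mem_sup h1 (Submodule.smul_mem _ _ (Submodule.mem_span_singleton_self d))
  · push Not at h
    exact (Submodule.finrank_mono (le_inf le_rfl fun x hx => h x hx)).trans (Nat.le_succ _)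

omit [DecidableEq ι] [Fintype F] in
theorem fr_cut' (hd : d ∈ A) (h : ψ d ≠ 0) :
    finrank F (A ⊓ LinearMap.ker ψ : Submodule F (ι → F)) + 1 = finrank F A :=
  le_antisymm (Submodule.finrank_lt_finrank_of_lt (lt_of_le_of_ne inf_le_left
    fun e => h (e.symm ▸ hd : d ∈ A ⊓ LinearMap.ker ψ).2)) (fr_cut A ψ)

omit [Fintype F] in
theorem tv_of (hd : d ∈ A) (h : ψ d ≠ 0) {g : GL ι F} (hg : g ∈ Cp U (A ⊓ LinearMap.ker ψ))
    {w : ι → F} (hw : w ∈ A) : g.val *ᵥ w = w + (ψ w / ψ d) • (g.val *ᵥ d - d) := by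
  obtain ⟨x', h1, h2⟩ := dec hd h hw
  generalize ψ w / ψ d = c at h2
  rw [h2, mulVec_add, mulVec_smul, hg.2 x' h1, smul_sub]
  abel

theorem step (hd : d ∈ A) (h : ψ d ≠ 0) (S : Set (ι → F))
    (hS : ∀ g ∈ Cp U (A ⊓ LinearMap.ker ψ), g.val *ᵥ d - d ∈ S) :
    Nat.card (Cp U (A ⊓ LinearMap.ker ψ)) ≤ S.ncard * Nat.card (Cp U A) := by
  refine card_le (fun g => g.val *ᵥ d - d) S (Set.toFinite S) hS fun g hg g' hg' e => ?_
  have hm := mul_mem (inv_mem hg) hg'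
  refine ⟨hm.1, fun w hw => ?_⟩
  rw [tv_of hd h hm hw, inv_mul_fix (sub_left_injective e), sub_self, smul_zero, add_zero]

omit [Fintype F] in
theorem inv_line (fa : Fx U a) : Inv U (F ∙ a) := fun g hg w hw => by
  obtain ⟨c, rfl⟩ := Submodule.mem_span_singleton.1 hw
  rwa [mulVec_smul, fa g hg]

theorem flag0 (h : Loc φ q p m U W y) {B : Submodule F (ι → F)} (hB : Inv U B) (n : ℕ)
    (hn : n ≤ finrank F B) : ∃ A ≤ B, Inv U A ∧ finrank F A = n ∧
      Nat.card U ≤ Fintype.card F ^ n.choose 2 * Nat.card (Cp U A) := by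
  induction n with
  | zero => exact ⟨⊥, bot_le, fun g _ w hw => by rw [(Submodule.mem_bot F).1 hw]; simp, by simp,
      by simp [Cp_bot]⟩
  | succ n ih =>
    obtain ⟨A, h1, h2, h3, h4⟩ := ih (by omega)
    obtain ⟨b, hb, hbA, hg⟩ := h.fix_quot h2 hB fun e => by
      have := Submodule.finrank_mono e; omega
    have mv : ∀ g ∈ U, ∀ w ∈ A ⊔ F ∙ b, g.val *ᵥ w - w ∈ A := fun g hU w hw => by
      obtain ⟨x, hx, z, hz, rfl⟩ := Submodule.mem_sup.1 hw
      obtain ⟨c, rfl⟩ := Submodule.mem_span_singleton.1 hz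
      have : g.val *ᵥ (x + c • b) - (x + c • b) = g.val *ᵥ x - x + c • (g.val *ᵥ b - b) := by
        rw [mulVec_add, mulVec_smul, smul_sub]; abel
      rw [this]
      exact A.add_mem (A.sub_mem (h2 g hU x hx) hx) (A.smul_mem _ (hg g hU))
    refine ⟨A ⊔ F ∙ b, sup_le h1 ((Submodule.span_singleton_le_iff_mem _ _).2 hb),
      fun g hU w hw => ?_, by rw [fr_sup' hbA, h3], h4.trans ?_⟩
    · simpa using Submodule.add_mem _ (Submodule.mem_sup_left (mv g hU w hw)) hw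
    · have := card_le_Cp (U := U) (T := A) 1 (fr_sup A b) le_sup_left fun g hg => mv g hg.1
      rw [Nat.choose_succ_succ' n 1, Nat.choose_one_right, add_comm, pow_add, mul_assoc]
      rw [h3, one_mul] at this
      exact Nat.mul_le_mul_left _ this

theorem flag (h : Loc φ q p m U W y) {B : Submodule F (ι → F)} (hB : Inv U B) {n : ℕ}
    (hn : finrank F B = n) : Nat.card U ≤ q ^ (2 * n.choose 2) * Nat.card (Cp U B) := by
  obtain ⟨A, h1, -, h3, h4⟩ := flag0 h hB n hn.ge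
  rwa [Submodule.eq_of_le_of_finrank_le h1 (by omega), h.u.card, ← pow_mul] at h4

theorem fixed (h : Loc φ q p m U W y) (hA : Inv U A) (n : 0 < finrank F A) :
    ∃ x ∈ A, x ≠ 0 ∧ Fx U x :=
  h.fix_add A.toAddSubgroup hA fun e => by
    have : A = ⊥ := Submodule.toAddSubgroup_injective e
    rw [this, finrank_bot] at n
    omega

theorem skew (h : Loc φ q p m U W y) {β : F} (k : ∀ c, c * β + φ.σ (c * β) = 0) : β = 0 := by
  by_contra hβ
  have e := h.line hβ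
  rw [Set.eq_univ_of_forall (s := {c : F | c * β + φ.σ (c * β) = 0}) k, Set.ncard_univ,
    Nat.card_eq_fintype_card, h.u.card] at e
  have := h.u.two_le
  nlinarith

/-- an invariant Hermitian form, non-degenerate on `X` -/
structure Hb (φ : FD ι F) (U : Subgroup (GL ι F)) (X : Submodule F (ι → F))
    (B : (ι → F) →ₛₗ[φ.σ] (ι → F) →ₗ[F] F) : Prop where
  invX : Inv U X
  swap : ∀ x z, B x z = φ.σ (B z x)
  nd : ∀ u ∈ X, (∀ x ∈ X, B u x = 0) → u = 0
  inv : ∀ g ∈ U, ∀ x ∈ X, ∀ z ∈ X, B (g.val *ᵥ x) (g.val *ᵥ z) = B x z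

omit [Fintype F] in
theorem hb (f : Hf φ U X Φ) : ∃ B, Hb φ U X B := by
  obtain ⟨π, hπ⟩ := X.subtype.exists_leftInverse_of_injective X.ker_subtype
  have e : ∀ x ∈ X, (π x : ι → F) = x := fun x hx =>
    congrArg Subtype.val (LinearMap.congr_fun hπ ⟨x, hx⟩)
  refine ⟨LinearMap.mk₂'ₛₗ φ.σ (RingHom.id F) (fun z x => Φ (π x) (π z)) (fun z z' x => ?_)
    (fun c z x => ?_) (fun z x x' => ?_) (fun c z x => ?_), f.invX, fun x z => ?_,
    fun u hu k => ?_, fun g hg x hx z hz => ?_⟩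
  · rw [f.swap _ (π x).2 _ (π _).2, map_add, Submodule.coe_add, f.add _ (π z).2 _ (π z').2 _ (π x).2,
      map_add, ← f.swap _ (π x).2 _ (π _).2, ← f.swap _ (π x).2 _ (π _).2]
  · rw [f.swap _ (π x).2 _ (π _).2, map_smul, Submodule.coe_smul, f.smul _ _ (π z).2 _ (π x).2,
      map_mul, ← f.swap _ (π x).2 _ (π _).2, smul_eq_mul]
  · rw [map_add, Submodule.coe_add, f.add _ (π x).2 _ (π x').2 _ (π z).2]
  · rw [map_smul, Submodule.coe_smul, f.smul _ _ (π x).2 _ (π z).2, smul_eq_mul, RingHom.id_apply]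
  · exact f.swap _ (π z).2 _ (π x).2
  · refine f.nd u hu fun z hz => ?_
    have := k z hz
    rw [LinearMap.mk₂'ₛₗ_apply, e u hu, e z hz] at this
    rw [f.swap u hu z hz, this, map_zero]
  · rw [LinearMap.mk₂'ₛₗ_apply, LinearMap.mk₂'ₛₗ_apply, e _ hx, e _ hz, e _ (f.invX g hg x hx),
      e _ (f.invX g hg z hz), f.inv g hg z hz x hx]

variable {B : (ι → F) →ₛₗ[φ.σ] (ι → F) →ₗ[F] F}

omit [Fintype F] in
theorem rad0 {b u : ι → F} (hd : d ∈ A) (h : B b d ≠ 0)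
    (k : ∀ x ∈ A ⊓ LinearMap.ker (B b), B u x = 0) : ∃ r : F, ∀ x ∈ A, B (u - r • b) x = 0 := by
  refine ⟨φ.σ (B u d / B b d), fun x hx => ?_⟩
  obtain ⟨x', h1, h2⟩ := dec hd h hx
  have h3 : B b x' = 0 := h1.2
  generalize B b x / B b d = c at h2
  simp only [h2, map_add, map_sub, map_smul, LinearMap.map_smulₛₗ, LinearMap.sub_apply,
    LinearMap.smul_apply, smul_eq_mul, k x' h1, h3, φ.invol]
  field_simp
  ring

namespace Hb
variable (f : Hb φ U X B)
include f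

omit [Fintype F]

theorem ex (ha : a ∈ X) (a0 : a ≠ 0) : ∃ d ∈ X, B a d ≠ 0 := by
  by_contra! k
  exact a0 (f.nd a ha k)

theorem zero {x z : ι → F} (h : B x z = 0) : B z x = 0 := by rw [f.swap, h, map_zero]

theorem ne {x z : ι → F} (h : B x z ≠ 0) : B z x ≠ 0 := fun e => h (f.zero e)

theorem rad1 (ha : a ∈ X) (a0 : a ≠ 0) {u : ι → F} (hu : u ∈ X)
    (k : ∀ x ∈ X ⊓ LinearMap.ker (B a), B u x = 0) : ∃ r : F, u = r • a := by
  obtain ⟨d, hd, h⟩ := f.ex ha a0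
  obtain ⟨r, hr⟩ := rad0 hd h k
  exact ⟨r, sub_eq_zero.1 (f.nd _ (X.sub_mem hu (X.smul_mem _ ha)) hr)⟩

theorem orth (hA : A ≤ X) (hd : d ∈ X) {g : GL ι F} (hg : g ∈ Cp U A) {x : ι → F} (hx : x ∈ A) :
    B (g.val *ᵥ d - d) x = 0 := by
  rw [map_sub, LinearMap.sub_apply, ← f.inv g hg.1 d hd x (hA hx), hg.2 x hx, sub_self]

theorem inv1 (ha : a ∈ X) (fa : Fx U a) : Inv U (X ⊓ LinearMap.ker (B a)) := fun g hg x hx =>
  ⟨f.invX g hg x hx.1, by
    have := f.inv g hg a ha x hx.1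
    rw [fa g hg] at this
    exact this.trans hx.2⟩

end Hb

theorem g1 (h : Loc φ q p m U W y) (f : Hb φ U X B) (ha : a ∈ X) (a0 : a ≠ 0) (fa : Fx U a) :
    Nat.card (Cp U (X ⊓ LinearMap.ker (B a))) ≤ q * Nat.card (Cp U X) := by
  obtain ⟨d, hd, h0⟩ := f.ex ha a0
  refine (step hd h0 ((fun c => c • a) '' {c : F | c * B d a + φ.σ (c * B d a) = 0})
    fun g hg => ?_).trans (Nat.mul_le_mul_right _ ?_)
  · obtain ⟨c, hc⟩ := f.rad1 ha a0 (X.sub_mem (f.invX g hg.1 d hd) hd)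
      fun x hx => f.orth inf_le_left hd hg hx
    refine ⟨c, ?_, hc.symm⟩
    have e1 := f.inv g hg.1 a ha d hd
    have e2 := f.inv g hg.1 d hd d hd
    rw [eq_add_of_sub_eq' hc] at e1 e2
    rw [fa g hg.1] at e1
    simp only [map_add, map_smul, LinearMap.map_smulₛₗ, LinearMap.add_apply,
      LinearMap.smul_apply, smul_eq_mul] at e1 e2
    rw [Set.mem_ofPred_eq, map_mul, ← f.swap]
    linear_combination e2 - φ.σ c * e1
  · rw [← h.line (f.ne h0)]
    exact Set.ncard_image_le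

theorem g3 (h : Loc φ q p m U W y) (f : Hb φ U X B) {r : ℕ} (hr : finrank F X = r + 1) :
    Nat.card U ≤ q ^ (2 * r.choose 2 + 1) * Nat.card (Cp U X) := by
  obtain ⟨a, ha, a0, fa⟩ := fixed h f.invX (by omega)
  obtain ⟨d, hd, h0⟩ := f.ex ha a0
  have := fr_cut' hd h0
  rw [pow_succ, mul_assoc]
  exact (flag h (f.inv1 ha fa) (by omega)).trans (Nat.mul_le_mul_left _ (g1 h f ha a0 fa))

theorem g4 (h : Loc φ q p m U W y) (f : Hb φ U X B) (ha : a ∈ X) (a0 : a ≠ 0) {b : ι → F}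
    (hb : b ∈ X) (gb : ∀ g ∈ U, ∃ s : F, g.val *ᵥ b = b + s • a) (aa : B a a = 0) (ab : B a b = 0)
    (hd : d ∈ X ⊓ LinearMap.ker (B a)) (h0 : B b d ≠ 0) :
    Nat.card (Cp U (X ⊓ LinearMap.ker (B a) ⊓ LinearMap.ker (B b))) ≤
      q ^ 3 * Nat.card (Cp U (X ⊓ LinearMap.ker (B a))) := by
  refine (step hd h0 ((fun c : F × F => c.1 • b + c.2 • a) ''
    ({c : F | c * B d b + φ.σ (c * B d b) = 0} ×ˢ Set.univ))
    fun g hg => ?_).trans (Nat.mul_le_mul_right _ ?_)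
  · have hu := X.sub_mem (f.invX g hg.1 d hd.1) hd.1
    obtain ⟨r, hr⟩ := rad0 hd h0 fun x hx => f.orth (inf_le_left.trans inf_le_left) hd.1 hg hx
    obtain ⟨r', hc⟩ := f.rad1 ha a0 (X.sub_mem hu (X.smul_mem r hb)) hr
    have hc' := eq_add_of_sub_eq' hc
    refine ⟨(r, r'), ⟨?_, trivial⟩, hc'.symm⟩
    obtain ⟨s, hs⟩ := gb g hg.1
    have e1 := f.inv g hg.1 b hb d hd.1
    have e2 := f.inv g hg.1 d hd.1 d hd.1
    have ad : B a d = 0 := hd.2
    rw [eq_add_of_sub_eq' hc'] at e1 e2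
    rw [hs] at e1
    simp only [map_add, map_smul, LinearMap.map_smulₛₗ, LinearMap.add_apply,
      LinearMap.smul_apply, smul_eq_mul, aa, ab, ad, f.zero ab, f.zero ad] at e1 e2
    rw [Set.mem_ofPred_eq, map_mul, ← f.swap]
    linear_combination e2 - φ.σ r * e1
  · refine (Set.ncard_image_le (Set.toFinite _)).trans ?_
    rw [Set.ncard_prod, h.line (f.ne h0), Set.ncard_univ, Nat.card_eq_fintype_card, h.u.card,
      pow_succ' q 2]

theorem absurd_pow (h : Loc φ q p m U W y) (l : NL U W y) {k : ℕ} (hk : k < 2 * m)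
    (e : Nat.card U ≤ q ^ k * Nat.card (Cp U W)) : False := by
  have h1 := Nat.le_of_mul_le_mul_right ((h.big l).trans e) Nat.card_pos
  have := Nat.pow_lt_pow_right h.u.two_le hk
  omega

end L3

open L3

theorem Loc.u2 (h : Loc φ q p m U W y) (f : Hf φ U X Φ) (r : finrank F X = 2) :
    ∃ a ∈ X, ∃ w ∈ X, ∃ β : F, a ≠ 0 ∧ Fx U a ∧ w ∉ F ∙ a ∧ β ≠ 0 ∧
      ∀ g ∈ U, ∃ c : F, c * β + φ.σ (c * β) = 0 ∧ g.val *ᵥ w = w + c • a := by
  obtain ⟨B, f⟩ := hb f
  obtain ⟨a, ha, a0, fa⟩ := fixed h f.invX (by omega)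
  obtain ⟨w, hw, hwa, hg⟩ := h.fix_quot (inv_line fa) f.invX fun e => by
    have := Submodule.finrank_mono e
    rw [finrank_span_singleton a0] at this
    omega
  have key : ∀ g ∈ U, ∃ c : F, g.val *ᵥ w = w + c • a ∧ c * B a a = 0 ∧
      c * B w a + φ.σ (c * B w a) = 0 := fun g hU => by
    obtain ⟨c, hc⟩ := Submodule.mem_span_singleton.1 (hg g hU)
    have e1 := f.inv g hU a ha w hw
    have e2 := f.inv g hU w hw w hw
    rw [eq_add_of_sub_eq' hc.symm] at e1 e2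
    rw [fa g hU] at e1
    simp only [map_add, map_smul, LinearMap.map_smulₛₗ, LinearMap.add_apply,
      LinearMap.smul_apply, smul_eq_mul] at e1 e2
    refine ⟨c, eq_add_of_sub_eq' hc.symm, by linear_combination e1, ?_⟩
    rw [map_mul, ← f.swap]
    linear_combination e2 - φ.σ c * e1
  by_cases h0 : B w a = 0
  · have aa : B a a ≠ 0 := fun aa => a0 (f.nd a ha fun x hx => by
      have e : (F ∙ a) ⊔ F ∙ w = X := Submodule.eq_of_le_of_finrank_le
        (sup_le ((Submodule.span_singleton_le_iff_mem _ _).2 ha)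
          ((Submodule.span_singleton_le_iff_mem _ _).2 hw))
        (by rw [fr_sup' hwa, finrank_span_singleton a0, r])
      obtain ⟨u, hu, v, hv, rfl⟩ := Submodule.mem_sup.1 (e.symm ▸ hx)
      obtain ⟨c, rfl⟩ := Submodule.mem_span_singleton.1 hu
      obtain ⟨c', rfl⟩ := Submodule.mem_span_singleton.1 hv
      simp [aa, f.zero h0])
    refine ⟨a, ha, w, hw, 1, a0, fa, hwa, one_ne_zero, fun g hU => ?_⟩
    obtain ⟨c, h1, h2, -⟩ := key g hU
    exact ⟨c, by simp [(mul_eq_zero.1 h2).resolve_right aa], h1⟩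
  · refine ⟨a, ha, w, hw, B w a, a0, fa, hwa, h0, fun g hU => ?_⟩
    obtain ⟨c, h1, -, h2⟩ := key g hU
    exact ⟨c, h2, h1⟩

theorem Loc.u3 (h : Loc φ q p m U W y) (f : Hf φ U X Φ) (r : finrank F X = 3) :
    Nat.card U ≤ q ^ 3 * Nat.card (Cp U X) := by
  obtain ⟨B, f⟩ := hb f
  exact g3 h f (r := 2) r

theorem Loc.end3 (h : Loc φ q p 3 U W y) (l : NL U W y) (hX : X ≤ W) (f : Hf φ U X Φ) (r : 2 ≤ finrank F X) :
    False := by
  have h1 := Submodule.finrank_mono hX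
  have h2 := h.rk
  by_cases h3 : finrank F X = 3
  · have e := h.u3 f h3
    rw [Submodule.eq_of_le_of_finrank_le hX (by omega)] at e
    exact absurd_pow h l (by omega) e
  obtain ⟨B, f⟩ := hb f
  have e := g3 h f (r := 1) (by omega)
  obtain ⟨b, hb, hbX, hg⟩ := h.fix_quot f.invX h.inv fun e => by
    have := Submodule.finrank_mono e; omega
  obtain ⟨ψ, h4, h5⟩ := Submodule.exists_le_ker_of_notMem hbX
  have h6 := fr_cut' hb h4
  have h7 : X = W ⊓ LinearMap.ker ψ := Submodule.eq_of_le_of_finrank_le (le_inf hX h5) (by omega)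
  have h8 := step (U := U) hb h4 X fun g hU => hg g hU.1
  rw [← h7, ncard_sub, h.u.card, show finrank F X = 2 by omega] at h8
  refine absurd_pow h l (k := 5) (by omega) (e.trans ((Nat.mul_le_mul_left _ h8).trans ?_))
  rw [← mul_assoc, ← pow_mul, ← pow_add]
  rfl

end CF.UsL
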