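import Cfsg.Agent.Us.LB

/-! The local analysis of a `p`-group of unitary isometries: a frame modulo an invariant plane. -/

set_option autoImplicit false

namespace CF.UsL

open Cfsg CF.MaxSub Matrix Module
open scoped MatrixGroups

variable {ι : Type} [Fintype ι] [DecidableEq ι] {F : Type*} [Field F] {φ : FD ι F} {q p m : ℕ}
  {U : Subgroup (GL ι F)} {W L : Submodule F (ι → F)} {y : ι → F}

namespace L4

/-- `g - 1` -/
def nv (g : GL ι F) : (ι → F) →ₗ[F] (ι → F) := mulVecLin g.val - LinearMap.id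

theorem nv_apply (g : GL ι F) (v : ι → F) : nv g v = g.val *ᵥ v - v := rfl

theorem mv_eq (g : GL ι F) (v : ι → F) : g.val *ᵥ v = v + nv g v := by rw [nv_apply, add_sub_cancel]

theorem nv_mul (g h : GL ι F) (v : ι → F) : nv (g * h) v = nv g (nv h v) + nv h v + nv g v := by
  simp only [nv_apply, Units.val_mul, ← mulVec_mulVec, mulVec_sub]; abel

theorem nv_one (v : ι → F) : nv 1 v = 0 := by simp [nv_apply]

theorem nv_inv {g : GL ι F} {v : ι → F} (h : nv g (nv g v) = 0) : nv g⁻¹ v = -nv g v := by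
  have := inv_mul_fix (g' := 1) (sub_eq_zero.1 h |>.trans (one_mulVec _).symm)
  rw [mul_one, nv_apply, mulVec_sub, mulVec_mulVec, Units.inv_mul, one_mulVec] at this
  rw [nv_apply, nv_apply, ← this, neg_sub]

theorem nv_conj (g t : GL ι F) (v : ι → F) :
    nv (g * t * g⁻¹) (g.val *ᵥ v) = g.val *ᵥ nv t v := by
  rw [nv_apply, nv_apply, mulVec_mulVec, ← Units.val_mul, inv_mul_cancel_right, mulVec_sub,
    mulVec_mulVec, Units.val_mul]

theorem mv_inv (g : GL ι F) (v : ι → F) : g.val *ᵥ (g⁻¹.val *ᵥ v) = v := by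
  rw [mulVec_mulVec, Units.mul_inv, one_mulVec]

theorem nv_div (g g' : GL ι F) (v : ι → F) :
    nv (g⁻¹ * g') v = g⁻¹.val *ᵥ (g'.val *ᵥ v - g.val *ᵥ v) := by
  rw [nv_apply, mulVec_sub, mulVec_mulVec, mulVec_mulVec, Units.inv_mul, one_mulVec, Units.val_mul]

/-- the elements that are trivial on `A` and move `B` by `T` -/
def Mv (U : Subgroup (GL ι F)) (B A T : Submodule F (ι → F)) : Subgroup (GL ι F) where
  carrier := {g | g ∈ U ∧ (∀ v ∈ A, nv g v = 0) ∧ ∀ v ∈ B, nv g v ∈ T ∧ nv g v ∈ A}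
  one_mem' := ⟨one_mem _, fun _ _ => nv_one _, fun _ _ => by simp [nv_one]⟩
  mul_mem' := fun {a b} c d => ⟨mul_mem c.1 d.1,
    fun v k => by rw [nv_mul, d.2.1 v k, c.2.1 v k]; simp, fun v k => by
      rw [nv_mul, c.2.1 _ (d.2.2 v k).2, zero_add]
      exact ⟨add_mem (d.2.2 v k).1 (c.2.2 v k).1, add_mem (d.2.2 v k).2 (c.2.2 v k).2⟩⟩
  inv_mem' := fun {a} c => ⟨inv_mem c.1,
    fun v k => by rw [nv_inv (by rw [c.2.1 v k, map_zero]), c.2.1 v k, neg_zero], fun v k => by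
      rw [nv_inv (c.2.1 _ (c.2.2 v k).2)]
      exact ⟨neg_mem (c.2.2 v k).1, neg_mem (c.2.2 v k).2⟩⟩

theorem card_le' {G β : Type*} [Group G] [Finite G] [Fintype β] {A B : Subgroup G} (f : G → β)
    (k : ∀ g ∈ B, ∀ g' ∈ B, f g = f g' → g⁻¹ * g' ∈ A) :
    Nat.card B ≤ Fintype.card β * Nat.card A := by
  simpa [Set.ncard_univ] using card_le f Set.univ Set.finite_univ (fun _ _ => trivial) k

theorem inv_sup (hA : Inv U L) {b : ι → F} (hb : ∀ g ∈ U, g.val *ᵥ b - b ∈ L) :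
    Inv U (L ⊔ F ∙ b) := fun g hg v k => by
  obtain ⟨x, hx, z, hz, rfl⟩ := Submodule.mem_sup.1 k
  obtain ⟨c, rfl⟩ := Submodule.mem_span_singleton.1 hz
  rw [mulVec_add, mulVec_smul, mv_eq g b]
  exact add_mem (Submodule.mem_sup_left (hA g hg x hx)) (Submodule.smul_mem _ _ (add_mem
    (Submodule.mem_sup_right (Submodule.mem_span_singleton_self b))
    (Submodule.mem_sup_left (hb g hg))))

omit [DecidableEq ι] in
theorem rk_lt {b : ι → F} (h : b ∉ L) : finrank F L < finrank F ↥(L ⊔ F ∙ b) :=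
  Submodule.finrank_lt_finrank_of_lt (lt_of_le_of_ne le_sup_left fun e =>
    h (e ▸ Submodule.mem_sup_right (Submodule.mem_span_singleton_self b)))

omit [DecidableEq ι] in
theorem rk_le (b : ι → F) : finrank F ↥(L ⊔ F ∙ b) ≤ finrank F L + 1 :=
  (Submodule.finrank_add_le_finrank_add_finrank _ _).trans
    (Nat.add_le_add_left ((finrank_span_le_card ({b} : Set (ι → F))).trans (by simp)) _)

omit [Fintype ι] [DecidableEq ι] in
theorem mem_sup_iff {b v : ι → F} : v ∈ L ⊔ F ∙ b ↔ ∃ l ∈ L, ∃ c : F, v = l + c • b := by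
  simp only [Submodule.mem_sup, Submodule.mem_span_singleton]
  exact ⟨fun ⟨l, a, _, ⟨c, rfl⟩, e⟩ => ⟨l, a, c, e.symm⟩, fun ⟨l, a, c, e⟩ => ⟨l, a, _, ⟨c, rfl⟩, e.symm⟩⟩

omit [Fintype ι] [DecidableEq ι] in
theorem exists_fun {b : ι → F} (h : b ∉ L) :
    ∃ x : (ι → F) →ₗ[F] F, x b = 1 ∧ ∀ v ∈ L, x v = 0 := by
  obtain ⟨x, h1, h2⟩ := Submodule.exists_le_ker_of_notMem h
  exact ⟨(x b)⁻¹ • x, by simp [h1], fun v hv => by simp [LinearMap.mem_ker.1 (h2 hv)]⟩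

/-- coordinates on `W / L` in which `U` is triangular -/
structure Fm (U : Subgroup (GL ι F)) (W L : Submodule F (ι → F)) where
  w3 : ι → F
  w4 : ι → F
  w5 : ι → F
  x3 : (ι → F) →ₗ[F] F
  x4 : (ι → F) →ₗ[F] F
  x5 : (ι → F) →ₗ[F] F
  m3 : w3 ∈ W
  m4 : w4 ∈ W
  m5 : w5 ∈ W
  z3 : ∀ v ∈ L, x3 v = 0
  z4 : ∀ v ∈ L, x4 v = 0
  z5 : ∀ v ∈ L, x5 v = 0
  e3 : x3 w3 = 1 ∧ x4 w3 = 0 ∧ x5 w3 = 0
  e4 : x3 w4 = 0 ∧ x4 w4 = 1 ∧ x5 w4 = 0
  e5 : x3 w5 = 0 ∧ x4 w5 = 0 ∧ x5 w5 = 1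
  dec : ∀ v ∈ W, ∃ l ∈ L, v = l + x3 v • w3 + x4 v • w4 + x5 v • w5
  a5 : ∀ g ∈ U, ∀ v ∈ W, x5 (g.val *ᵥ v) = x5 v
  a4 : ∀ g ∈ U, ∀ v ∈ W, x4 (g.val *ᵥ v) = x4 v + x4 (g.val *ᵥ w5) * x5 v
  a3 : ∀ g ∈ U, ∀ v ∈ W,
    x3 (g.val *ᵥ v) = x3 v + x3 (g.val *ᵥ w4) * x4 v + x3 (g.val *ᵥ w5) * x5 v

variable [Fintype F]

theorem step (h : Loc φ q p m U W y) (i : Inv U L) : ∃ b ∈ W,
    (∀ g ∈ U, g.val *ᵥ b - b ∈ L) ∧ (W ≤ L ∨ finrank F L < finrank F ↥(L ⊔ F ∙ b)) := by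
  by_cases c : W ≤ L
  · exact ⟨0, zero_mem _, by simp, Or.inl c⟩
  · obtain ⟨b, h1, h2, h3⟩ := h.fix_quot i h.inv c
    exact ⟨b, h1, h3, Or.inr (rk_lt h2)⟩

theorem exists_fm (h : Loc φ q p 5 U W y) (i : Inv U L) (hL : L ≤ W) (r : finrank F L = 2) :
    Nonempty (Fm U W L) := by
  have rk := h.rk
  have n : ∀ A : Submodule F (ι → F), finrank F A < 5 → ¬ W ≤ A := fun A a b => by
    have := Submodule.finrank_mono b; omega
  obtain ⟨w3, m3, n3, f3⟩ := h.fix_quot i h.inv (n _ (by omega))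
  have i3 := inv_sup i f3
  have r3 := rk_le (L := L) w3
  obtain ⟨w4, m4, n4, f4⟩ := h.fix_quot i3 h.inv (n _ (by omega))
  have i4 := inv_sup i3 f4
  have r4 := rk_le (L := L ⊔ F ∙ w3) w4
  obtain ⟨w5, m5, n5, f5⟩ := h.fix_quot i4 h.inv (n _ (by omega))
  have e : ((L ⊔ F ∙ w3) ⊔ F ∙ w4) ⊔ F ∙ w5 = W := Submodule.eq_of_le_of_finrank_le
    (by simp [hL, m3, m4, m5]) (by
      have := rk_lt n3; have := rk_lt n4; have := rk_lt n5; omega)
  obtain ⟨x3, a3, b3⟩ := exists_fun n3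
  obtain ⟨x4, a4, b4⟩ := exists_fun n4
  obtain ⟨x5, a5, b5⟩ := exists_fun n5
  have s : ∀ (A : Submodule F (ι → F)) b, b ∈ A ⊔ F ∙ b := fun A b =>
    Submodule.mem_sup_right (Submodule.mem_span_singleton_self b)
  have c43 := b4 _ (s _ _)
  have c54 := b5 _ (s _ _)
  have c53 := b5 _ (Submodule.mem_sup_left (s _ _))
  have b4' := fun v (k : v ∈ L) => b4 v (Submodule.mem_sup_left k)
  have b5' := fun v (k : v ∈ L) => b5 v (Submodule.mem_sup_left (Submodule.mem_sup_left k))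
  obtain ⟨y4, hy4⟩ : ∃ y4, y4 = x4 - x4 w5 • x5 := ⟨_, rfl⟩
  obtain ⟨y3, hy3⟩ : ∃ y3, y3 = x3 - x3 w4 • y4 - x3 w5 • x5 := ⟨_, rfl⟩
  have z4 : ∀ v ∈ L, y4 v = 0 := fun v k => by simp [hy4, b4' v k, b5' v k]
  have z3 : ∀ v ∈ L, y3 v = 0 := fun v k => by simp [hy3, b3 v k, z4 v k, b5' v k]
  have e43 : y4 w3 = 0 := by simp [hy4, c43, c53]
  have e44 : y4 w4 = 1 := by simp [hy4, a4, c54]
  have e45 : y4 w5 = 0 := by simp [hy4, a5]
  have e33 : y3 w3 = 1 := by simp [hy3, a3, e43, c53]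
  have e34 : y3 w4 = 0 := by simp [hy3, e44, c54]
  have e35 : y3 w5 = 0 := by simp [hy3, e45, a5]
  have dec : ∀ v ∈ W, ∃ l ∈ L, v = l + y3 v • w3 + y4 v • w4 + x5 v • w5 := fun v k => by
    obtain ⟨u, k1, c5, rfl⟩ := mem_sup_iff.1 (e.ge k)
    obtain ⟨u', k2, c4, rfl⟩ := mem_sup_iff.1 k1
    obtain ⟨l, k3, c3, rfl⟩ := mem_sup_iff.1 k2
    exact ⟨l, k3, by simp [z3 l k3, z4 l k3, b5' l k3, e43, e44, e45, e33, e34, e35, a5, c53, c54]⟩
  have g3 : ∀ g ∈ U, y3 (g.val *ᵥ w3) = 1 ∧ y4 (g.val *ᵥ w3) = 0 ∧ x5 (g.val *ᵥ w3) = 0 :=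
    fun g k => by
      have : nv g w3 ∈ L := f3 g k
      rw [mv_eq g w3]
      simp [z3 _ this, z4 _ this, b5' _ this, e33, e43, c53]
  have g4 : ∀ g ∈ U, y4 (g.val *ᵥ w4) = 1 ∧ x5 (g.val *ᵥ w4) = 0 := fun g k => by
    obtain ⟨l, a, c, b⟩ := mem_sup_iff.1 (f4 g k)
    rw [mv_eq g w4, nv_apply, b]
    simp [z4 _ a, b5' _ a, e43, e44, c53, c54]
  have g5 : ∀ g ∈ U, x5 (g.val *ᵥ w5) = 1 := fun g k => by
    rw [mv_eq g w5, map_add, nv_apply, b5 _ (f5 g k), a5, add_zero]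
  refine ⟨⟨w3, w4, w5, y3, y4, x5, m3, m4, m5, z3, z4, b5', ⟨e33, e43, c53⟩, ⟨e34, e44, c54⟩,
    ⟨e35, e45, a5⟩, dec, fun g k v a => ?_, fun g k v a => ?_, fun g k v a => ?_⟩⟩ <;>
  · obtain ⟨l, b, c⟩ := dec v a
    have := i g k l b
    conv_lhs => rw [c]
    simp only [mulVec_add, mulVec_smul, map_add, map_smul, z3 _ this, z4 _ this, b5' _ this, g3 g k,
      g4 g k, g5 g k, smul_eq_mul]
    ring

theorem fin (h : Loc φ q p 5 U W y) (l : NL U W y) (k : Nat.card U ≤ q ^ 9 * Nat.card (Cp U W)) :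
    False := by
  have := Nat.le_of_mul_le_mul_right ((h.big l).trans k) Nat.card_pos
  have := (Nat.pow_le_pow_iff_right h.u.two_le).1 this
  omega

end L4

open L4

variable [Fintype F]

theorem Loc.c2 (h : Loc φ q p 5 U W y) (l : NL U W y) (hL : L ≤ W) (f : ∀ v ∈ L, Fx U v) :
    finrank F L ≤ 2 := by
  by_contra n
  have i : Inv U L := fun g a v b => (f v b g a).symm ▸ b
  obtain ⟨b4, m4, f4, r4⟩ := step h i
  obtain ⟨b5, m5, f5, r5⟩ := step h (inv_sup i f4)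
  have e : W ≤ (L ⊔ F ∙ b4) ⊔ F ∙ b5 := by
    rcases r4 with r4 | r4
    · exact r4.trans (le_sup_left.trans le_sup_left)
    rcases r5 with r5 | r5
    · exact r5.trans le_sup_left
    have := h.rk
    exact (Submodule.eq_of_le_of_finrank_le (by simp [hL, m4, m5]) (by omega)).ge
  have d : ∀ v ∈ W, ∃ l ∈ L, ∃ c c' : F, v = l + c • b4 + c' • b5 := fun v k => by
    obtain ⟨u, k1, c5, rfl⟩ := mem_sup_iff.1 (e k)
    obtain ⟨l, k2, c4, rfl⟩ := mem_sup_iff.1 k1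
    exact ⟨l, k2, c4, c5, rfl⟩
  choose! l1 m1 c1 e1 using fun g k => mem_sup_iff.1 (f5 g k)
  choose! l2 m2 c2 c3 e2 using fun g k => d _ (h.st g k)
  refine fin h l ((card_le' (A := Cp U W) (fun g => (c1 g, c2 g, c3 g)) fun g a g' a' k => ?_).trans ?_)
  · simp only [Prod.mk.injEq] at k
    have i' := i _ (inv_mem a)
    refine h.tA l i hL (fun v k b c => ?_) (mul_mem (inv_mem a) a') (fun v k' => ?_) ?_
    · obtain ⟨g, a, c⟩ := c 1
      simpa [f v k g a] using c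
    · obtain ⟨x, m, c, c', rfl⟩ := d v k'
      rw [← nv_apply, map_add, map_add, map_smul, map_smul]
      refine add_mem (add_mem ?_ (L.smul_mem _ (f4 _ (mul_mem (inv_mem a) a')))) (L.smul_mem _ ?_)
      · exact sub_mem (i _ (mul_mem (inv_mem a) a') x m) m
      · rw [nv_div, ← sub_sub_sub_cancel_right _ _ b5, e1 g a, e1 g' a', k.1, add_sub_add_right_eq_sub]
        exact i' _ (sub_mem (m1 _ a') (m1 _ a))
    · rw [← nv_apply, nv_div, ← sub_sub_sub_cancel_right _ _ y, e2 g a, e2 g' a', k.2.1, k.2.2,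
        add_sub_add_right_eq_sub, add_sub_add_right_eq_sub]
      exact i' _ (sub_mem (m2 _ a') (m2 _ a))
  · refine Nat.mul_le_mul_right _ ?_
    simp only [Fintype.card_prod, h.u.card, ← pow_add]
    exact Nat.pow_le_pow_right (by have := h.u.two_le; omega) (by omega)

end CF.UsL
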