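import Cfsg.Agent.Us.LF1

/-! The local analysis of a `p`-group of unitary isometries: the stability group of `L < W`. -/

set_option autoImplicit false

namespace CF.UsL.L4

open Cfsg CF.MaxSub Matrix Module
open scoped MatrixGroups

variable {ι : Type} [Fintype ι] [DecidableEq ι] {F : Type*} [Field F] [Fintype F] {φ : FD ι F}
  {q p : ℕ} {U : Subgroup (GL ι F)} {W L : Submodule F (ι → F)} {y v : ι → F} {g s t : GL ι F}

/-- the standing assumptions -/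
structure Su (φ : FD ι F) (q p : ℕ) (U : Subgroup (GL ι F)) (W : Submodule F (ι → F)) (y : ι → F)
    (L : Submodule F (ι → F)) : Prop where
  h : Loc φ q p 5 U W y
  l : NL U W y
  i : Inv U L
  le : L ≤ W
  ta : ∀ g ∈ U, (∀ v ∈ W, nv g v ∈ L) → nv g y ∈ L → g ∈ Cp U W

omit [Fintype F] in
theorem nv_Cp {A : Submodule F (ι → F)} (h : g ∈ Cp U A) (k : v ∈ A) : nv g v = 0 :=
  sub_eq_zero.2 (h.2 v k)

omit [Fintype F] in
theorem mv_L (h : t ∈ Mv U W L L) (k : v ∈ W) : nv t v ∈ L := (h.2.2 v k).1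

omit [Fintype F] in
theorem Fm.memL (f : Fm U W L) (k : v ∈ W) (h3 : f.x3 v = 0) (h4 : f.x4 v = 0) (h5 : f.x5 v = 0) :
    v ∈ L := by
  obtain ⟨l, a, b⟩ := f.dec v k
  rwa [b, h3, h4, h5, zero_smul, zero_smul, zero_smul, add_zero, add_zero, add_zero]

omit [Fintype F] in
theorem Fm.nd (f : Fm U W L) (h : t ∈ Mv U W L L) (k : v ∈ W) :
    nv t v = f.x3 v • nv t f.w3 + f.x4 v • nv t f.w4 + f.x5 v • nv t f.w5 := by
  obtain ⟨l, a, b⟩ := f.dec v k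
  conv_lhs => rw [b]
  simp [h.2.1 l a]

namespace Su
variable (S : Su φ q p U W y L)
include S

theorem lamW (h : g ∈ U) : nv g y ∈ W := S.h.st g h

theorem nvW (h : g ∈ U) (k : v ∈ W) : nv g v ∈ W := sub_mem (S.h.inv g h v k) k

theorem lamE (h : g ∈ Cp U W) : nv g y = 0 := sub_eq_zero.2 (S.l g h)

theorem conj (h : g ∈ U) (k : t ∈ Mv U W L L) : g * t * g⁻¹ ∈ Mv U W L L := by
  refine ⟨mul_mem (mul_mem h k.1) (inv_mem h), fun v a => ?_, fun v a => and_self_iff.2 ?_⟩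
  · rw [← mv_inv g v, nv_conj, k.2.1 _ (S.i _ (inv_mem h) v a), mulVec_zero]
  · rw [← mv_inv g v, nv_conj]
    exact S.i g h _ (mv_L k (S.h.inv _ (inv_mem h) v a))

theorem cm (h : g ∈ U) (k : t ∈ Mv U W L L) : g * t * g⁻¹ * t⁻¹ ∈ Mv U W L L :=
  mul_mem (S.conj h k) (inv_mem k)

omit S [Fintype F] in
theorem n_mul (k : s ∈ Mv U W L L) (k' : t ∈ Mv U W L L) (a : v ∈ W) :
    nv (s * t) v = nv s v + nv t v := by
  rw [nv_mul, k.2.1 _ (mv_L k' a), zero_add, add_comm]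

omit S [Fintype F] in
theorem n_inv (k : t ∈ Mv U W L L) (a : v ∈ W) : nv t⁻¹ v = -nv t v :=
  nv_inv (k.2.1 _ (mv_L k a))

theorem n_cm (h : g ∈ U) (k : t ∈ Mv U W L L) (a : v ∈ W) :
    nv (g * t * g⁻¹ * t⁻¹) (g.val *ᵥ v) = g.val *ᵥ nv t v - nv t (g.val *ᵥ v) := by
  have := S.h.inv g h v a
  rw [n_mul (S.conj h k) (inv_mem k) this, nv_conj, n_inv k this, sub_eq_add_neg]

section
variable {x : (ι → F) →ₗ[F] F} (z : ∀ v ∈ L, x v = 0)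
include z

theorem l_mul (k : s ∈ Mv U W L L) (k' : t ∈ U) : x (nv (s * t) y) = x (nv s y) + x (nv t y) := by
  rw [nv_mul, map_add, map_add, z _ (mv_L k (S.lamW k')), zero_add, add_comm]

theorem l_inv (k : t ∈ Mv U W L L) : x (nv t⁻¹ y) = -x (nv t y) := by
  have := S.l_mul z k (inv_mem k.1)
  rw [mul_inv_cancel, nv_one, map_zero] at this
  linear_combination -this

theorem l_div (k : s ∈ Mv U W L L) (k' : t ∈ U) (e : x (nv s y) = x (nv t y)) :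
    x (nv (s⁻¹ * t) y) = 0 := by
  rw [S.l_mul z (inv_mem k) k', S.l_inv z k, e, neg_add_cancel]

theorem l_cm (h : g ∈ U) (k : t ∈ Mv U W L L) :
    x (nv (g * t * g⁻¹ * t⁻¹) y) = x (g.val *ᵥ nv t y) - x (nv t y) := by
  have := nv_conj g t y
  rw [mv_eq g y, map_add] at this
  rw [S.l_mul z (S.conj h k) (inv_mem k.1), S.l_inv z k, ← this, map_add,
    z _ (mv_L (S.conj h k) (S.lamW h)), add_zero, sub_eq_add_neg]

end

variable (f : Fm U W L)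

theorem toE (k : t ∈ Mv U W L L) (h3 : f.x3 (nv t y) = 0) (h4 : f.x4 (nv t y) = 0)
    (h5 : f.x5 (nv t y) = 0) : t ∈ Cp U W :=
  S.ta t k.1 (fun _ => mv_L k) (f.memL (S.lamW k.1) h3 h4 h5)

include f in
theorem sym (k : s ∈ Mv U W L L) (k' : t ∈ Mv U W L L) : nv s (nv t y) = nv t (nv s y) := by
  have a := mul_mem k' k
  have e : ∀ x : (ι → F) →ₗ[F] F, (∀ v ∈ L, x v = 0) → x (nv ((t * s)⁻¹ * (s * t)) y) = 0 :=
    fun x z => S.l_div z a (mul_mem k.1 k'.1) (by rw [S.l_mul z k' k.1, S.l_mul z k k'.1, add_comm])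
  have := S.lamE (S.toE f (mul_mem (inv_mem a) (mul_mem k k')) (e _ f.z3) (e _ f.z4) (e _ f.z5))
  have := congrArg ((t * s).val *ᵥ ·) this
  simp only [nv_div, mv_inv, mulVec_zero] at this
  rw [mv_eq (s * t), mv_eq (t * s), nv_mul, nv_mul] at this
  linear_combination (exp := 1) this

theorem cen (k : t ∈ Mv U W L L) (h4 : f.x4 (nv t y) = 0) (h5 : f.x5 (nv t y) = 0) (h : g ∈ U)
    (a : v ∈ W) : g.val *ᵥ nv t v = nv t (g.val *ᵥ v) := by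
  have b := S.lamW k.1
  rw [← sub_eq_zero, ← S.n_cm h k a]
  refine nv_Cp (S.toE f (S.cm h k) ?_ ?_ ?_) (S.h.inv g h v a)
  · rw [S.l_cm f.z3 h k, f.a3 g h _ b, h4, h5]; ring
  · rw [S.l_cm f.z4 h k, f.a4 g h _ b, h5]; ring
  · rw [S.l_cm f.z5 h k, f.a5 g h _ b, sub_self]

theorem toK {g' : GL ι F} (h : g ∈ Cp U L) (h' : g' ∈ Cp U L)
    (e1 : f.x4 (g.val *ᵥ f.w5) = f.x4 (g'.val *ᵥ f.w5))
    (e2 : f.x3 (g.val *ᵥ f.w4) = f.x3 (g'.val *ᵥ f.w4))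
    (e3 : f.x3 (g.val *ᵥ f.w5) = f.x3 (g'.val *ᵥ f.w5)) : g⁻¹ * g' ∈ Mv U W L L := by
  have m := mul_mem (inv_mem h) h'
  refine ⟨m.1, fun v => nv_Cp m, fun v a => and_self_iff.2 ?_⟩
  rw [nv_div]
  refine S.i _ (inv_mem h.1) _ (f.memL (sub_mem (S.h.inv _ h'.1 v a) (S.h.inv _ h.1 v a)) ?_ ?_ ?_)
  · rw [map_sub, f.a3 _ h.1 v a, f.a3 _ h'.1 v a, e2, e3, sub_self]
  · rw [map_sub, f.a4 _ h.1 v a, f.a4 _ h'.1 v a, e1, sub_self]
  · rw [map_sub, f.a5 _ h.1 v a, f.a5 _ h'.1 v a, sub_self]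

theorem s4_div {g' : GL ι F} (h : g ∈ U) (h' : g' ∈ U)
    (e : f.x4 (g.val *ᵥ f.w5) = f.x4 (g'.val *ᵥ f.w5)) : f.x4 ((g⁻¹ * g').val *ᵥ f.w5) = 0 := by
  have m := mul_mem (inv_mem h) h'
  have := f.a4 g h _ (S.h.inv _ m _ f.m5)
  rw [mulVec_mulVec, ← Units.val_mul, mul_inv_cancel_left, f.a5 _ m _ f.m5, f.e5.2.2] at this
  linear_combination -this - e

theorem s3_eq {g' : GL ι F} (h : g ∈ U) (h' : g' ∈ U) (e : f.x3 ((g⁻¹ * g').val *ᵥ f.w4) = 0) :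
    f.x3 (g.val *ᵥ f.w4) = f.x3 (g'.val *ᵥ f.w4) := by
  have m := mul_mem (inv_mem h) h'
  have := f.a3 g h _ (S.h.inv _ m _ f.m4)
  rw [mulVec_mulVec, ← Units.val_mul, mul_inv_cancel_left, f.a5 _ m _ f.m4, f.a4 _ m _ f.m4,
    f.e4.2.2, f.e4.2.1, e] at this
  linear_combination -this

/-- case II -/
theorem two {g3 g4 : GL ι F} (h4 : g4 ∈ Cp U L) (n4 : f.x4 (g4.val *ᵥ f.w5) ≠ 0)
    (h3 : g3 ∈ Cp U L) (e3 : f.x4 (g3.val *ᵥ f.w5) = 0) (n3 : f.x3 (g3.val *ᵥ f.w4) ≠ 0)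
    (k : t ∈ Mv U W L L) : f.x4 (nv t y) = 0 ∧ f.x5 (nv t y) = 0 := by
  have A : ∀ t ∈ Mv U W L L, f.x5 (nv t y) = 0 → f.x4 (nv t y) = 0 := fun t k a => by
    by_contra n
    have b := S.lamW k.1
    have c := S.cm h3.1 k
    have c5 : f.x5 (nv (g3 * t * g3⁻¹ * t⁻¹) y) = 0 := by
      rw [S.l_cm f.z5 h3.1 k, f.a5 _ h3.1 _ b, sub_self]
    have c4 : f.x4 (nv (g3 * t * g3⁻¹ * t⁻¹) y) = 0 := by
      rw [S.l_cm f.z4 h3.1 k, f.a4 _ h3.1 _ b, a]; ring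
    have c3 : f.x3 (nv (g3 * t * g3⁻¹ * t⁻¹) y) ≠ 0 := by
      rw [S.l_cm f.z3 h3.1 k, f.a3 _ h3.1 _ b, a]
      simpa using ⟨n3, n⟩
    have d3 := S.cen f c c4 c5 h3.1 f.m4
    have d4 := S.cen f c c4 c5 h4.1 f.m5
    have d5 := S.n_cm h3.1 k f.m5
    have d := S.sym f k c
    set c' := g3 * t * g3⁻¹ * t⁻¹
    rw [h3.2 _ (mv_L c f.m4), f.nd c (S.h.inv _ h3.1 _ f.m4), f.a4 _ h3.1 _ f.m4,
      f.a5 _ h3.1 _ f.m4, f.e4.2.1, f.e4.2.2] at d3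
    have e3' : nv c' f.w3 = 0 := by simpa [n3] using d3
    rw [h4.2 _ (mv_L c f.m5), f.nd c (S.h.inv _ h4.1 _ f.m5), f.a5 _ h4.1 _ f.m5, f.e5.2.2,
      e3'] at d4
    have e4' : nv c' f.w4 = 0 := by simpa [n4] using d4
    rw [f.nd k (S.lamW c.1), f.nd c b, c4, c5, a, e3', e4'] at d
    have e0 : nv t f.w3 = 0 := by simpa [c3] using d
    rw [h3.2 _ (mv_L k f.m5), f.nd c (S.h.inv _ h3.1 _ f.m5), f.nd k (S.h.inv _ h3.1 _ f.m5),
      f.a5 _ h3.1 _ f.m5, f.e5.2.2, e3, e3', e0] at d5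
    have e5' : nv c' f.w5 = 0 := by simpa using d5
    refine c3 ?_
    rw [S.lamE ⟨c.1, fun v a => sub_eq_zero.1 ?_⟩, map_zero]
    rw [← nv_apply, f.nd c a, e3', e4', e5']
    simp
  have b := S.lamW k.1
  have c := A _ (S.cm h4.1 k) (by rw [S.l_cm f.z5 h4.1 k, f.a5 _ h4.1 _ b, sub_self])
  rw [S.l_cm f.z4 h4.1 k, f.a4 _ h4.1 _ b] at c
  have a : f.x5 (nv t y) = 0 := by simpa [n4] using c
  exact ⟨A t k a, a⟩

/-- case I -/
theorem one {τ t1 t' : GL ι F} {ψ : (ι → F) →ₗ[F] F} (h : τ ∈ Cp U L)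
    (e : f.x4 (τ.val *ᵥ f.w5) = 0)
    (hψ : ψ = f.x3 (τ.val *ᵥ f.w4) • f.x4 + f.x3 (τ.val *ᵥ f.w5) • f.x5)
    (k1 : t1 ∈ Mv U W L L) (n1 : ψ (nv t1 y) ≠ 0) (k' : t' ∈ Mv U W L L) (e' : ψ (nv t' y) = 0)
    (n' : ¬ (f.x4 (nv t' y) = 0 ∧ f.x5 (nv t' y) = 0)) :
    If U W ψ ∧ (∀ t ∈ Mv U W L L, ψ (nv t y) = 0 → ∀ v ∈ W, ψ v = 0 → nv t v = 0) ∧
      ∃ c b, Fx U b ∧ b ≠ 0 ∧ Tv U W ψ c b ∧ ¬ Ax φ U W y ψ c b := by
  have pψ : ∀ v, ψ v = f.x3 (τ.val *ᵥ f.w4) * f.x4 v + f.x3 (τ.val *ᵥ f.w5) * f.x5 v := fun v => by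
    simp [hψ]
  have b := S.lamW k1.1
  have c := S.cm h.1 k1
  have c5 : f.x5 (nv (τ * t1 * τ⁻¹ * t1⁻¹) y) = 0 := by
    rw [S.l_cm f.z5 h.1 k1, f.a5 _ h.1 _ b, sub_self]
  have c4 : f.x4 (nv (τ * t1 * τ⁻¹ * t1⁻¹) y) = 0 := by
    rw [S.l_cm f.z4 h.1 k1, f.a4 _ h.1 _ b, e]; ring
  have c3 : f.x3 (nv (τ * t1 * τ⁻¹ * t1⁻¹) y) = ψ (nv t1 y) := by
    rw [S.l_cm f.z3 h.1 k1, f.a3 _ h.1 _ b, pψ]; ring
  have d := fun v (a : v ∈ W) => S.n_cm h.1 k1 a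
  set c' := τ * t1 * τ⁻¹ * t1⁻¹
  have d0 : ∀ s ∈ Mv U W L L, ∀ v ∈ W, nv s (τ.val *ᵥ v) = nv s v + ψ v • nv s f.w3 :=
    fun s k v a => by
      rw [f.nd k (S.h.inv _ h.1 v a), f.nd k a, f.a3 _ h.1 v a, f.a4 _ h.1 v a, f.a5 _ h.1 v a, e,
        pψ]
      module
  have d1 : ∀ v ∈ W, nv c' v + ψ v • nv c' f.w3 = ψ v • -nv t1 f.w3 := fun v a => by
    rw [← d0 _ c v a, d v a, h.2 _ (mv_L k1 a), d0 _ k1 v a]
    module
  have ψ3 : ψ f.w3 = 0 := by simp [pψ, f.e3]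
  have d2 : nv c' f.w3 = 0 := by simpa [ψ3] using d1 _ f.m3
  simp only [d2, smul_zero, add_zero] at d1
  set b1 := -nv t1 f.w3 with hb
  have b0 : b1 ≠ 0 := fun a => n1 (by
    rw [← c3, S.lamE ⟨c.1, fun v k => sub_eq_zero.1 ?_⟩, map_zero]
    rw [← nv_apply, d1 v k, a, smul_zero])
  have ce : ∀ g ∈ U, ∀ v ∈ W, ψ v • (g.val *ᵥ b1) = ψ (g.val *ᵥ v) • b1 := fun g k v a => by
    rw [← d1 _ (S.h.inv g k v a), ← S.cen f c c4 c5 k a, d1 v a, mulVec_smul]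
  have fb : Fx U b1 := by
    obtain ⟨x, a, x0, fx⟩ := S.h.fix_add (F ∙ b1).toAddSubgroup (fun g k x a => by
      obtain ⟨r, rfl⟩ := Submodule.mem_span_singleton.1 a
      rw [mulVec_smul, (eq_inv_smul_iff₀ n1).2 (ce g k _ b)]
      exact Submodule.smul_mem _ _ (Submodule.smul_mem _ _ (Submodule.smul_mem _ _
        (Submodule.mem_span_singleton_self _)))) fun e => b0 (AddSubgroup.mem_bot.1
          (e ▸ Submodule.mem_span_singleton_self b1))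
    obtain ⟨r, rfl⟩ := Submodule.mem_span_singleton.1 a
    intro g k
    have := fx g k
    rwa [mulVec_smul, smul_right_inj (left_ne_zero_of_smul x0)] at this
  have w3 : ∀ t ∈ Mv U W L L, ψ (nv t1 y) • nv t f.w3 = ψ (nv t y) • b1 := fun t k => by
    rw [← d1 _ (S.lamW k.1), ← S.sym f k c, f.nd k (S.lamW c.1), c3, c4, c5]
    simp
  have two : (2 : F) = 0 := by
    have := w3 t1 k1
    rw [smul_right_inj n1, ← neg_neg (nv t1 f.w3), ← hb, neg_eq_iff_add_eq_zero, ← two_smul F] at this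
    exact (smul_eq_zero.1 this).resolve_right b0
  have sq : nv t' (nv t' y) = 0 := by
    have a : ∀ x : (ι → F) →ₗ[F] F, (∀ v ∈ L, x v = 0) → x (nv (t' * t') y) = 0 := fun x z => by
      rw [S.l_mul z k' k'.1, ← two_mul, two, zero_mul]
    have := S.lamE (S.toE f (mul_mem k' k') (a _ f.z3) (a _ f.z4) (a _ f.z5))
    rwa [nv_mul, add_assoc, ← two_smul F, two, zero_smul, add_zero] at this
  have pr : ∀ s ∈ Mv U W L L, ψ (nv s y) = 0 → nv s (nv t' y) = 0 → ∀ v ∈ W, ψ v = 0 →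
      nv s v = 0 := fun s k a a' v m z => by
    have s3 : nv s f.w3 = 0 := by simpa [a, n1] using w3 s k
    rw [f.nd k (S.lamW k'.1), s3] at a'
    rw [f.nd k m, s3]
    rw [pψ] at n1 e' z
    have : f.x4 v * f.x5 (nv t' y) = f.x5 v * f.x4 (nv t' y) := by
      by_cases a : f.x3 (τ.val *ᵥ f.w4) = 0
      · have a5 : f.x3 (τ.val *ᵥ f.w5) ≠ 0 := fun a5 => n1 (by simp [a, a5])
        refine mul_left_cancel₀ a5 ?_
        linear_combination f.x4 v * e' - f.x4 (nv t' y) * z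
      · refine mul_left_cancel₀ a ?_
        linear_combination f.x5 (nv t' y) * z - f.x5 v * e'
    rcases not_and_or.1 n' with n' | n'
    · refine (smul_eq_zero_iff_right n').1 ?_
      linear_combination (norm := module) f.x4 v • a' - this • nv s f.w5
    · refine (smul_eq_zero_iff_right n').1 ?_
      linear_combination (norm := module) f.x5 v • a' + this • nv s f.w4
  refine ⟨⟨⟨_, b, n1⟩, fun g k v a => ?_⟩, fun t k a => pr t k a ?_, c', b1, fb, b0,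
    ⟨c.1, fun v a => by rw [mv_eq, d1 v a]⟩, ?_⟩
  · have := ce g k v a
    rw [fb g k] at this
    exact (smul_left_injective F b0 this).symm
  · rw [S.sym f k k']
    exact pr t' k' e' sq _ (S.lamW k.1) a
  · rintro ⟨v, -, ρ, m, η, η0, -, a, -, a'⟩
    obtain ⟨r, a'⟩ := a' t1 k1.1
    have a3 := congrArg f.x3 a'
    rw [mv_eq c', add_right_inj] at a
    rw [mv_eq t1 ρ, map_add, map_add, map_add, map_smul, map_smul, f.z3 _ (mv_L k1 m),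
      f.z3 b1 (neg_mem (mv_L k1 f.m3)), ← a, c3, ← nv_apply] at a3
    simp [η0, n1] at a3

end Su

end CF.UsL.L4
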