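import Cfsg.Agent.Us.PA

/-! The unitary Singer cycle by the polynomial method: integer weights. -/

set_option autoImplicit false

namespace CF.UsP

open MvPolynomial CF.Sing.PA Finsupp

variable {K : Type*} [Field K] {p e n d : ℕ} [NeZero (2 * e * n)] {r : Ix e n}

omit [NeZero (2 * e * n)] in
theorem bar_bar (u : Ix e n) : bar (bar u) = u := by
  rw [bar, bar, add_assoc, ← Nat.cast_add, ← two_mul, ← mul_assoc, ZMod.natCast_self, add_zero]

omit [NeZero (2 * e * n)] in
theorem bar_add (u w : Ix e n) : bar (u + w) = bar u + w := add_right_comm _ _ _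

omit [NeZero (2 * e * n)] in
theorem bt_bar (A : Ix e n →₀ ℕ) (u : Ix e n) : bt A (bar u) = - bt A u := by
  rw [bt, bt, bar_bar, neg_sub]

omit [NeZero (2 * e * n)] in
theorem P1.lv_add (a b : Ix e n) : lv (a + b) = lv a + lv b := map_add (lev (2 * e) n) a b

omit [NeZero (2 * e * n)] in
theorem P1.lv_sub (a b : Ix e n) : lv (a - b) = lv a - lv b := map_sub (lev (2 * e) n) a b

omit [NeZero (2 * e * n)] in
theorem P1.lv_one : lv (1 : Ix e n) = 1 := map_one (lev (2 * e) n)

omit [NeZero (2 * e * n)] in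
theorem P1.lv_nat (k : ℕ) : lv (k : Ix e n) = k := map_natCast (lev (2 * e) n) k

omit [NeZero (2 * e * n)] in
theorem Par.lv_bar (h : Par p e n d) (u : Ix e n) : lv (bar u) = lv u + (e : ℕ) := by
  obtain ⟨k, hk⟩ : ∃ k, e * n = e + 2 * e * k := by
    rcases h.hn with rfl | rfl
    exacts [⟨3, by ring⟩, ⟨5, by ring⟩]
  rw [bar, P1.lv_add, P1.lv_nat, hk, Nat.cast_add, Nat.cast_mul (2 * e), ZMod.natCast_self, zero_mul, add_zero]

omit [NeZero (2 * e * n)] in
theorem P1.cast_ne {e k : ℕ} (h0 : 0 < k) (h : k < 2 * e) : (k : ZMod (2 * e)) ≠ 0 := fun c =>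
  absurd (Nat.le_of_dvd h0 ((ZMod.natCast_eq_zero_iff _ _).1 c)) (by omega)

omit [NeZero (2 * e * n)] in
theorem Par.lv_bar_ne (h : Par p e n d) (u : Ix e n) : lv (bar u) ≠ lv u := by
  have := h.e0
  rw [h.lv_bar, Ne, add_eq_left]
  exact P1.cast_ne (by omega) (by omega)

omit [NeZero (2 * e * n)] in
theorem Par.lv_succ_ne (h : Par p e n d) (u : Ix e n) : lv (u + 1) ≠ lv u := by
  have := h.e0
  rw [P1.lv_add, P1.lv_one, Ne, add_eq_left, ← Nat.cast_one]
  exact P1.cast_ne (by omega) (by omega)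

omit [NeZero (2 * e * n)] in
/-- `lv u + 1 = lv (bar u)` only for `e = 1` -/
theorem Par.lv_succ_bar (h : Par p e n d) (u : Ix e n) : lv (u + 1) = lv (bar u) ↔ e = 1 := by
  have := h.e0
  rw [P1.lv_add, P1.lv_one, h.lv_bar, add_right_inj]
  refine ⟨fun c => by_contra fun k => P1.cast_ne (e := e) (k := e - 1) (by omega) (by omega) ?_,
    fun c => by simp [c]⟩
  rw [Nat.cast_sub (by omega), ← c, Nat.cast_one, sub_self]

theorem P1.exists_i {r : Ix e n} (hl : lv r = 0) : ∃ i : ℕ, r = ((2 * e * i : ℕ) : Ix e n) := by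
  rw [lv, lev, ZMod.castHom_apply, ← ZMod.natCast_val, ZMod.natCast_eq_zero_iff] at hl
  obtain ⟨i, hi⟩ := hl
  exact ⟨i, by rw [← hi, ZMod.natCast_zmod_val]⟩

omit [NeZero (2 * e * n)] in
theorem Par.pr (h : Par p e n d) : n.Prime := by rcases h.hn with rfl | rfl <;> norm_num

theorem Par.smul_eq_zero (h : Par p e n d) (h0 : r ≠ 0) (hl : lv r = 0) {k : ℕ} : k • r = 0 ↔ n ∣ k := by
  obtain ⟨i, rfl⟩ := P1.exists_i hl
  have e0 : 0 < 2 * e := by have := h.e0; omega
  rw [Ne, ZMod.natCast_eq_zero_iff, Nat.mul_dvd_mul_iff_left e0] at h0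
  rw [nsmul_eq_mul, ← Nat.cast_mul, ZMod.natCast_eq_zero_iff, mul_left_comm, Nat.mul_dvd_mul_iff_left e0,
    h.pr.dvd_mul, or_iff_left h0]

theorem Par.exists_k (h : Par p e n d) (h0 : r ≠ 0) (hl : lv r = 0) {a b : Ix e n} (hab : lv a = lv b) :
    ∃ k : ℕ, b = a + k • r := by
  obtain ⟨i, rfl⟩ := P1.exists_i hl
  obtain ⟨l, hl⟩ := P1.exists_i (r := b - a) (by rw [P1.lv_sub, hab, sub_self])
  have e0 : 0 < 2 * e := by have := h.e0; omega
  rw [Ne, ZMod.natCast_eq_zero_iff, Nat.mul_dvd_mul_iff_left e0] at h0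
  obtain ⟨k, hk⟩ := Nat.exists_mul_mod_eq_of_coprime l ((h.pr.coprime_iff_not_dvd).2 h0).symm h.pr.ne_zero
  refine ⟨k, ?_⟩
  rw [← sub_eq_iff_eq_add', hl, nsmul_eq_mul, ← Nat.cast_mul, ZMod.natCast_eq_natCast_iff, mul_left_comm,
    mul_comm k]
  exact Nat.ModEq.mul_left' _ hk.2.symm

theorem Jr.uniq (hp : 2 ≤ p) {β j j' : Ix e n → ℤ} (h : Jr p d β j) (h' : Jr p d β j') : j = j' := by
  obtain ⟨u, hu⟩ := Finite.exists_max fun u => |j u - j' u|
  have a := h (u - 1)
  have b := h' (u - 1)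
  rw [sub_add_cancel] at a b
  have c := hu (u - 1)
  rw [a, b, show (p : ℤ) * j u + d * β (u - 1) - (p * j' u + d * β (u - 1)) = p * (j u - j' u) by ring,
    abs_mul, Nat.abs_cast] at c
  have : (2 : ℤ) ≤ p := by exact_mod_cast hp
  funext w
  have := hu w
  have := abs_nonneg (j w - j' w)
  exact sub_eq_zero.1 (abs_eq_zero.1 (by nlinarith))

theorem Jr.anti (hp : 2 ≤ p) {β j : Ix e n → ℤ} (h : Jr p d β j) (a : ∀ u, β (bar u) = - β u) (u : Ix e n) :
    j (bar u) = - j u := by
  have := congrFun (h.uniq hp (j' := fun u => - j (bar u)) fun u => by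
    beta_reduce; rw [h (bar u), a, bar_add]; ring) u
  omega

theorem Jr.lt (hp : 2 ≤ p) (hd : 0 < d) {β j : Ix e n → ℤ} (h : Jr p d β j) (a : ∀ u, β (bar u) = - β u)
    (b : ∀ u, |β u| < p) (u : Ix e n) : |j u| < d := by
  have p2 : (2 : ℤ) ≤ p := by exact_mod_cast hp
  have d0 : (0 : ℤ) < d := by exact_mod_cast hd
  obtain ⟨w, hw⟩ := Finite.exists_max fun u => |j u|
  have k : ∀ u, (p : ℤ) * |j (u + 1)| ≤ |j u| + d * (p - 1) := fun u => by
    have c : (p : ℤ) * j (u + 1) = j u - d * β u := by rw [h u]; ring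
    have := abs_sub (j u) (d * β u)
    rw [← c, abs_mul, abs_mul, Nat.abs_cast, Nat.abs_cast] at this
    have := b u
    nlinarith
  have m : ∀ u, |j u| ≤ d := fun u => by
    have c := k (w - 1)
    rw [sub_add_cancel] at c
    have := hw (w - 1)
    have := hw u
    nlinarith
  refine lt_of_le_of_ne (m u) fun c => ?_
  have s : ∀ w, j (w + 1) = j u → j w = j u := fun w hw => by
    have h1 := h w
    have h2 := abs_le.1 (m w)
    have h3 := abs_lt.1 (b w)
    rw [hw] at h1
    rcases (abs_eq d0.le).1 c with c | c <;> rw [c] at h1 ⊢ <;> nlinarith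
  have t : ∀ i : ℕ, j (u - i) = j u := fun i => by
    induction i with
    | zero => simp
    | succ i ih => exact s _ (by rw [← ih]; congr 1; push_cast; ring)
  have := t (e * n)
  rw [show u - ((e * n : ℕ) : Ix e n) = bar u by rw [sub_eq_iff_eq_add]; exact (bar_bar u).symm,
    h.anti hp a] at this
  rw [show j u = 0 by omega] at c
  simp at c; omega

omit [NeZero (2 * e * n)] in
theorem P1.iter {β j : Ix e n → ℤ} (h : Jr p d β j) (u : Ix e n) (k : ℕ) :
    (d : ℤ) ∣ j u - p ^ k * j (u + k) := by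
  induction k with
  | zero => simp
  | succ k ih =>
    rw [h (u + k), mul_add, ← sub_sub, ← mul_assoc, ← pow_succ, add_assoc, ← Nat.cast_succ] at ih
    exact (dvd_sub_left ((dvd_mul_right _ _).mul_left _)).1 ih

theorem Jr.cong (P : Par p e n d) {β j : Ix e n → ℤ} (h : Jr p d β j) {a b : Ix e n} (hab : lv a = lv b) :
    (d : ℤ) ∣ j a - j b := by
  rcases P.hd with rfl | ⟨rfl, c⟩
  · simp
  obtain ⟨l, hl⟩ := P1.exists_i (r := b - a) (by rw [P1.lv_sub, hab, sub_self])
  have h1 := P1.iter h a (2 * e * l)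
  rw [← hl, add_sub_cancel] at h1
  have h2 : (d : ℤ) ∣ (p : ℤ) ^ (2 * e * l) - 1 := by
    have k := sub_dvd_pow_sub_pow ((p : ℤ) ^ (2 * e)) 1 l
    rw [← pow_mul, one_pow] at k
    refine dvd_trans ?_ k
    rw [show (p : ℤ) ^ (2 * e) - 1 = (p ^ e + 1) * (p ^ e - 1) by ring]
    exact Dvd.dvd.mul_right (by exact_mod_cast c) _
  have := h1.add (h2.mul_right (j b))
  rwa [show j a - p ^ (2 * e * l) * j b + (p ^ (2 * e * l) - 1) * j b = j a - j b by ring] at this

theorem P1.core {α : Type*} [DecidableEq α] (S : Finset α) {J J' g : α → ℤ} {q n G : ℤ} (hq : 1 ≤ q)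
    (hn : 0 < n) (hS : (S.card : ℤ) = n) (h : ∀ u ∈ S, J u = n * g u - q * J' u)
    (s1 : ∑ u ∈ S, J' u = ∑ u ∈ S, J u) (s2 : ∑ u ∈ S, |J' u| = ∑ u ∈ S, |J u|) (g0 : ∑ u ∈ S, g u = 0)
    (g1 : ∑ u ∈ S, |g u| ≤ G) (c : ∀ a ∈ S, ∀ b ∈ S, n ∣ J a - J b) (num : n * G < (q - 1) * (2 * n - 2)) :
    ∀ u ∈ S, J u = 0 := by
  have z : ∑ u ∈ S, J u = 0 := by
    have := Finset.sum_congr rfl h
    rw [Finset.sum_sub_distrib, ← Finset.mul_sum, ← Finset.mul_sum, g0, s1] at this
    have k : (q + 1) * ∑ u ∈ S, J u = 0 := by linarith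
    exact (mul_eq_zero.1 k).resolve_left (by omega)
  have l : q * ∑ u ∈ S, |J u| ≤ n * G + ∑ u ∈ S, |J u| := by
    rw [← s2, Finset.mul_sum, s2]
    refine le_trans ?_ (add_le_add_left (mul_le_mul_of_nonneg_left g1 hn.le) _)
    rw [Finset.mul_sum, ← Finset.sum_add_distrib]
    refine Finset.sum_le_sum fun u hu => ?_
    have := abs_sub (n * g u) (J u)
    rwa [show n * g u - J u = q * J' u by linarith [h u hu], abs_mul, abs_mul, abs_of_pos hn,
      abs_of_pos (by omega : 0 < q)] at this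
  by_contra! k
  obtain ⟨u, hu, k⟩ := k
  obtain ⟨a, ha, a0⟩ : ∃ a ∈ S, 0 < J a := by
    by_contra! c
    exact k ((Finset.sum_eq_zero_iff_of_nonpos c).1 z u hu)
  obtain ⟨b, hb, b0⟩ : ∃ b ∈ S, J b < 0 := by
    by_contra! c
    exact k ((Finset.sum_eq_zero_iff_of_nonneg c).1 z u hu)
  have hb' : b ∈ S.erase a := Finset.mem_erase.2 ⟨fun c => by rw [c] at b0; omega, hb⟩
  have e1 := Finset.add_sum_erase S (fun u => |J u|) ha
  have e2 := Finset.add_sum_erase (S.erase a) (fun u => |J u|) hb'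
  have e3 := Int.le_of_dvd (by omega) (c a ha b hb)
  simp only [abs_of_pos a0, abs_of_neg b0] at e1 e2
  have m : 2 * n - 2 ≤ ∑ u ∈ S, |J u| := by
    by_cases k : ∃ w ∈ S, J w = 0
    · obtain ⟨w, hw, k⟩ := k
      have := Int.le_of_dvd (by omega) (c a ha w hw)
      have := Int.le_of_dvd (by omega) (c w hw b hb)
      have : 0 ≤ ∑ u ∈ (S.erase a).erase b, |J u| := Finset.sum_nonneg fun _ _ => abs_nonneg _
      omega
    · push Not at k
      have := Finset.card_nsmul_le_sum ((S.erase a).erase b) (fun u => |J u|) 1 fun w hw =>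
        Int.one_le_abs (k w (Finset.mem_of_mem_erase (Finset.mem_of_mem_erase hw)))
      have c1 := Finset.card_erase_add_one ha
      have c2 := Finset.card_erase_add_one hb'
      rw [nsmul_eq_mul, mul_one] at this
      omega
  nlinarith

theorem P1.shift (f : Ix e n → ℤ) (t : ZMod (2 * e)) (c : Ix e n) :
    ∑ u with lv u = t, f (u + c) = ∑ u with lv u = t + lv c, f u :=
  Finset.sum_equiv (Equiv.addRight c) (by simp [P1.lv_add]) (by simp)

theorem P1.half {δ : Ix e n → ℤ} (a : ∀ u, δ (bar u) = - δ u) (T : Finset (Ix e n))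
    (h : ∀ u ∈ T, bar u ∉ T) : 2 * ∑ u ∈ T, |δ u| ≤ ∑ u, |δ u| := by
  rw [← Finset.sum_add_sum_compl T, two_mul, add_le_add_iff_left]
  have i : Function.Injective (bar : Ix e n → Ix e n) := add_left_injective _
  calc ∑ u ∈ T, |δ u| = ∑ u ∈ T.image bar, |δ u| := by
        rw [Finset.sum_image i.injOn]; simp only [a, abs_neg]
    _ ≤ _ := Finset.sum_le_sum_of_subset_of_nonneg (fun u hu => by
        obtain ⟨w, hw, rfl⟩ := Finset.mem_image.1 hu
        exact Finset.mem_compl.2 (h w hw)) fun _ _ _ => abs_nonneg _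

omit [NeZero (2 * e * n)] in
theorem P1.iter0 {β j : Ix e n → ℤ} (h : Jr p d β j) (u : Ix e n) (k l : ℕ)
    (z : ∀ i : ℕ, k ≤ i → i < k + l → β (u + i) = 0) : j (u + k) = p ^ l * j (u + (k + l : ℕ)) := by
  induction l with
  | zero => simp
  | succ l ih =>
    rw [ih fun i a b => z i a (by omega), h, z _ (by omega) (by omega), add_assoc, ← Nat.cast_succ]
    simp only [Nat.succ_eq_add_one, add_assoc]; ring

omit [NeZero (2 * e * n)] in
theorem Par.num (P : Par p e n n) :
    p = 2 ∧ 3 ≤ e ∧ 16 ≤ p ^ e ∨ p = 3 ∧ 3 ≤ e ∧ 27 ≤ p ^ e ∨ 3 < p ∧ 9 ≤ p ^ e := by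
  have c : n ∣ p ^ e + 1 := by
    rcases P.hd with c | c
    · rcases P.hn with rfl | rfl <;> omega
    · exact c.2
  have e0 := P.e0
  have p2 := P.pp.two_le
  rcases (by omega : p = 2 ∨ p = 3 ∨ 3 < p) with rfl | rfl | h
  · have : 4 ≤ e := by
      by_contra! k
      interval_cases e <;> rcases P.hn with rfl | rfl <;> omega
    exact .inl ⟨rfl, by omega, Nat.pow_le_pow_right (n := 2) (by omega) this⟩
  · have : 3 ≤ e := by
      by_contra! k
      interval_cases e <;> rcases P.hn with rfl | rfl <;> omega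
    exact .inr (.inl ⟨rfl, this, Nat.pow_le_pow_right (n := 3) (by omega) this⟩)
  · have := Nat.odd_iff.1 ((P.pp.odd_of_ne_two (by omega)).pow (n := e))
    refine .inr (.inr ⟨h, ?_⟩)
    rcases P.hn with rfl | rfl <;> omega

omit [NeZero (2 * e * n)] in
theorem P1.lv_ne (P : Par p e n d) {u : Ix e n} {t : ZMod (2 * e)} (hu : lv u = t) {i k : ℕ} (h1 : k < i)
    (h2 : i < e + k) :
    lv (u + (i : Ix e n)) ≠ t + (k : ZMod (2 * e)) ∧ lv (bar (u + (i : Ix e n))) ≠ t + (k : ZMod (2 * e)) := by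
  rw [P.lv_bar, P1.lv_add, P1.lv_nat, hu, add_assoc, ← Nat.cast_add]
  constructor <;> intro c <;> rw [add_right_inj, ← sub_eq_zero, ← Nat.cast_sub (by omega)] at c <;>
    exact P1.cast_ne (by omega) (by omega) c

omit [NeZero (2 * e * n)] in
theorem P1.lv_tau (P : Par p e n d) : lv (bar (e : ℕ) : Ix e n) = 0 := by
  rw [P.lv_bar, P1.lv_nat, ← Nat.cast_add, ← two_mul, ZMod.natCast_self]

/-- separation, `d = n` -/
theorem Jr.sep (P : Par p e n n) {δ j : Ix e n → ℤ} (h : Jr p n δ j) (a : ∀ u, δ (bar u) = - δ u)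
    (t : ZMod (2 * e))
    (s : ∀ u, δ u ≠ 0 → lv u = t ∨ lv (bar u) = t ∨ p ≤ 3 ∧ (lv u = t + 1 ∨ lv (bar u) = t + 1))
    (z : ∀ t', ∑ u with lv u = t', δ u = 0) (b : ∑ u, |δ u| ≤ 24) {u : Ix e n} (hu : lv u = t) : j u = 0 := by
  have e0 := P.e0
  have n7 : (7 : ℤ) ≤ n := by rcases P.hn with rfl | rfl <;> norm_num
  have an : ∀ u : Ix e n, j (u + (e : ℕ)) = - j (u + bar (e : ℕ)) := fun u => by
    rw [← h.anti P.pp.two_le a, add_comm u (bar _), ← bar_add, bar_bar, add_comm]
  have k : ∀ (g : Ix e n → ℤ) (G : ℤ), (∀ u, lv u = t → j u = n * g u + p ^ e * j (u + (e : ℕ))) →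
      ∑ u with lv u = t, g u = 0 → ∑ u with lv u = t, |g u| ≤ G →
      n * G < (((p ^ e : ℕ) : ℤ) - 1) * (2 * n - 2) → j u = 0 := fun g G k1 k2 k3 k4 =>
    P1.core (Finset.univ.filter fun u => lv u = t) (J := j) (J' := fun u => j (u + bar (e : ℕ)))
      (by exact_mod_cast Nat.one_le_pow _ _ P.pp.pos) (by omega) (by exact_mod_cast card_fib t)
      (fun u hu => by rw [k1 u (by simpa using hu), an]; push_cast; ring)
      (by rw [P1.shift, P1.lv_tau P, add_zero]) (by rw [P1.shift (fun u => |j u|), P1.lv_tau P, add_zero]) k2 k3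
      (fun x hx y hy => h.cong P (by simp only [Finset.mem_filter] at hx hy; rw [hx.2, hy.2])) k4 u
      (by simpa using hu)
  by_cases p3 : p ≤ 3
  · have e3 : 3 ≤ e := by have := P.num; omega
    have t1 : t ≠ t + 1 := hu ▸ P1.lv_one (e := e) (n := n) ▸ P1.lv_add u 1 ▸ (P.lv_succ_ne u).symm
    refine k (fun u => δ u + p * δ (u + 1)) (12 * p) (fun u hu => ?_) ?_ ?_ ?_
    · have := P1.iter0 h u 2 (e - 2) fun i i1 i2 => by_contra fun c => by
        have h0 := P1.lv_ne P hu (i := i) (k := 0) (by omega) (by omega)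
        have h1 := P1.lv_ne P hu (i := i) (k := 1) (by omega) (by omega)
        have := s _ c
        simp only [Nat.cast_zero, add_zero, Nat.cast_one] at h0 h1
        tauto
      obtain ⟨f, rfl⟩ := Nat.exists_eq_add_of_le (show 2 ≤ e by omega)
      rw [Nat.add_sub_cancel_left] at this
      rw [Nat.cast_ofNat] at this
      rw [h u, h (u + 1), add_assoc, one_add_one_eq_two, this]; ring
    · rw [Finset.sum_add_distrib, ← Finset.mul_sum, P1.shift, z, z]; simp
    · have d1 : Disjoint (Finset.univ.filter fun u : Ix e n => lv u = t) (Finset.univ.filter fun u => lv u = t + 1) :=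
        Finset.disjoint_filter.2 fun x _ c1 c2 => t1 (c1.symm.trans c2)
      have := P1.half a (_ ∪ _ : Finset (Ix e n)) (fun u => by
        show u ∈ (Finset.univ.filter fun u : Ix e n => lv u = t) ∪ (Finset.univ.filter fun u => lv u = t + 1) → _
        simp only [Finset.mem_union, Finset.mem_filter, Finset.mem_univ, true_and, P.lv_bar]
        have c1 := P1.cast_ne (e := e) (k := e) (by omega) (by omega)
        have c2 := P1.cast_ne (e := e) (k := e - 1) (by omega) (by omega)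
        have c3 := P1.cast_ne (e := e) (k := e + 1) (by omega) (by omega)
        rw [Nat.cast_sub (by omega), Nat.cast_one] at c2
        rw [Nat.cast_add, Nat.cast_one] at c3
        rintro (c | c) (c' | c') <;> rw [c] at c'
        exacts [c1 (by linear_combination c'), c2 (by linear_combination c'), c3 (by linear_combination c'),
          c1 (by linear_combination c')])
      rw [Finset.sum_union d1] at this
      have s1 := P1.shift (n := n) (fun u => |δ u|) t 1
      rw [P1.lv_one] at s1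
      have p1 : (1 : ℤ) ≤ p := by exact_mod_cast P.pp.pos
      have x0 : 0 ≤ ∑ u with lv u = t, |δ u| := Finset.sum_nonneg fun _ _ => abs_nonneg _
      calc _ ≤ ∑ u with lv u = t, (|δ u| + p * |δ (u + 1)|) := Finset.sum_le_sum fun u _ => by
            simpa [abs_mul] using abs_add_le (δ u) (p * δ (u + 1))
        _ ≤ _ := by rw [Finset.sum_add_distrib, ← Finset.mul_sum, s1]; nlinarith
    · rcases P.num with ⟨c, -, c'⟩ | ⟨c, -, c'⟩ | c
      · have : (16 : ℤ) ≤ (p ^ e : ℕ) := by exact_mod_cast c'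
        rw [show (p : ℤ) = 2 by exact_mod_cast c]; nlinarith
      · have : (27 : ℤ) ≤ (p ^ e : ℕ) := by exact_mod_cast c'
        rw [show (p : ℤ) = 3 by exact_mod_cast c]; nlinarith
      · omega
  · refine k δ 12 (fun u hu => ?_) (z t) ?_ ?_
    · have := P1.iter0 h u 1 (e - 1) fun i i1 i2 => by_contra fun c => by
        have h0 := P1.lv_ne P hu (i := i) (k := 0) (by omega) (by omega)
        have := s _ c
        simp only [Nat.cast_zero, add_zero] at h0
        tauto
      obtain ⟨f, rfl⟩ := Nat.exists_eq_add_of_le (show 1 ≤ e by omega)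
      rw [Nat.add_sub_cancel_left, Nat.cast_one] at this
      rw [h u, this]; ring
    · have := P1.half a (Finset.univ.filter fun u => lv u = t) fun u => by
        simp only [Finset.mem_filter, Finset.mem_univ, true_and]
        exact fun c => c ▸ P.lv_bar_ne u
      omega
    · have : (9 : ℤ) ≤ (p ^ e : ℕ) := by have := P.num; exact_mod_cast (by omega : 9 ≤ p ^ e)
      nlinarith

omit [NeZero (2 * e * n)] in
theorem P1.rt_bar (a b u : Ix e n) : rt a b (bar u) = - rt a b u := by rw [rt, rt, bar_bar, neg_sub]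

theorem P1.rt_sum (P : Par p e n d) {a b : Ix e n} (h : lv b = lv a) (t : ZMod (2 * e)) :
    ∑ u with lv u = t, rt a b u = 0 := by
  have k : ∀ u w : Ix e n, bar u = w ↔ u = bar w := fun u w =>
    ⟨fun c => by rw [← c, bar_bar], fun c => by rw [c, bar_bar]⟩
  simp [rt, k, Finset.sum_sub_distrib, P.lv_bar, h]

theorem P1.rt_abs (a b : Ix e n) : ∑ u, |rt a b u| ≤ 4 := by
  have k : ∀ u w : Ix e n, bar u = w ↔ u = bar w := fun u w =>
    ⟨fun c => by rw [← c, bar_bar], fun c => by rw [c, bar_bar]⟩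
  calc _ ≤ ∑ u : Ix e n, (((if u = b then 1 else 0) + if u = a then 1 else 0) +
        ((if u = bar b then 1 else 0) + if u = bar a then (1 : ℤ) else 0)) :=
        Finset.sum_le_sum fun u _ => by simp only [rt, k]; split_ifs <;> norm_num
    _ = 4 := by simp [Finset.sum_add_distrib]

theorem Jr.sep0 (P : Par p e n n) {a b a' b' : Ix e n} {j : Ix e n → ℤ} (h : Jr p n (rt a b - rt a' b') j)
    (h1 : lv b = lv a) (h2 : lv a' = lv a) (h3 : lv b' = lv a) (hab : a ≠ b) : a = a' ∧ b = b' := by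
  have e0 := P.e0
  have an : ∀ u, (rt a b - rt a' b') (bar u) = - (rt a b - rt a' b') u := fun u => by
    simp only [Pi.sub_apply, P1.rt_bar]; ring
  have s : ∀ u, (rt a b - rt a' b') u ≠ 0 → lv u = lv a ∨ lv (bar u) = lv a := fun u c => by
    by_contra! k
    have k1 : ∀ w, lv w = lv a → u ≠ w ∧ bar u ≠ w := fun w hw =>
      ⟨fun c => k.1 (c ▸ hw), fun c => k.2 (c ▸ hw)⟩
    simp [rt, k1 a rfl, k1 b h1, k1 a' h2, k1 b' h3] at c
  have j0 : ∀ u, lv u = lv a → j u = 0 := fun u hu =>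
    h.sep P an (lv a) (fun u c => (s u c).imp_right .inl) (fun t => by
      simp only [Pi.sub_apply, Finset.sum_sub_distrib, P1.rt_sum P h1, P1.rt_sum P (h3.trans h2.symm), sub_self])
      (by
        have := Finset.sum_le_sum (s := Finset.univ) fun u _ => abs_sub (rt a b u) (rt a' b' u)
        rw [Finset.sum_add_distrib] at this
        have := P1.rt_abs a b
        have := P1.rt_abs a' b'
        simp only [Pi.sub_apply]; omega) hu
  have k : ∀ u, lv u = lv a → ((if u = b then 1 else 0) - if u = a then 1 else 0) =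
      (if u = b' then 1 else 0) - if u = a' then (1 : ℤ) else 0 := fun u hu => by
    have := P1.iter0 h u 1 (e - 1) fun i i1 i2 => by_contra fun c => by
      have h0 := P1.lv_ne P hu (i := i) (k := 0) (by omega) (by omega)
      have := s _ c
      simp only [Nat.cast_zero, add_zero] at h0
      tauto
    have c := h.anti P.pp.two_le an (u + (e : ℕ))
    rw [j0 _ (by rw [add_comm, bar_add, P1.lv_add, P1.lv_tau P, zero_add, hu])] at c
    rw [show 1 + (e - 1) = e by omega, show j (u + (e : ℕ)) = 0 by omega, mul_zero, Nat.cast_one] at this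
    have c := h u
    rw [this, j0 u hu, mul_zero, zero_add, eq_comm, mul_eq_zero, Nat.cast_eq_zero, or_iff_right P.pr.ne_zero] at c
    have k1 : ∀ w, lv w = lv a → bar u ≠ w := fun w hw c => P.lv_bar_ne u (by rw [c, hw, hu])
    simpa [rt, k1 a rfl, k1 b h1, k1 a' h2, k1 b' h3, sub_eq_zero] using c
  have k1 := k a rfl
  have k2 := k b h1
  rw [if_neg hab, if_pos rfl] at k1
  rw [if_neg hab.symm, if_pos rfl] at k2
  constructor <;> by_contra c
  · rw [if_neg c] at k1; split_ifs at k1 <;> omega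
  · rw [if_neg c] at k2; split_ifs at k2 <;> omega

theorem P1.prod_zmod {N : ℕ} [NeZero N] {M : Type*} [CommMonoid M] (F : ZMod N → M) :
    ∏ w, F w = ∏ i ∈ Finset.range N, F i :=
  (Finset.prod_nbij' (s := Finset.range N) (t := Finset.univ) (fun i : ℕ => (i : ZMod N)) ZMod.val (by simp) (by simp [ZMod.val_lt])
    (fun i hi => ZMod.val_cast_of_lt (by simpa using hi)) (by simp) (by simp)).symm

theorem exists_j [Fintype K] [Fact p.Prime] [CharP K p] (hK : Fintype.card K = p ^ (2 * e * n)) {m : ℕ}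
    (hm : m * d = p ^ (e * n) + 1) (A : Ix e n →₀ ℕ) (h : ∀ t : K, t ^ m = 1 → ∏ u, fr p u t ^ A u = 1) :
    ∃ j, Jr p d (bt A) j := by
  classical
  have hm' : (m : ℤ) * d = p ^ (e * n) + 1 := by exact_mod_cast hm
  have m0 : (m : ℤ) ≠ 0 := fun c => by rw [c, zero_mul] at hm'; exact absurd hm' (by positivity)
  set S : Ix e n → ℤ := fun u => ∑ i ∈ Finset.range (e * n), bt A (u + i) * p ^ i with hS
  have r : ∀ u, S u = p * S (u + 1) + m * d * bt A u := fun u => by
    have c := (Finset.sum_range_succ (fun i : ℕ => bt A (u + i) * p ^ i) (e * n)).symm.trans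
      (Finset.sum_range_succ' _ _)
    have c' : bt A (u + (e * n : ℕ)) = - bt A u := bt_bar A u
    rw [c'] at c
    simp only [hS, Finset.mul_sum, hm']
    rw [Finset.sum_congr rfl fun (i : ℕ) _ => show (p : ℤ) * (bt A (u + 1 + i) * p ^ i) =
      bt A (u + (i + 1 : ℕ)) * p ^ (i + 1) by rw [Nat.cast_succ, add_assoc, add_comm 1]; ring]
    simp only [Nat.cast_zero, add_zero, pow_zero] at c
    linarith
  obtain ⟨g, hg⟩ := IsCyclic.exists_ofOrder_eq_natCard (α := Kˣ)
  have dv : m ∣ orderOf g := by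
    rw [hg, Nat.card_units, Nat.card_eq_fintype_card, hK, mul_assoc, mul_comm 2, pow_mul, ← one_pow 2,
      Nat.sq_sub_sq, ← hm, mul_assoc]
    exact dvd_mul_right _ _
  have o := orderOf_pow_orderOf_div (orderOf_pos g).ne' dv
  rw [← orderOf_units] at o
  have k := h _ (o ▸ pow_orderOf_eq_one _)
  rw [P1.prod_zmod] at k
  simp only [fr_natCast hK, ← pow_mul] at k
  rw [Finset.prod_pow_eq_pow_sum, ← orderOf_dvd_iff_pow_eq_one, o, ← Int.natCast_dvd_natCast] at k
  have s0 : (m : ℤ) ∣ S 0 := by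
    rw [show Finset.range (2 * e * n) = Finset.range (e * n + e * n) by congr 1; ring, Finset.sum_range_add,
      ← Finset.sum_add_distrib] at k
    have := k.sub (dvd_mul_right (m : ℤ)
      (d * ∑ i ∈ Finset.range (e * n), (A (bar (i : Ix e n)) : ℤ) * p ^ i))
    rw [← mul_assoc, hm', Finset.mul_sum, Nat.cast_sum, ← Finset.sum_sub_distrib] at this
    refine (show S 0 = _ from Finset.sum_congr rfl fun i _ => ?_) ▸ this
    rw [zero_add, bt, bar, Nat.cast_add, Nat.cast_mul (p ^ (e * n + i)), Nat.cast_add (e * n), add_comm (i : Ix e n)]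
    push_cast; ring
  have s1 : ∀ i : ℕ, (m : ℤ) ∣ S (-i) := fun i => by
    induction i with
    | zero => simpa using s0
    | succ i ih =>
      rw [r, show -((i + 1 : ℕ) : Ix e n) + 1 = -i by push_cast; ring]
      exact (ih.mul_left _).add ((dvd_mul_right _ _).mul_right _)
  have s2 : ∀ u, (m : ℤ) ∣ S u := fun u => by simpa using s1 (-u).val
  choose j hj using s2
  exact ⟨j, fun u => mul_left_cancel₀ m0 (by rw [← hj, r, hj]; ring)⟩

end CF.UsP
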