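import Cfsg.Agent.Us.PA

/-! The unitary Singer cycle by the polynomial method: the first order operators. -/

set_option autoImplicit false
set_option linter.unusedSectionVars false

namespace CF.UsP

open MvPolynomial CF.Sing.PA Finsupp

variable {K : Type*} [Field K] {p e n d : ℕ} [NeZero (2 * e * n)]
  {M M' : Matrix (Ix e n) (Ix e n) K} {r : Ix e n} {μ Λ : Pl K e n →ₗ[K] K}

namespace P2

theorem bb (u : Ix e n) : bar (bar u) = u := by
  have : ((2 * e * n : ℕ) : Ix e n) = 0 := ZMod.natCast_self _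
  rw [bar, bar, add_assoc, ← Nat.cast_add, show e * n + e * n = 2 * e * n by ring, this, add_zero]

theorem binj {u w : Ix e n} : bar u = bar w ↔ u = w := add_left_inj _

theorem bswap {u w : Ix e n} : bar u = w ↔ u = bar w :=
  ⟨fun h => by rw [← h, bb], fun h => by rw [h, bb]⟩

theorem lvb (u : Ix e n) : lv (bar u) = lv u + (e * n : ℕ) := by
  rw [bar, lv, map_add, map_natCast]

theorem lvb_inj {u w : Ix e n} : lv (bar u) = lv (bar w) ↔ lv u = lv w := by
  rw [lvb, lvb, add_left_inj]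

theorem lvb_ne (h : Par p e n d) (u : Ix e n) : lv (bar u) ≠ lv u := by
  rw [lvb, Ne, add_eq_left, ZMod.natCast_eq_zero_iff, mul_comm 2 e,
    Nat.mul_dvd_mul_iff_left (Nat.pos_of_ne_zero h.e0)]
  rcases h.hn with rfl | rfl <;> decide

theorem exk (h : Par p e n d) (h0 : r ≠ 0) (hl : lv r = 0) {a b : Ix e n} (hab : lv a = lv b) :
    ∃ k : ℕ, b = a + k • r := by
  let N : AddSubgroup (Ix e n) := (lev (2 * e) n).toAddMonoidHom.ker
  have hc : Nat.card N = n := by
    refine Eq.trans ?_ (card_fib (e := 2 * e) (n := n) 0)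
    rw [← Fintype.card_subtype, Nat.card_eq_fintype_card.symm]
    rfl
  have hp : n.Prime := by rcases h.hn with rfl | rfl <;> norm_num
  have hle : AddSubgroup.zmultiples r ≤ N := AddSubgroup.zmultiples_le_of_mem hl
  have he : AddSubgroup.zmultiples r = N := by
    refine AddSubgroup.eq_of_le_of_card_ge hle ?_
    have h1 := AddSubgroup.card_dvd_of_le hle
    rw [hc] at h1 ⊢
    rcases (Nat.dvd_prime hp).1 h1 with h2 | h2
    · exact absurd (AddSubgroup.zmultiples_eq_bot.1 (AddSubgroup.card_eq_one.1 h2)) h0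
    · exact h2.ge
  have : b - a ∈ N := by
    change lv (b - a) = 0
    rw [lv, map_sub]
    exact sub_eq_zero.2 hab.symm
  rw [← he, ← mem_multiples_iff_mem_zmultiples] at this
  obtain ⟨k, hk⟩ := this
  exact ⟨k, by rw [show k • r = b - a from hk]; abel⟩

theorem xd (a b : Ix e n) (A : Ix e n →₀ ℕ) : X b * pderiv a (mn A : Pl K e n) =
    (A a : K) • mn (A - single a 1 + single b 1) := by
  rw [pderiv_monomial, X, monomial_mul, smul_monomial, add_comm, one_mul, one_mul, smul_eq_mul, mul_one]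

theorem ext0 {f : Pl K e n →ₗ[K] K} (h : ∀ A, f (mn A) = 0) (Q : Pl K e n) : f Q = 0 := by
  induction Q using MvPolynomial.induction_on' with
  | monomial A c => rw [← mul_one c, ← smul_eq_mul, ← smul_monomial, map_smul, h, smul_zero]
  | add P Q h1 h2 => rw [map_add, h1, h2, add_zero]

theorem mv_apply {A : Ix e n →₀ ℕ} {a : Ix e n} (h : A a ≠ 0) (b u : Ix e n) :
    (((A - single a 1 + single b 1 : Ix e n →₀ ℕ) u : ℕ) : ℤ) =
      A u - (if u = a then 1 else 0) + if u = b then 1 else 0 := by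
  simp only [Finsupp.add_apply, Finsupp.tsub_apply, single_apply, @eq_comm _ _ u]
  split_ifs with h1 h2 h2 <;> subst_vars <;> omega

theorem mv_eq {A : Ix e n →₀ ℕ} {a : Ix e n} (h : A a ≠ 0) : A - single a 1 + single a 1 = A :=
  tsub_add_cancel_of_le (single_le_iff.2 (Nat.pos_of_ne_zero h))

theorem mv_weight {N : Type*} [AddCommMonoid N] (w : Ix e n → N) {A : Ix e n →₀ ℕ} {a b : Ix e n}
    (h : A a ≠ 0) (hw : w a = w b) : weight w (A - single a 1 + single b 1) = weight w A := by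
  conv_rhs => rw [← mv_eq h]
  rw [map_add, map_add, weight_single, weight_single, hw]

theorem mv_degree {A : Ix e n →₀ ℕ} {a : Ix e n} (h : A a ≠ 0) (b : Ix e n) :
    (A - single a 1 + single b 1).degree = A.degree := by
  conv_rhs => rw [← mv_eq h]
  rw [map_add, map_add, degree_single, degree_single]

theorem sb_X (M : Matrix (Ix e n) (Ix e n) K) (u : Ix e n) : sb M (X u) = ∑ w, C (M u w) * X w :=
  aeval_X _ _

theorem sb_mul (M N : Matrix (Ix e n) (Ix e n) K) (Q : Pl K e n) : sb M (sb N Q) = sb (N * M) Q := by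
  have : (sb M).comp (sb N) = sb (N * M) := by
    refine MvPolynomial.algHom_ext fun u => ?_
    simp only [AlgHom.comp_apply, sb_X, map_sum, map_mul, Matrix.mul_apply, Finset.mul_sum,
      Finset.sum_mul, algHom_C, algebraMap_eq, mul_assoc]
    exact Finset.sum_comm
  exact DFunLike.congr_fun this Q

theorem sb_one (Q : Pl K e n) : sb 1 Q = Q := by
  have : sb (1 : Matrix (Ix e n) (Ix e n) K) = AlgHom.id K _ := by
    refine MvPolynomial.algHom_ext fun u => ?_
    rw [sb_X, Finset.sum_eq_single u] <;> simp +contextual [eq_comm]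
  rw [this]; rfl

/-- the chain rule -/
theorem chain (M : Matrix (Ix e n) (Ix e n) K) (w : Ix e n) (Q : Pl K e n) :
    pderiv w (sb M Q) = ∑ a, C (M a w) * sb M (pderiv a Q) := by
  induction Q using MvPolynomial.induction_on with
  | C c => simp [algHom_C]
  | add P Q h1 h2 => simp only [map_add, h1, h2, mul_add, Finset.sum_add_distrib]
  | mul_X P u h =>
    have h1 : pderiv w (sb M (X u)) = C (M u w) := by
      rw [sb_X, map_sum, Finset.sum_eq_single w] <;> simp +contextual
    have h2 : ∑ a, C (M a w) * (sb M P * sb M (pderiv a (X u : Pl K e n))) = sb M P * C (M u w) := by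
      rw [Finset.sum_eq_single u] <;> simp +contextual [mul_comm, eq_comm]
    simp only [map_mul, pderiv_mul, h, h1, map_add, mul_add, Finset.sum_add_distrib, h2,
      Finset.sum_mul, mul_assoc]

theorem sb_wh (h : ∀ u w, M u w ≠ 0 → lv u = lv w) (A : Ix e n →₀ ℕ) :
    IsWeightedHomogeneous (wt (2 * e) n) (sb M (mn A)) (weight (wt (2 * e) n) A) := by
  rw [sb, aeval_monomial, map_one, one_mul, Finsupp.prod_fintype _ _ (by simp), weight_eq_sum]
  refine IsWeightedHomogeneous.prod _ _ _ fun u _ => IsWeightedHomogeneous.pow ?_ _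
  refine IsWeightedHomogeneous.sum _ _ _ fun w _ => ?_
  by_cases h0 : M u w = 0
  · rw [h0, map_zero, zero_mul]; exact isWeightedHomogeneous_zero _ _ _
  · rw [wt, show lev (2 * e) n u = lev (2 * e) n w from h u w h0]
    exact (isWeightedHomogeneous_X K _ w).C_mul _

open Classical in
theorem pj_wh (D : ZMod (2 * e) → ℕ) {E : ZMod (2 * e) → ℕ} {Q : Pl K e n}
    (h : IsWeightedHomogeneous (wt (2 * e) n) Q E) : pj μ D Q = if E = D then μ Q else 0 := by
  rw [pj, LinearMap.comp_apply]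
  split_ifs with h1
  · rw [← h1, h.weightedHomogeneousComponent_same]
  · rw [h.weightedHomogeneousComponent_ne D (Ne.symm h1), map_zero]

theorem xd_wh {a b : Ix e n} (hab : lv a = lv b) (A : Ix e n →₀ ℕ) :
    IsWeightedHomogeneous (wt (2 * e) n) ((A a : K) • (mn (A - single a 1 + single b 1) : Pl K e n))
      (weight (wt (2 * e) n) A) := by
  by_cases h : A a = 0
  · rw [h, Nat.cast_zero, zero_smul]; exact isWeightedHomogeneous_zero _ _ _
  · rw [smul_monomial]
    exact isWeightedHomogeneous_monomial _ _ _ (mv_weight _ h (by rw [wt, wt]; exact congrArg (Pi.single · 1) hab))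

/-- `ee` as a derivation -/
noncomputable def dd (a b : Ix e n) : Derivation K (Pl K e n) (Pl K e n) :=
  (X b : Pl K e n) • pderiv a - (X (bar a) : Pl K e n) • pderiv (bar b)

theorem dd_apply (a b : Ix e n) (Q : Pl K e n) : dd a b Q = ee a b Q := rfl

theorem ee_X (a b u : Ix e n) : ee a b (X u : Pl K e n) =
    (if u = a then X b else 0) - if u = bar b then X (bar a) else 0 := by
  rw [ee_apply, pderiv_X, pderiv_X, Pi.single_apply, Pi.single_apply]
  simp only [mul_ite, mul_one, mul_zero]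

theorem bracket (P : Par p e n d) {a b c : Ix e n} (h1 : lv a = lv b) (h2 : lv b = lv c) (h : a ≠ c)
    (Q : Pl K e n) : ee a c Q = ee b c (ee a b Q) - ee a b (ee b c Q) := by
  have ne : ∀ {x y : Ix e n}, lv x = lv y → bar x ≠ y := fun {x y} h3 h4 =>
    lvb_ne P x (by rw [h4, h3])
  have : (dd a c : Derivation K (Pl K e n) _) =
      ⁅(dd b c : Derivation K (Pl K e n) _), (dd a b : Derivation K (Pl K e n) _)⁆ := by
    refine derivation_ext fun u => ?_
    rw [Derivation.commutator_apply]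
    simp only [dd_apply, ee_X, map_sub, apply_ite (ee _ _), map_zero, binj, if_true,
      ne h1, (ne h2.symm).symm, ne h1.symm, (ne h2).symm, h, h.symm, if_false]
    split_ifs <;> simp
  exact DFunLike.congr_fun this Q

end P2

open P2

theorem ee_mn (a b : Ix e n) (A : Ix e n →₀ ℕ) : ee a b (mn A : Pl K e n) =
    (A a : K) • mn (A - single a 1 + single b 1) -
      (A (bar b) : K) • mn (A - single (bar b) 1 + single (bar a) 1) := by
  rw [ee_apply, xd, xd]

theorem P2.ee_uu (u : Ix e n) (A : Ix e n →₀ ℕ) : ee u u (mn A : Pl K e n) = (bt A u : K) • mn A := by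
  have : ∀ a, (A a : K) • (mn (A - single a 1 + single a 1) : Pl K e n) = (A a : K) • mn A := fun a => by
    by_cases h : A a = 0
    · rw [h, Nat.cast_zero, zero_smul, zero_smul]
    · rw [mv_eq h]
  rw [ee_mn, this, this, ← sub_smul, bt]
  push_cast
  rfl

theorem exists_of_ee {a b : Ix e n} {A : Ix e n →₀ ℕ} (h : μ (ee a b (mn A)) ≠ 0) :
    ∃ B, μ (mn B) ≠ 0 ∧ bt B = bt A + rt a b ∧ B.degree = A.degree := by
  rw [ee_mn, map_sub, map_smul, map_smul, smul_eq_mul, smul_eq_mul] at h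
  by_cases h1 : (A a : K) * μ (mn (A - single a 1 + single b 1)) = 0
  · rw [h1, zero_sub, neg_ne_zero, mul_ne_zero_iff] at h
    have h2 : A (bar b) ≠ 0 := fun h3 => h.1 (by rw [h3, Nat.cast_zero])
    refine ⟨_, h.2, funext fun u => ?_, mv_degree h2 _⟩
    simp only [bt, rt, mv_apply h2, Pi.add_apply, bswap]
    simp only [bb]
    ring
  · rw [← Ne, mul_ne_zero_iff] at h1
    have h2 : A a ≠ 0 := fun h3 => h1.1 (by rw [h3, Nat.cast_zero])
    refine ⟨_, h1.2, funext fun u => ?_, mv_degree h2 _⟩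
    simp only [bt, rt, mv_apply h2, Pi.add_apply]
    ring

theorem Fr.blk' (P : Par p e n d) (F : Fr M M' r) {u w : Ix e n} (h : M' u w ≠ 0) : lv u = lv w :=
  (fun _ => (lvb_inj.1 (F.blk _ _ (F.adj u w ▸ h))).symm) P

theorem Fr.sb_sb (F : Fr M M' r) (Q : Pl K e n) : sb M (sb M' Q) = Q := by
  rw [sb_mul, mul_eq_one_comm.1 F.inv, sb_one]

theorem Fr.sb_sb' (F : Fr M M' r) (Q : Pl K e n) : sb M' (sb M Q) = Q := by
  rw [sb_mul, F.inv, sb_one]

theorem Fr.Y_eq (F : Fr M M' r) (u : Ix e n) (Q : Pl K e n) :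
    sb M' (ee u u (sb M Q)) = ∑ a, ∑ b, (M a u * M' u b) • ee a b Q := by
  have h1 : ∀ v, sb M' (X v * pderiv v (sb M Q)) =
      ∑ a, ∑ b, (M a v * M' v b) • (X b * pderiv a Q) := fun v => by
    rw [map_mul, chain, map_sum, sb_X, Finset.mul_sum]
    refine Finset.sum_congr rfl fun a _ => ?_
    rw [map_mul, F.sb_sb', algHom_C, algebraMap_eq, Finset.sum_mul]
    refine Finset.sum_congr rfl fun b _ => ?_
    rw [smul_eq_C_mul, map_mul]; ring
  let β : Ix e n ≃ Ix e n := Equiv.addRight (e * n : ℕ)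
  rw [ee_apply, map_sub, h1, h1 (bar u), Finset.sum_comm (f := fun a b => (M a (bar u) * M' (bar u) b) • _),
    ← β.sum_comp (fun a => ∑ b, (M b (bar u) * M' (bar u) a) • _), ← Finset.sum_sub_distrib]
  refine Finset.sum_congr rfl fun a _ => ?_
  rw [← β.sum_comp (fun b => (M b (bar u) * M' (bar u) (β a)) • _), ← Finset.sum_sub_distrib]
  refine Finset.sum_congr rfl fun b _ => ?_
  rw [ee_apply, smul_sub]
  change _ - (M (bar b) (bar u) * M' (bar u) (bar a)) • (X (bar a) * pderiv (bar b) Q) = _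
  rw [F.adj (bar u), bb, bb, ← F.adj, mul_comm (M' u b)]

open Classical in
theorem pj_mn (D : ZMod (2 * e) → ℕ) (A : Ix e n →₀ ℕ) :
    pj μ D (mn A) = if weight (wt (2 * e) n) A = D then μ (mn A) else 0 :=
  pj_wh D (isWeightedHomogeneous_monomial _ _ _ rfl)

theorem Fn.pj (F : Fr M M' r) (h : Fn p d M μ) (D : ZMod (2 * e) → ℕ) : Fn p d M (pj μ D) := by
  refine ⟨fun Q => sub_eq_zero.1 (ext0 (f := UsP.pj μ D ∘ₗ (sb M).toLinearMap - UsP.pj μ D) (fun A => ?_) Q),
    fun A hA => h.jr A fun h0 => hA ?_⟩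
  · change UsP.pj μ D (sb M (mn A)) - UsP.pj μ D (mn A) = 0
    rw [pj_wh D (sb_wh F.blk A), pj_mn, h.inv, sub_self]
  · rw [pj_mn, h0, ite_self]

open Classical in
theorem pj_ee {a b : Ix e n} (hab : lv a = lv b) (D : ZMod (2 * e) → ℕ) (A : Ix e n →₀ ℕ) :
    pj μ D (ee a b (mn A)) = if weight (wt (2 * e) n) A = D then μ (ee a b (mn A)) else 0 := by
  refine pj_wh D ?_
  rw [ee_mn]
  exact (xd_wh hab A).sub (xd_wh (lvb_inj.2 hab.symm) A)

/-- brackets -/
theorem Par.all (P : Par p e n d) (h0 : r ≠ 0) (hl : lv r = 0) {t : ZMod (2 * e)}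
    (h : ∀ a, lv a = t → ∀ Q, μ (ee a (a + r) Q) = 0) {a b : Ix e n} (ha : lv a = t) (hb : lv b = t)
    (hab : a ≠ b) (Q : Pl K e n) : μ (ee a b Q) = 0 := by
  obtain ⟨k, rfl⟩ := exk P h0 hl (ha.trans hb.symm)
  have hk : ∀ k : ℕ, lv (a + k • r) = t := fun k => by
    rw [lv, map_add, map_nsmul, show lev (2 * e) n r = 0 from hl, nsmul_zero, add_zero]; exact ha
  clear hb
  induction k generalizing Q with
  | zero => simp at hab
  | succ k ih =>
    by_cases h1 : a = a + k • r
    · rw [succ_nsmul, ← add_assoc, ← h1]; exact h a ha Q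
    · rw [bracket P (ha.trans (hk k).symm) ((hk k).trans (hk (k + 1)).symm) hab, map_sub, ih _ h1,
        succ_nsmul, ← add_assoc, h _ (hk k), sub_zero]

/-- the simple lemma -/
theorem edge1 [CharP K p] (P : Par p e n d) (F : Fr M M' r) (h : Fn p d M μ) {t : ZMod (2 * e)}
    (h1 : ∀ B, μ (mn B) ≠ 0 → ∀ u, lv u = t → (p : ℤ) ∣ bt B u)
    (h2 : ∀ B B', μ (mn B) ≠ 0 → μ (mn B') ≠ 0 → ∀ a b a' b', lv a = t → lv b = t → lv a' = t → lv b' = t →
      a ≠ b → bt B - bt B' = rt a b - rt a' b' → a = a' ∧ b = b')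
    {a : Ix e n} (ha : lv a = t) (Q : Pl K e n) : μ (ee a (a + r) Q) = 0 := by
  refine ext0 (f := μ ∘ₗ ee a (a + r)) (fun A => ?_) Q
  by_contra hne
  rw [LinearMap.comp_apply] at hne
  obtain ⟨u, m1, -, -, m2⟩ := F.edge a
  have hu : lv u = t := (F.blk _ _ m1).symm.trans ha
  have k0 : ∀ Q, μ (ee u u Q) = 0 := ext0 (f := μ ∘ₗ ee u u) fun B => by
    rw [LinearMap.comp_apply, ee_uu, map_smul, smul_eq_mul]
    by_cases hB : μ (mn B) = 0
    · rw [hB, mul_zero]
    · rw [(CharP.intCast_eq_zero_iff K p _).2 (h1 B hB u hu), zero_mul]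
  have k1 := h.inv (sb M' (ee u u (sb M (mn A))))
  rw [F.sb_sb, k0, F.Y_eq, ← Fintype.sum_prod_type', map_sum, Finset.sum_eq_single (a, a + r) ?_ (by simp),
    map_smul, smul_eq_mul] at k1
  · exact mul_ne_zero (mul_ne_zero m1 m2) hne k1.symm
  · rintro ⟨a', b'⟩ - hab
    by_contra h3
    rw [map_smul, smul_eq_mul, ← Ne, mul_ne_zero_iff, mul_ne_zero_iff] at h3
    obtain ⟨B, hB, e1, -⟩ := exists_of_ee hne
    obtain ⟨B', hB', e2, -⟩ := exists_of_ee h3.2
    obtain ⟨rfl, rfl⟩ := h2 B B' hB hB' a (a + r) a' b' ha ((F.blk' P m2).symm.trans hu)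
      ((F.blk _ _ h3.1.1).trans hu) ((F.blk' P h3.1.2).symm.trans hu) (by simpa using F.r0)
      (by rw [e1, e2]; abel)
    exact hab rfl

end CF.UsP
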