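import Mathlib

/-! Differential operators of bounded order on polynomial rings. -/

set_option autoImplicit false

namespace CF.UsP.P2b

open MvPolynomial Finsupp

variable {K σ : Type*} [Field K] {S : σ → Prop}

/-- the commutator with a variable -/
noncomputable def cm (Θ : Module.End K (MvPolynomial σ K)) (u : σ) : Module.End K (MvPolynomial σ K) :=
  Θ * LinearMap.mulLeft K (X u) - LinearMap.mulLeft K (X u) * Θ

theorem cm_apply (Θ : Module.End K (MvPolynomial σ K)) (u : σ) (Q : MvPolynomial σ K) :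
    cm Θ u Q = Θ (X u * Q) - X u * Θ Q := rfl

/-- operators of order `< k` involving only derivatives in the variables of `S` -/
def Ord (S : σ → Prop) : ℕ → Module.End K (MvPolynomial σ K) → Prop
  | 0, Θ => Θ = 0
  | k + 1, Θ => ∀ u, (¬ S u → cm Θ u = 0) ∧ Ord S k (cm Θ u)

theorem Ord.zero : ∀ k, Ord S k (0 : Module.End K (MvPolynomial σ K))
  | 0 => rfl
  | k + 1 => fun u => by
    have : cm (0 : Module.End K (MvPolynomial σ K)) u = 0 := by simp [cm]
    rw [this]; exact ⟨fun _ => rfl, Ord.zero k⟩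

theorem Ord.add : ∀ {k} {Θ Θ' : Module.End K (MvPolynomial σ K)},
    Ord S k Θ → Ord S k Θ' → Ord S k (Θ + Θ')
  | 0, _, _, h, h' => by rw [Ord] at *; rw [h, h', add_zero]
  | k + 1, Θ, Θ', h, h' => fun u => by
    have : cm (Θ + Θ') u = cm Θ u + cm Θ' u := by simp only [cm]; noncomm_ring
    rw [this]
    exact ⟨fun hu => by rw [(h u).1 hu, (h' u).1 hu, add_zero], (h u).2.add (h' u).2⟩

theorem Ord.mul (P : MvPolynomial σ K) : ∀ {k} {Θ : Module.End K (MvPolynomial σ K)},
    Ord S k Θ → Ord S k (LinearMap.mulLeft K P * Θ)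
  | 0, _, h => by rw [Ord] at *; rw [h, mul_zero]
  | k + 1, Θ, h => fun u => by
    have : cm (LinearMap.mulLeft K P * Θ) u = LinearMap.mulLeft K P * cm Θ u :=
      LinearMap.ext fun Q => by simp [cm_apply]; ring
    rw [this]
    exact ⟨fun hu => by rw [(h u).1 hu, mul_zero], (h u).2.mul P⟩

theorem Ord.sum {ι : Type*} {k : ℕ} (s : Finset ι) {Θ : ι → Module.End K (MvPolynomial σ K)}
    (h : ∀ i, Ord S k (Θ i)) : Ord S k (∑ i ∈ s, Θ i) :=
  Finset.sum_induction _ (Ord S k) (fun _ _ => Ord.add) (Ord.zero k) fun i _ => h i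

theorem Ord.conj [Fintype σ] {α β : MvPolynomial σ K →ₐ[K] MvPolynomial σ K} {c : σ → σ → K}
    (h1 : ∀ Q, α (β Q) = Q) (h2 : ∀ u, β (X u) = ∑ w, C (c u w) * X w)
    (h3 : ∀ u w, c u w ≠ 0 → S w → S u) : ∀ {k} {Θ : Module.End K (MvPolynomial σ K)},
    Ord S k Θ → Ord S k (α.toLinearMap * Θ * β.toLinearMap)
  | 0, _, h => by rw [Ord] at *; simp [h]
  | k + 1, Θ, h => fun u => by
    have : cm (α.toLinearMap * Θ * β.toLinearMap) u =
        ∑ w, LinearMap.mulLeft K (C (c u w)) * (α.toLinearMap * cm Θ w * β.toLinearMap) :=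
      LinearMap.ext fun Q => by
        have h4 : X u * α (Θ (β Q)) = α (β (X u) * Θ (β Q)) := by rw [map_mul, h1]
        simp only [cm_apply, Module.End.mul_apply, AlgHom.toLinearMap_apply, LinearMap.sum_apply,
          LinearMap.mulLeft_apply]
        rw [h4, map_mul β, h2, Finset.sum_mul, Finset.sum_mul, map_sum, map_sum, map_sum,
          ← Finset.sum_sub_distrib]
        refine Finset.sum_congr rfl fun w _ => ?_
        simp only [C_mul', smul_mul_assoc, map_smul, map_sub, smul_sub]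
    rw [this]
    refine ⟨fun hu => Finset.sum_eq_zero fun w _ => ?_,
      Ord.sum _ fun w => (Ord.conj h1 h2 h3 (h w).2).mul _⟩
    by_cases h0 : c u w = 0
    · simp [h0]
    · simp [(h w).1 fun hw => hu (h3 u w h0 hw)]

theorem ind {P : (σ →₀ ℕ) → Prop} (h0 : P 0) (h1 : ∀ A u, P A → P (single u 1 + A)) (A : σ →₀ ℕ) :
    P A := by
  induction A using Finsupp.induction with
  | zero => exact h0
  | single_add u k A _ _ ih =>
    clear * - h1 ih
    induction k with
    | zero => simpa using ih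
    | succ k ih' => rw [add_comm k, single_add, add_assoc]; exact h1 _ _ ih'

theorem Ord.small : ∀ {k} {Θ : Module.End K (MvPolynomial σ K)}, Ord S k Θ → ∀ A B : σ →₀ ℕ,
    coeff B (Θ (monomial A 1)) ≠ 0 → ∃ κ : σ →₀ ℕ, κ.degree < k ∧ (∀ u, κ u ≠ 0 → S u) ∧ A ≤ B + κ
  | 0, _, h => fun A B hB => by rw [Ord] at h; simp [h] at hB
  | k + 1, Θ, h => fun A => by
    classical
    refine ind (P := fun A => ∀ B, coeff B (Θ (monomial A 1)) ≠ 0 →
      ∃ κ : σ →₀ ℕ, κ.degree < k + 1 ∧ (∀ u, κ u ≠ 0 → S u) ∧ A ≤ B + κ)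
      (fun B _ => ⟨0, by simp, by simp, by simp⟩) (fun A u ih B hB => ?_) A
    have h1 : Θ (monomial (single u 1 + A) 1) = X u * Θ (monomial A 1) + cm Θ u (monomial A 1) := by
      rw [cm_apply, monomial_single_add, pow_one, add_sub_cancel]
    by_cases h2 : coeff B (cm Θ u (monomial A 1)) = 0
    · rw [h1, coeff_add, h2, add_zero, coeff_X_mul'] at hB
      split_ifs at hB with h3
      · obtain ⟨κ, h4, h5, h6⟩ := ih _ hB
        refine ⟨κ, h4, h5, fun w => ?_⟩
        have := h6 w
        have h7 := Finsupp.mem_support_iff.1 h3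
        by_cases hw : u = w
        · subst hw; simp at this ⊢; omega
        · simpa [hw] using this
      · exact absurd rfl hB
    · obtain ⟨κ, h4, h5, h6⟩ := (h u).2.small A B h2
      have hu : S u := by_contra fun hu => h2 (by simp [(h u).1 hu])
      refine ⟨single u 1 + κ, by simp; omega, fun w hw => ?_, ?_⟩
      · by_cases e : u = w
        · exact e ▸ hu
        · exact h5 w (by simpa [e] using hw)
      · rw [add_left_comm]; exact add_le_add_right h6 _

/-- diagonal operators -/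
noncomputable def dg (g : (σ →₀ ℕ) → K) : Module.End K (MvPolynomial σ K) :=
  (basisMonomials σ K).constr K fun A => g A • monomial A 1

theorem dg_mn (g : (σ →₀ ℕ) → K) (A : σ →₀ ℕ) : dg g (monomial A 1) = g A • monomial A 1 := by
  simpa [dg] using (basisMonomials σ K).constr_basis K (fun A => g A • monomial A (1 : K)) A

theorem ext_mn {V : Type*} [AddCommGroup V] [Module K V] {φ ψ : MvPolynomial σ K →ₗ[K] V}
    (h : ∀ A, φ (monomial A 1) = ψ (monomial A 1)) : φ = ψ :=
  (basisMonomials σ K).ext fun A => by simpa using h A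

theorem exists_mn {V : Type*} [AddCommGroup V] [Module K V] {φ : MvPolynomial σ K →ₗ[K] V}
    {Q : MvPolynomial σ K} (h : φ Q ≠ 0) : ∃ A, coeff A Q ≠ 0 ∧ φ (monomial A 1) ≠ 0 := by
  rw [Q.as_sum, map_sum] at h
  obtain ⟨A, hA, h⟩ := Finset.exists_ne_zero_of_sum_ne_zero h
  refine ⟨A, MvPolynomial.mem_support_iff.1 hA, fun h0 => h ?_⟩
  rw [← mul_one (coeff A Q), ← smul_eq_mul, ← smul_monomial, map_smul, h0, smul_zero]

/-- functions whose `k`-th differences vanish -/
def Deg : ℕ → (ℤ → ℤ) → Prop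
  | 0, f => ∀ x, f x = 0
  | k + 1, f => ∀ c, Deg k fun x => f (c + x) - f x

theorem Deg.ord {l : (σ →₀ ℕ) →+ ℤ} (hl : ∀ u, ¬ S u → l (single u 1) = 0) :
    ∀ {k} {f : ℤ → ℤ}, Deg k f → Ord S k (dg fun A => (f (l A) : K))
  | 0, f, h => ext_mn fun A => by simp [dg_mn, h (l A)]
  | k + 1, f, h => fun u => by
    have : cm (dg fun A => (f (l A) : K)) u = LinearMap.mulLeft K (X u) *
        dg fun A => ((f (l (single u 1) + l A) - f (l A) : ℤ) : K) := ext_mn fun A => by
      have e : (X u * monomial A 1 : MvPolynomial σ K) = monomial (single u 1 + A) 1 := by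
        rw [monomial_single_add, pow_one]
      simp only [cm_apply, Module.End.mul_apply, LinearMap.mulLeft_apply, dg_mn, mul_smul_comm, e,
        map_add, Int.cast_sub, sub_smul, mul_sub]
    rw [this]
    refine ⟨fun hu => ?_, (Deg.ord hl (h _)).mul _⟩
    exact ext_mn fun A => by simp [dg_mn, hl u hu]

/-- `binom (x + 1) 3` -/
def cub (x : ℤ) : ℤ := (x + 1) * x * (x - 1) / 6

theorem six_cub (x : ℤ) : 6 * cub x = (x + 1) * x * (x - 1) := by
  refine Int.mul_ediv_cancel' ((ZMod.intCast_zmod_eq_zero_iff_dvd _ 6).1 ?_)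
  push_cast
  generalize (x : ZMod 6) = y
  revert y; decide

theorem deg_cub : Deg 4 cub := fun a b c d x => by
  refine mul_left_cancel₀ (a := (6 : ℤ)) (by norm_num) ?_
  simp only [mul_sub, six_cub]
  ring

theorem cub_add {p : ℕ} (hp : p.Prime) (x y : ℤ) :
    (p : ℤ) ∣ cub (x + p * (if p ≤ 3 then p else 1) * y) - cub x := by
  have h : ∀ z, 6 * (cub (x + z) - cub x) = z * (3 * x ^ 2 + 3 * x * z + z ^ 2 - 1) := fun z => by
    simp only [mul_sub, six_cub]; ring
  have h1 := h (p * (if p ≤ 3 then p else 1) * y)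
  generalize cub (x + p * (if p ≤ 3 then p else 1) * y) - cub x = D at h1
  rw [mul_assoc, mul_assoc] at h1
  generalize y * _ = w at h1
  split_ifs at h1 with h3
  · have := hp.two_le
    interval_cases p <;> omega
  · refine (Int.Prime.dvd_mul' hp ⟨_, h1⟩).resolve_left fun h6 => ?_
    have h7 : p ∣ 2 * 3 := by exact_mod_cast h6
    rcases (Nat.Prime.dvd_mul hp).1 h7 with h | h <;> have := Nat.le_of_dvd (by norm_num) h <;> omega

end CF.UsP.P2b
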