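import Cfsg.Agent.Us.P1
import Cfsg.Agent.Us.P2a
import Cfsg.Agent.Us.P2b1

/-! The key lemma of the polynomial method for `d = n`. -/

set_option autoImplicit false

namespace CF.UsP

open MvPolynomial CF.Sing.PA Finsupp

variable {K : Type*} [Field K] {p e n : ℕ} [NeZero (2 * e * n)]
  {M M' : Matrix (Ix e n) (Ix e n) K} {r : Ix e n} {μ : Pl K e n →ₗ[K] K}

namespace P2b

/-- the levels that are touched -/
def Sl (p : ℕ) (t : ZMod (2 * e)) (u : Ix e n) : Prop :=
  lv u = t ∨ lv (bar u) = t ∨ p ≤ 3 ∧ (lv u = t + 1 ∨ lv (bar u) = t + 1)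

theorem Sl.congr (P : Par p e n n) {t : ZMod (2 * e)} {u w : Ix e n} (h : lv u = lv w)
    (hw : Sl p t w) : Sl p t u := by
  simpa only [Sl, P.lv_bar, h] using hw

theorem Sl.bar {t : ZMod (2 * e)} {u : Ix e n} (h : Sl p t (bar u)) : Sl p t u := by
  rw [Sl, bar_bar] at h; rw [Sl]; tauto

/-- operators preserving multidegrees -/
def Pr (Θ : Module.End K (Pl K e n)) : Prop :=
  ∀ A B, coeff B (Θ (mn A)) ≠ 0 → weight (wt (2 * e) n) B = weight (wt (2 * e) n) A

theorem Pr.mul {Θ Θ' : Module.End K (Pl K e n)} (h : Pr Θ) (h' : Pr Θ') : Pr (Θ * Θ') :=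
  fun A B hB => by
    obtain ⟨C, h1, h2⟩ := exists_mn (φ := lcoeff K B ∘ₗ Θ) hB
    rw [h C B h2, h' A C h1]

theorem pr_dg (g : (Ix e n →₀ ℕ) → K) : Pr (dg g) := fun A B h => by
  classical
  rw [dg_mn, coeff_smul, coeff_monomial] at h
  split_ifs at h with h1
  · rw [h1]
  · simp at h

theorem pr_sb (h : ∀ u w, M u w ≠ 0 → lv u = lv w) : Pr (sb M).toLinearMap := fun A B hB => by
  have : IsWeightedHomogeneous (wt (2 * e) n) (sb M (mn A)) (weight (wt (2 * e) n) A) := by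
    rw [sb, aeval_monomial, map_one, one_mul, Finsupp.prod_fintype _ _ (by simp), weight_eq_sum]
    refine IsWeightedHomogeneous.prod _ _ _ fun u _ => IsWeightedHomogeneous.pow ?_ _
    refine IsWeightedHomogeneous.sum _ _ _ fun w _ => ?_
    by_cases h0 : M u w = 0
    · rw [h0, map_zero, zero_mul]; exact isWeightedHomogeneous_zero _ _ _
    · rw [show wt (2 * e) n u = wt (2 * e) n w by rw [wt, wt]; exact congrArg (Pi.single · 1) (h u w h0)]
      exact (isWeightedHomogeneous_X K _ w).C_mul _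
  exact this hB

theorem near (P : Par p e n n) {t : ZMod (2 * e)} {Θ : Module.End K (Pl K e n)}
    (h1 : Ord (Sl p t) 4 Θ) (h2 : Pr Θ) {A B : Ix e n →₀ ℕ} (h : coeff B (Θ (mn A)) ≠ 0) :
    (∀ u, ¬ Sl p t u → B u = A u) ∧ ∑ u, |(B u : ℤ) - A u| ≤ 6 := by
  obtain ⟨κ, h3, h4, h5⟩ := h1.small A B h
  have h6 := h2 A B h
  refine ⟨fun u hu => ?_, ?_⟩
  · have h7 := congrFun h6 (lv u)
    rw [weight_wt, weight_wt, eq_comm, Finset.sum_eq_sum_iff_of_le fun w hw => ?_] at h7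
    · exact (h7 u (by simp)).symm
    · have h8 : κ w = 0 := by_contra fun h0 =>
        hu ((h4 w h0).congr P (Finset.mem_filter.1 hw).2.symm)
      simpa [h8] using h5 w
  · have h7 : B.degree = A.degree := by rw [degree_eq, degree_eq, h6]
    rw [degree_eq_sum] at h3 h7
    rw [degree_eq_sum] at h7
    have h8 : ∑ u, |(B u : ℤ) - A u| ≤ ∑ u, ((B u : ℤ) - A u + 2 * κ u) :=
      Finset.sum_le_sum fun u _ => by
        have := h5 u
        rw [Finsupp.add_apply] at this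
        rw [abs_le]; omega
    rw [Finset.sum_add_distrib, Finset.sum_sub_distrib, ← Finset.mul_sum, ← Nat.cast_sum,
      ← Nat.cast_sum, ← Nat.cast_sum] at h8
    omega

theorem sum_bt (P : Par p e n n) (A : Ix e n →₀ ℕ) (t : ZMod (2 * e)) : ∑ u with lv u = t, bt A u =
    (weight (wt (2 * e) n) A t : ℤ) - weight (wt (2 * e) n) A (t + (e : ℕ)) := by
  simp only [bt, weight_wt, Finset.sum_sub_distrib, Nat.cast_sum]
  congr 1
  refine Finset.sum_equiv (Equiv.addRight ((e * n : ℕ) : Ix e n)) (fun u => ?_) fun u _ => rfl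
  rw [Finset.mem_filter_univ, Finset.mem_filter_univ]
  exact (add_left_inj _).symm.trans (by rw [← P.lv_bar]; rfl)

theorem not_dvd (P : Par p e n n) : n ∣ p ^ e + 1 ∧ ¬ p ∣ n := by
  have h : n ∣ p ^ e + 1 := by
    rcases P.hd with h | h
    · have := P.hn; omega
    · exact h.2
  exact ⟨h, fun h1 => P.pp.one_lt.ne' (Nat.dvd_one.1
    ((Nat.dvd_add_right (dvd_pow_self p P.e0)).1 (h1.trans h)))⟩

theorem jr_sub {β β' j j' : Ix e n → ℤ} (h : Jr p n β j) (h' : Jr p n β' j') :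
    Jr p n (β - β') (j - j') := fun u => by
  simp only [Pi.sub_apply]; rw [h u, h' u]; ring

theorem cong (P : Par p e n n) (h : Fn p n M μ) {t : ZMod (2 * e)} {Θ : Module.End K (Pl K e n)}
    (h1 : Ord (Sl p t) 4 Θ) (h2 : Pr Θ) {A B B' : Ix e n →₀ ℕ} (hB : coeff B (Θ (mn A)) ≠ 0)
    (hB' : coeff B' (Θ (mn A)) ≠ 0) (h3 : μ (mn B) ≠ 0) (h3' : μ (mn B') ≠ 0) {u : Ix e n}
    (hu : lv u = t) : (p : ℤ) ∣ bt B u - bt B' u := by
  obtain ⟨j, hj⟩ := h.jr B h3
  obtain ⟨j', hj'⟩ := h.jr B' h3'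
  obtain ⟨h4, h5⟩ := near P h1 h2 hB
  obtain ⟨h4', h5'⟩ := near P h1 h2 hB'
  have h6 := jr_sub hj hj'
  have h7 := h6.sep P (fun w => by simp only [Pi.sub_apply, bt_bar]; ring) t (fun w hw => ?_)
    (fun t' => ?_) ?_ hu
  · rw [h6 u] at h7
    refine (Int.Prime.dvd_mul' P.pp (m := n) ⟨-(j - j') (u + 1), ?_⟩).resolve_left fun h8 => ?_
    · rw [Pi.sub_apply (bt B)] at h7; linarith
    · exact (not_dvd P).2 (by exact_mod_cast h8)
  · refine by_contra fun hs : ¬ Sl p t w => hw ?_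
    simp [bt, h4 w hs, h4' w hs, h4 _ (mt Sl.bar hs), h4' _ (mt Sl.bar hs)]
  · simp only [Pi.sub_apply, Finset.sum_sub_distrib, sum_bt P, h2 A B hB, h2 A B' hB', sub_self]
  · have h8 : ∀ C : Ix e n →₀ ℕ, ∑ w, |(C (bar w) : ℤ) - A (bar w)| = ∑ w, |(C w : ℤ) - A w| :=
      fun C => Equiv.sum_comp (Equiv.addRight ((e * n : ℕ) : Ix e n)) fun w => |(C w : ℤ) - A w|
    have h9 : ∑ w, |(bt B - bt B') w| ≤ ∑ w, (|(B w : ℤ) - A w| + |(B' w : ℤ) - A w| +
        (|(B (bar w) : ℤ) - A (bar w)| + |(B' (bar w) : ℤ) - A (bar w)|)) :=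
      Finset.sum_le_sum fun w _ => by
        simp only [Pi.sub_apply, bt, abs_le, abs_eq_max_neg]; omega
    simp only [Finset.sum_add_distrib, h8] at h9
    omega

theorem ee_self (u : Ix e n) (A : Ix e n →₀ ℕ) : ee u u (mn A : Pl K e n) = (bt A u : K) • mn A := by
  have : ∀ w, (A w : K) • (mn (A - single w 1 + single w 1) : Pl K e n) = (A w : K) • mn A :=
    fun w => by
      by_cases h : A w = 0
      · simp [h]
      · rw [tsub_add_cancel_of_le (single_le_iff.2 (by omega))]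
  rw [ee_mn, this, this, bt, Int.cast_sub, sub_smul]; simp

theorem kill [CharP K p] (P : Par p e n n) (h : Fn p n M μ) {t : ZMod (2 * e)}
    {Θ : Module.End K (Pl K e n)} (h1 : Ord (Sl p t) 4 Θ) (h2 : Pr Θ) (h3 : ∀ Q, μ (Θ Q) = 0)
    {u : Ix e n} (hu : lv u = t) (Q : Pl K e n) : μ (ee u u (Θ Q)) = 0 := by
  by_contra h0
  obtain ⟨A, -, h4⟩ := exists_mn (φ := μ ∘ₗ ee u u ∘ₗ Θ) h0
  obtain ⟨B, hB, h5⟩ := exists_mn (φ := μ ∘ₗ ee u u) h4
  obtain ⟨B', hB', h6⟩ := exists_mn (φ := μ ∘ₗ ee u u - (bt B u : K) • μ) (Q := Θ (mn A))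
    (by simpa [h3] using h4)
  simp only [LinearMap.sub_apply, LinearMap.comp_apply, ee_self, map_smul, LinearMap.smul_apply,
    smul_eq_mul, ← sub_mul, ne_eq, mul_eq_zero, not_or] at h5 h6
  exact h6.1 (by exact_mod_cast (CharP.intCast_eq_zero_iff K p _).2 (cong P h h1 h2 hB' hB h6.2 h5.2 hu))

/-- the linear form on exponents -/
def lf (p : ℕ) (a b : Ix e n) : (Ix e n →₀ ℕ) →+ ℤ where
  toFun A := bt A a - bt A b + (if p ≤ 3 then p else 0) * (bt A (a + 1) - bt A (b + 1))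
  map_zero' := by simp [bt]
  map_add' A B := by simp only [bt, Finsupp.add_apply, Nat.cast_add]; ring

theorem bt_single {u w : Ix e n} (h1 : lv u ≠ lv w) (h2 : lv (bar u) ≠ lv w) :
    bt (single u 1) w = 0 := by
  rw [bt, single_eq_of_ne, single_eq_of_ne]
  · rfl
  · rintro rfl; exact h2 (by rw [bar_bar])
  · rintro rfl; exact h1 rfl

theorem lf_single {a b u : Ix e n} (hb : lv b = lv a) (h : ¬ Sl p (lv a) u) :
    lf p a b (single u 1) = 0 := by
  simp only [Sl, not_or, not_and] at h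
  change bt _ a - bt _ b + _ * (bt _ (a + 1) - bt _ (b + 1)) = 0
  rw [bt_single h.1 h.2.1, bt_single (hb ▸ h.1) (hb ▸ h.2.1)]
  split_ifs with h3
  · have := h.2.2 h3
    rw [bt_single, bt_single] <;> simp [hb, this]
  · simp

theorem lf_eq (P : Par p e n n) {a b : Ix e n} (hb : lv a = lv b) {β j : Ix e n → ℤ} (hj : Jr p n β j)
    (h : ∀ a b, lv a = lv b → j a - j b = 0 ∨ |j a - j b| = n) : ∃ x y : ℤ,
      j a - j b = n * x ∧ cub x = 0 ∧ β a - β b + (if p ≤ 3 then p else 0) * (β (a + 1) - β (b + 1)) =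
        x + p * (if p ≤ 3 then p else 1) * y := by
  have hn : (n : ℤ) ≠ 0 := by have := P.hn; omega
  have h1 : ∀ a b, lv a = lv b → ∃ x, j a - j b = n * x ∧ cub x = 0 := fun a b hab => by
    rcases h a b hab with h | h
    · exact ⟨0, by simp [h], rfl⟩
    · rcases (abs_eq (by positivity)).1 h with h | h
      exacts [⟨1, by simp [h], rfl⟩, ⟨-1, by simp [h], rfl⟩]
  obtain ⟨x, hx, hc⟩ := h1 a b hb
  obtain ⟨y, hy, -⟩ := h1 (a + 1) (b + 1) (by simp [hb])
  obtain ⟨z, hz, -⟩ := h1 (a + 1 + 1) (b + 1 + 1) (by simp [hb])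
  have h2 : β a - β b = x - p * y := mul_left_cancel₀ hn (by
    linear_combination hj b - hj a + hx - p * hy)
  have h3 : β (a + 1) - β (b + 1) = y - p * z := mul_left_cancel₀ hn (by
    linear_combination hj (b + 1) - hj (a + 1) + hy - p * hz)
  rw [h2, h3]
  split_ifs
  exacts [⟨x, -z, hx, hc, by ring⟩, ⟨x, -y, hx, hc, by ring⟩]

end P2b

open P2b

/-- the key lemma, `d = n` -/
theorem edgeN [CharP K p] (P : Par p e n n) (F : Fr M M' r) (h : Fn p n M μ)
    (h1 : ∀ B j, μ (mn B) ≠ 0 → Jr p n (bt B) j → ∀ a b, lv a = lv b → j a - j b = 0 ∨ |j a - j b| = n)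
    {a b : Ix e n} (hab : b = a + r ∨ a = b + r) {A : Ix e n →₀ ℕ} {j : Ix e n → ℤ}
    (hj : Jr p n (bt A + rt a b) j) (e0 : j a = j b) : μ (ee a b (mn A)) = 0 := by
  by_contra h0
  have hl : lv b = lv a := by rcases hab with h | h <;> simp [h, F.rl]
  have hne : a ≠ b := by rintro rfl; simpa [F.r0] using hab
  have hc : ∀ x y : ℤ, (cub (x + p * (if p ≤ 3 then p else 1) * y) : K) = cub x := fun x y => by
    rw [← sub_eq_zero]; exact_mod_cast (CharP.intCast_eq_zero_iff K p _).2 (cub_add P.pp x y)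
  have h2 : ∀ Q, μ (dg (fun B => (cub (lf p a b B) : K)) Q) = 0 := fun Q => by_contra fun h2 => by
    obtain ⟨B, -, h3⟩ := exists_mn (φ := μ ∘ₗ dg _) h2
    rw [LinearMap.comp_apply, dg_mn, map_smul, smul_eq_mul, mul_ne_zero_iff] at h3
    obtain ⟨i, hi⟩ := h.jr B h3.2
    obtain ⟨x, y, -, h4, h5⟩ := lf_eq P hl.symm hi (h1 B i h3.2 hi)
    exact h3.1 (by rw [show lf p a b B = _ from h5, hc, h4, Int.cast_zero])
  obtain ⟨u, hu, hu'⟩ : ∃ u, M a u ≠ 0 ∧ M' u b ≠ 0 := by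
    rcases hab with rfl | rfl
    · obtain ⟨u, h⟩ := F.edge a; exact ⟨u, h.1, h.2.2.2⟩
    · obtain ⟨u, h⟩ := F.edge b; exact ⟨u, h.2.1, h.2.2.1⟩
  have h3 := kill P h (Ord.conj (α := sb M) (β := sb M') (c := M') F.sb_sb (fun u => by simp [sb])
    (fun u w h => Sl.congr P (F.blk' P h)) (deg_cub.ord (l := lf p a b) fun u => lf_single hl))
    (((pr_sb F.blk).mul (pr_dg _)).mul (pr_sb fun u w => F.blk' P))
    (fun Q => (h.inv _).trans (h2 _)) (F.blk a u hu).symm (sb M (mn A))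
  obtain ⟨B, hB, h4, -⟩ := exists_of_ee h0
  have h5 : (cub (lf p a b A) : K) = 1 := by
    obtain ⟨x, y, h5, -, h6⟩ := lf_eq P hl.symm hj (h1 B j hB (h4 ▸ hj))
    have hx : x = 0 := by
      have := P.hn
      rw [e0, sub_self, eq_comm, mul_eq_zero] at h5; omega
    have h7 : ∀ w, lv w = lv a → bar w ≠ a ∧ bar w ≠ b := fun w hw =>
      ⟨fun h => P.lv_bar_ne w (by rw [h, hw]), fun h => P.lv_bar_ne w (by rw [h, hw, hl])⟩
    have h8 : p ≤ 3 → ∀ w, lv w = lv a → rt a b (w + 1) = 0 := fun hp w hw => by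
      have h9 : ∀ c, lv c = lv a → w + 1 ≠ c ∧ bar (w + 1) ≠ c := fun c hc =>
        ⟨fun h => P.lv_succ_ne w (by rw [h, hc, hw]), fun h => by
          have he : e = 1 := (P.lv_succ_bar w).1 (by
            rw [← bar_bar (w + 1), h, P.lv_bar, P.lv_bar, hc, hw])
          have := Nat.le_of_dvd (by positivity) (not_dvd P).1
          have := P.hn
          rw [he, pow_one] at *; omega⟩
      simp [rt, h9 a rfl, h9 b hl]
    have h9 : lf p a b A = 2 + p * (if p ≤ 3 then p else 1) * y := by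
      change bt A a - bt A b + _ * (bt A (a + 1) - bt A (b + 1)) = _
      simp only [Pi.add_apply, hx] at h6
      rw [show rt a b a = -1 by simp [rt, hne, h7 a rfl],
        show rt a b b = 1 by simp [rt, hne.symm, h7 b hl]] at h6
      split_ifs at h6 ⊢ with hp
      · rw [h8 hp a rfl, h8 hp b hl] at h6; linarith
      · simp only [Nat.cast_zero, zero_mul] at h6 ⊢; linarith
    rw [h9, hc]; simp [cub]
  have h6 : ∀ a' b', ¬ (a = a' ∧ b = b') → μ ((M a' u * M' u b') • ee a' b' (mn A)) = 0 :=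
    fun a' b' h6 => by_contra fun h7 => by
      rw [map_smul, smul_eq_mul, mul_eq_zero, mul_eq_zero, not_or, not_or] at h7
      obtain ⟨B', hB', h8, -⟩ := exists_of_ee h7.2
      obtain ⟨j', hj'⟩ := h.jr B' hB'
      have h9 := jr_sub hj (h8 ▸ hj')
      rw [add_sub_add_left_eq_sub] at h9
      have := F.blk a u hu
      exact h6 (h9.sep0 P hl ((F.blk a' u h7.1.1).trans this.symm)
        ((F.blk' P h7.1.2).symm.trans this.symm) hne)
  simp only [Module.End.mul_apply, AlgHom.toLinearMap_apply] at h3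
  rw [F.sb_sb', dg_mn, h5, one_smul, ← F.sb_sb (ee u u _), h.inv, F.Y_eq, map_sum,
    Fintype.sum_eq_single a fun a' ha => by
      rw [map_sum]; exact Finset.sum_eq_zero fun b' _ => h6 a' b' fun h => ha h.1.symm,
    map_sum, Fintype.sum_eq_single b fun b' hb => h6 a b' fun h => hb h.2.symm] at h3
  simp [hu, hu', h0] at h3

end CF.UsP
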