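import Cfsg.Agent.Us.P4a

/-! The Klein form: descent of the invariance, and the Hessian. -/

set_option autoImplicit false

namespace CF.UsP.P4

open MvPolynomial Finsupp
open Matrix (vecMul)
open scoped Matrix

variable {K : Type*} [Field K] {p : ℕ} {σ : Type*} [Fintype σ] [DecidableEq σ]
  {L : σ → Prop} [DecidablePred L] {b nx : σ → σ} {M M' : Matrix σ σ K}

variable (K L b nx) in
/-- the Klein form, extended by apolarity -/
noncomputable def nu (p : ℕ) : MvPolynomial σ K →ₗ[K] K := (basisMonomials σ K).constr K (f K L b nx p)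

theorem nu_mn (A : σ →₀ ℕ) : nu K L b nx p (monomial A 1) = f K L b nx p A :=
  (basisMonomials σ K).constr_basis K _ A

omit [Fintype σ] [DecidableEq σ] in
theorem mn_smul (A : σ →₀ ℕ) (c : K) : (monomial A c : MvPolynomial σ K) = c • monomial A 1 := by
  rw [smul_monomial, smul_eq_mul, mul_one]

theorem St.nu_con [CharP K p] (S : St L b nx) {w : σ} (hw : L w) (P : MvPolynomial σ K) :
    nu K L b nx p (X (b w) * P) = nu K L b nx p (pderiv w P) := by
  induction P using MvPolynomial.induction_on' with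
  | monomial A c =>
    rw [X, monomial_mul, pderiv_monomial, one_mul, mn_smul _ c, mn_smul _ (c * _), map_smul, map_smul,
      nu_mn, nu_mn, add_comm, S.f_con A hw, smul_eq_mul, smul_eq_mul, mul_assoc]
  | add P Q a c => rw [mul_add, map_add, map_add, map_add, a, c]

/-- linear forms -/
noncomputable def lin (v : σ → K) : MvPolynomial σ K := ∑ x, C (v x) * X x

/-- linear substitution -/
noncomputable def sbm (M : Matrix σ σ K) : MvPolynomial σ K →ₐ[K] MvPolynomial σ K :=
  aeval fun u => lin (M u)

theorem pderiv_lin (v : σ → K) (y : σ) : pderiv y (lin v) = C (v y) := by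
  rw [lin, map_sum, Finset.sum_eq_single y] <;> simp +contextual [Pi.single_apply]

theorem aeval_lin (v : σ → K) (y : σ) : aeval (Pi.single y 1 : σ → K) (lin v) = v y := by
  rw [lin, map_sum, Finset.sum_eq_single y] <;> simp +contextual [Pi.single_apply]

omit [DecidableEq σ] in
theorem sbm_lin (v : σ → K) : sbm M (lin v) = lin (v ᵥ* M) := by
  simp only [lin, sbm, map_sum, map_mul, aeval_C, aeval_X, algebraMap_eq, Finset.mul_sum, vecMul,
    dotProduct, Finset.sum_mul, mul_assoc]
  exact Finset.sum_comm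

omit [DecidableEq σ] in
theorem lin_hom {v : σ → K} {m : ℕ × ℕ} (h : ∀ x, v x ≠ 0 → om L x = m) :
    IsWeightedHomogeneous (om L) (lin v) m := by
  refine IsWeightedHomogeneous.sum _ _ _ fun x _ => ?_
  by_cases c : v x = 0
  · rw [c, map_zero, zero_mul]; exact isWeightedHomogeneous_zero _ _ _
  · exact h x c ▸ (isWeightedHomogeneous_X K _ x).C_mul _

omit [DecidableEq σ] in
theorem sbm_hom (blk : ∀ u w, M u w ≠ 0 → (L u ↔ L w)) (A : σ →₀ ℕ) :
    IsWeightedHomogeneous (om L) (sbm M (monomial A 1)) (weight (om L) A) := by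
  rw [sbm, aeval_monomial, map_one, one_mul, Finsupp.prod_fintype _ _ (by simp), weight_eq_sum]
  exact IsWeightedHomogeneous.prod _ _ _ fun u _ =>
    (lin_hom fun x hx => by simp only [om, blk u x hx]).pow _

omit [Fintype σ] [DecidableEq σ] in
theorem ext_hom {μ ν : MvPolynomial σ K →ₗ[K] K} {m : ℕ × ℕ}
    (h : ∀ A, weight (om L) A = m → μ (monomial A 1) = ν (monomial A 1)) {P : MvPolynomial σ K}
    (hP : IsWeightedHomogeneous (om L) P m) : μ P = ν P := by
  rw [P.as_sum, map_sum, map_sum]
  refine Finset.sum_congr rfl fun A hA => ?_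
  rw [mn_smul, map_smul, map_smul, h A (hP (MvPolynomial.mem_support_iff.1 hA))]

theorem chain (inv : M * M' = 1) (w : σ) (P : MvPolynomial σ K) :
    sbm M (pderiv w P) = ∑ u, M' u w • pderiv u (sbm M P) := by
  induction P using MvPolynomial.induction_on with
  | C a => simp [sbm]
  | add P Q a c => simp only [map_add, a, c, smul_add, Finset.sum_add_distrib]
  | mul_X P x a =>
    have e : sbm M (X x) = lin (M x) := aeval_X _ _
    have e2 : ∑ u, M' u w • (C (M x u) : MvPolynomial σ K) = sbm M (pderiv w (X x)) := by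
      have := congrFun (congrFun inv x) w
      rw [Matrix.mul_apply, Matrix.one_apply] at this
      simp only [smul_eq_C_mul, ← C_mul, ← map_sum, mul_comm (M' _ _), this, pderiv_X, Pi.single_apply]
      split_ifs <;> simp
    simp only [Derivation.leibniz, map_add, map_mul, smul_eq_mul, a, e, pderiv_lin, smul_add,
      Finset.sum_add_distrib, ← e2, Finset.mul_sum, mul_smul_comm]

variable (L b nx M) in
/-- invariance in one bidegree -/
def Inv (p k : ℕ) : Prop := ∀ A, weight (om L) A = (k + p + 1, k) →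
  nu K L b nx p (sbm M (monomial A 1)) = nu K L b nx p (monomial A 1)

theorem St.down [CharP K p] (S : St L b nx) (blk : ∀ u w, M u w ≠ 0 → (L u ↔ L w)) (inv : M * M' = 1)
    (adj : ∀ u w, M' u w = M (b w) (b u)) {k : ℕ} (h : Inv L b nx M p (k + 1))
    (hk : k + p + 1 < (Finset.univ.filter L).card * (p - 1)) : Inv L b nx M p k := by
  intro A hA
  obtain ⟨w, hw, h0⟩ : ∃ w, L w ∧ (A w + 1 : K) ≠ 0 := by
    by_contra c
    push Not at c
    have h1 := om_fst (L := L) A
    rw [hA] at h1
    have := Finset.card_nsmul_le_sum (Finset.univ.filter L) (fun x => A x) (p - 1) fun x hx => by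
      have := Nat.le_of_dvd (Nat.succ_pos _) ((CharP.cast_eq_zero_iff K p (A x + 1)).1
        (by exact_mod_cast c x (by simpa using hx)))
      omega
    rw [smul_eq_mul] at this
    exact (this.trans_eq h1.symm).not_gt hk
  have e : pderiv w (monomial (A + single w 1) (1 : K)) = (A w + 1 : K) • monomial A 1 := by
    rw [pderiv_monomial, add_tsub_cancel_right, mn_smul]
    simp
  have h2 := h (single (b w) 1 + (A + single w 1)) (by
    rw [map_add, map_add, hA, om_pos hw, om_neg fun c => (S.Lb w).1 c hw]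
    simp only [Prod.mk_add_mk, Prod.mk.injEq]
    omega)
  have e3 : (monomial (single (b w) 1 + (A + single w 1)) 1 : MvPolynomial σ K) =
      X (b w) * monomial (A + single w 1) 1 := by rw [X, monomial_mul, one_mul]
  rw [e3, map_mul, S.nu_con hw, e] at h2
  suffices h3 : nu K L b nx p (sbm M ((A w + 1 : K) • monomial A 1)) =
      nu K L b nx p ((A w + 1 : K) • monomial A 1) by
    rw [map_smul, map_smul, map_smul] at h3
    exact mul_left_cancel₀ h0 h3
  rw [← h2, ← e, chain inv, sbm, aeval_X, lin, Finset.sum_mul, map_sum, map_sum]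
  refine Fintype.sum_equiv (Function.Involutive.toPerm b S.bb) _ _ fun u => ?_
  change _ = nu K L b nx p (C (M (b w) (b u)) * X (b u) * _)
  rw [← adj, mul_assoc, ← smul_eq_C_mul, map_smul, map_smul]
  by_cases c : M' u w = 0
  · rw [c, zero_smul, zero_smul]
  · have := blk _ _ (adj u w ▸ c)
    rw [S.Lb, S.Lb, not_iff_not] at this
    rw [S.nu_con (this.1 hw)]

variable (K L b nx) in
/-- the Klein form -/
noncomputable def dl : MvPolynomial σ K →ₗ[K] K :=
  ∑ u with L u, (aeval (Pi.single u 1 : σ → K)).toLinearMap ∘ₗ (pderiv (b (nx u))).toLinearMap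

theorem dl_apply (P : MvPolynomial σ K) :
    dl K L b nx P = ∑ u with L u, aeval (Pi.single u 1 : σ → K) (pderiv (b (nx u)) P) := by
  simp [dl]

theorem St.nu_dl [CharP K p] (S : St L b nx) (A : σ →₀ ℕ) (hA : weight (om L) A = (p + 1, 0)) :
    nu K L b nx p (monomial A 1) = dl K L b nx (monomial A 1) := by
  rw [nu_mn, dl_apply, f]
  refine Finset.sum_congr rfl fun u hu => ?_
  replace hu : L u := by simpa using hu
  have hd := om_deg (L := L) A
  rw [hA] at hd
  have ht : L (b (nx u)) := (S.Lb _).2 fun c => (S.Ln u).1 c hu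
  have hn := S.tne u
  have e : single (nx u) 1 = single (b (b (nx u))) 1 := by rw [S.bb]
  rw [e, S.g_con _ ht, pderiv_monomial, aeval_monomial, Finsupp.prod_fintype _ _ (by simp)]
  generalize b (nx u) = t at *
  rcases Nat.eq_zero_or_pos (A t) with h0 | h0
  · simp [h0]
  obtain ⟨A, rfl⟩ := ex_add (k := 1) h0
  rw [add_tsub_cancel_right]
  have e1 : (A + single t 1 : σ →₀ ℕ) u = A u := by simp [hn]
  rw [e1]
  split_ifs with h
  · obtain ⟨A, rfl⟩ := ex_add h
    obtain rfl : A = 0 := (degree_eq_zero_iff _).1 (by simp at hd; omega)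
    rw [zero_add, add_tsub_cancel_left, tsub_self, Finset.prod_eq_one fun x _ => by
      by_cases c : x = u <;> simp [c]]
    simp [g, hn]
  · obtain ⟨x, hx, h1⟩ : ∃ x, x ≠ u ∧ A x ≠ 0 := by
      by_contra c
      push Not at c
      rw [map_add, degree_eq_sum, Finset.sum_eq_single u (fun x _ => c x) (by simp)] at hd
      simp at hd
      omega
    rw [Finset.prod_eq_zero (Finset.mem_univ x) (by simp [hx, h1]), mul_zero]

theorem dl_lin (v w w' : σ → K) (k : ℕ) : dl K L b nx (lin v ^ k * lin w * lin w') =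
    ∑ u with L u, (k * v u ^ (k - 1) * v (b (nx u)) * w u * w' u +
      v u ^ k * (w (b (nx u)) * w' u + w u * w' (b (nx u)))) := by
  rw [dl_apply]
  refine Finset.sum_congr rfl fun u _ => ?_
  simp only [Derivation.leibniz, Derivation.leibniz_pow, pderiv_lin, smul_eq_mul, map_add, map_mul, map_pow,
    aeval_lin, aeval_C, nsmul_eq_mul, map_natCast, Algebra.algebraMap_self, RingHom.id_apply]
  ring

/-- the rank of the Hessian at a row of `M'` -/
theorem St.rank [CharP K p] (hp : 2 ≤ p) (S : St L b nx) (hn : Function.Injective nx)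
    (blk : ∀ u w, M u w ≠ 0 → (L u ↔ L w)) (inv : M * M' = 1) (adj : ∀ u w, M' u w = M (b w) (b u))
    (h : Inv L b nx M p 0) {u u' : σ} (hu : L u) (hu' : b (nx u') = u) (I : Finset σ) (hI : ∀ x ∈ I, L x)
    (hc : (if p = 2 then 4 else 3) ≤ I.card) :
    ∃ w : σ → K, (∃ x, w x ≠ 0) ∧ (∀ x ∉ I, w x = 0) ∧ ∀ y y', L y → L y' → b (nx y') = y →
      M' u y' ^ (p - 1) * w y' - M' u y ^ (p - 2) * M' u (b (nx y)) * w y +
        M' u y ^ (p - 1) * w (b (nx y)) = 0 := by
  let T : Finset σ := if p = 2 then {u, b (nx u), u'} else {u, b (nx u)}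
  have hT : T.card < I.card := by
    refine lt_of_lt_of_le ?_ hc
    simp only [T]
    split_ifs
    · exact Nat.lt_succ_of_le Finset.card_le_three
    · exact Nat.lt_succ_of_le Finset.card_le_two
  obtain ⟨c, hc1, hc0⟩ := Submodule.exists_mem_ne_zero_of_ne_bot (LinearMap.ker_ne_bot_of_finrank_lt
    (f := (M.submatrix ((↑) : I → σ) ((↑) : T → σ)).vecMulLinear) (by simpa using hT))
  let w : σ → K := fun x => if h : x ∈ I then c ⟨x, h⟩ else 0
  have w0 : ∀ x ∉ I, w x = 0 := fun x hx => dif_neg hx
  have wT : ∀ z ∈ T, (w ᵥ* M) z = 0 := fun z hz => by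
    have := congrFun (LinearMap.mem_ker.1 hc1) ⟨z, hz⟩
    rw [vecMul, dotProduct, ← Finset.sum_subset (Finset.subset_univ I) fun x _ hx => by rw [w0 x hx, zero_mul],
      ← Finset.sum_attach]
    simpa [w, vecMul, dotProduct] using this
  refine ⟨w, ?_, w0, fun y y' hy hy' e => ?_⟩
  · obtain ⟨x, hx⟩ := Function.ne_iff.1 hc0
    exact ⟨x, by simpa [w] using hx⟩
  have hom : IsWeightedHomogeneous (om L) (lin (M' u) ^ (p - 1) * lin w * lin (Pi.single y 1)) (p + 1, 0) := by
    have a : IsWeightedHomogeneous (om L) (lin (M' u)) (1, 0) := lin_hom fun x hx => by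
      have := blk _ _ (adj u x ▸ hx)
      rw [S.Lb, S.Lb, not_iff_not] at this
      exact if_pos (this.2 hu)
    have a2 : IsWeightedHomogeneous (om L) (lin w) (1, 0) := lin_hom fun x hx =>
      if_pos (hI x (by_contra fun c => hx (w0 x c)))
    have a3 : IsWeightedHomogeneous (om L) (lin (Pi.single y 1 : σ → K)) (1, 0) := lin_hom fun x hx => by
      obtain rfl : x = y := by_contra fun c => hx (Pi.single_eq_of_ne c _)
      exact if_pos hy
    convert ((a.pow (p - 1)).mul a2).mul a3 using 1
    simp only [Prod.smul_mk, smul_eq_mul, Prod.mk_add_mk, Prod.mk.injEq]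
    omega
  have k1 : dl K L b nx (sbm M (lin (M' u) ^ (p - 1) * lin w * lin (Pi.single y 1))) =
      dl K L b nx (lin (M' u) ^ (p - 1) * lin w * lin (Pi.single y 1)) :=
    ext_hom (μ := dl K L b nx ∘ₗ (sbm M).toLinearMap) (fun A hA => by
      have := h A (by simpa using hA)
      rw [S.nu_dl A hA, ext_hom S.nu_dl (hA ▸ sbm_hom blk A)] at this
      exact this) hom
  have e1 : M' u ᵥ* M = Pi.single u 1 := by
    ext x
    have inv' : M' * M = 1 := mul_eq_one_comm.1 inv
    have := congrFun (congrFun inv' u) x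
    rw [Matrix.one_apply] at this
    rw [Pi.single_apply, ← if_congr eq_comm rfl rfl, ← this]
    rfl
  rw [map_mul (sbm M), map_mul (sbm M), map_pow (sbm M), sbm_lin, sbm_lin, sbm_lin, e1, dl_lin, dl_lin,
    Finset.sum_eq_zero fun x _ => ?_] at k1
  · have t1 : ∀ x, b (nx x) = y ↔ x = y' := fun x => by rw [← e, S.inj, hn.eq_iff]
    simp only [mul_add, Finset.sum_add_distrib, Pi.single_apply, t1, mul_ite, mul_one, mul_zero,
      Finset.sum_ite_eq', Finset.mem_filter, Finset.mem_univ, true_and, hy, hy', if_true] at k1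
    rw [Nat.cast_sub (by omega), CharP.cast_eq_zero, show p - 1 - 1 = p - 2 by omega] at k1
    linear_combination -k1
  · have z1 := wT u (by simp only [T]; split_ifs <;> simp)
    have z2 := wT (b (nx u)) (by simp only [T]; split_ifs <;> simp)
    by_cases c : x = u
    · simp [c, z1, z2]
    rw [Pi.single_eq_of_ne c, zero_pow (n := p - 1) (by omega), zero_mul, add_zero]
    by_cases c2 : p = 2
    · by_cases c3 : b (nx x) = u
      · rw [← hu', S.inj, hn.eq_iff] at c3
        rw [c3, wT u' (by simp [T, c2]), mul_zero, zero_mul]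
      · simp [Pi.single_eq_of_ne c3]
    · rw [zero_pow (by omega)]
      simp

end CF.UsP.P4
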