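import Mathlib

/-! The Klein form: the rank of the Hessian at a vector with two non-zero entries. -/

set_option autoImplicit false

namespace CF.UsP.P4

variable {K : Type*} [Field K] {p : ℕ}

/-- a row of the Hessian -/
def Row (p : ℕ) (V W : ℤ → K) (k : ℤ) : Prop :=
  V (k - 1) ^ (p - 1) * W (k - 1) - V k ^ (p - 2) * V (k + 1) * W k + V k ^ (p - 1) * W (k + 1) = 0

/-- the local form of the rank bound -/
def Loc (p : ℕ) (V : ℤ → K) : Prop :=
  ∀ J : Finset ℤ, (∀ k ∈ J, -2 ≤ k ∧ k ≤ 4) → (if p = 2 then 4 else 3) ≤ J.card →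
    ∃ W : ℤ → K, (∃ k ∈ J, W k ≠ 0) ∧ (∀ k, -2 ≤ k → k ≤ 4 → k ∉ J → W k = 0) ∧ ∀ k, Row p V W k

theorem Row.next {V W : ℤ → K} {k : ℤ} (h : Row p V W k) (a : W (k - 1) = 0) (b : W k = 0)
    (c : V k ≠ 0) : W (k + 1) = 0 := by
  rw [Row, a, b] at h
  simpa [c] using h

theorem loc_odd (hp : 3 ≤ p) {V : ℤ → K} (h : Loc p V) (h0 : V 0 ≠ 0) (h1 : V 1 ≠ 0) : False := by
  by_cases h2 : V 2 = 0
  · obtain ⟨W, ⟨k, hk, hW⟩, z, r⟩ := h {0, 1, 2} (by simp) (by rw [if_neg (by omega)]; rfl)
    have a := z (-1) (by norm_num) (by norm_num) (by simp)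
    have w1 : W 1 = 0 := by
      have := r 2
      simp only [Row, h2, zero_pow (show p - 1 ≠ 0 by omega), zero_pow (show p - 2 ≠ 0 by omega)] at this
      norm_num at this
      exact this.resolve_left fun c => h1 c.1
    have w0 : W 0 = 0 := by
      have := r 0
      simp only [Row, zero_sub, zero_add, a, w1] at this
      simpa [h0, h1] using this
    have w2 : W 2 = 0 := (r 1).next w0 w1 h1
    simp only [Finset.mem_insert, Finset.mem_singleton] at hk
    rcases hk with rfl | rfl | rfl <;> contradiction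
  · obtain ⟨W, ⟨k, hk, hW⟩, z, r⟩ := h {1, 2, 3} (by simp) (by rw [if_neg (by omega)]; rfl)
    have a := z (-1) (by norm_num) (by norm_num) (by simp)
    have w0 := z 0 (by norm_num) (by norm_num) (by simp)
    have w1 : W 1 = 0 := (r 0).next a w0 h0
    have w2 : W 2 = 0 := (r 1).next w0 w1 h1
    have w3 : W 3 = 0 := (r 2).next w1 w2 h2
    simp only [Finset.mem_insert, Finset.mem_singleton] at hk
    rcases hk with rfl | rfl | rfl <;> contradiction

theorem loc_four {V : ℤ → K} (h : Loc p V) (h0 : V 0 ≠ 0) (h1 : V 1 ≠ 0) (h2 : V 2 ≠ 0)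
    (h3 : V 3 ≠ 0) : False := by
  obtain ⟨W, ⟨k, hk, hW⟩, z, r⟩ := h {1, 2, 3, 4} (by simp) (by split_ifs <;> decide)
  have a := z (-1) (by norm_num) (by norm_num) (by simp)
  have w0 := z 0 (by norm_num) (by norm_num) (by simp)
  have w1 : W 1 = 0 := (r 0).next a w0 h0
  have w2 : W 2 = 0 := (r 1).next w0 w1 h1
  have w3 : W 3 = 0 := (r 2).next w1 w2 h2
  have w4 : W 4 = 0 := (r 3).next w2 w3 h3
  simp only [Finset.mem_insert, Finset.mem_singleton] at hk
  rcases hk with rfl | rfl | rfl | rfl <;> contradiction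

theorem loc_start {V : ℤ → K} (h : Loc 2 V) (hm : V (-1) = 0) (h0 : V 0 ≠ 0) (h1 : V 1 ≠ 0) : False := by
  have st : ∀ W : ℤ → K, Row 2 V W (-1) → W (-2) = 0 → W (-1) = 0 := fun W r a => by
    simp only [Row] at r
    norm_num [a, hm] at r
    exact r.resolve_left h0
  by_cases h2 : V 2 = 0
  · by_cases h3 : V 3 = 0
    · obtain ⟨W, ⟨k, hk, hW⟩, z, r⟩ := h {-1, 0, 1, 2} (by simp) (by decide)
      have wm := st W (r _) (z _ (by norm_num) (by norm_num) (by simp))
      have w1 : W 1 = 0 := by
        have := r 2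
        simp only [Row] at this
        norm_num [h2, h3] at this
        exact this.resolve_left h1
      have w0 : W 0 = 0 := by
        have := r 0
        simp only [Row] at this
        norm_num [wm, w1] at this
        exact this.resolve_left h1
      have w2 : W 2 = 0 := (r 1).next w0 w1 h1
      simp only [Finset.mem_insert, Finset.mem_singleton] at hk
      rcases hk with rfl | rfl | rfl | rfl <;> contradiction
    · obtain ⟨W, ⟨k, hk, hW⟩, z, r⟩ := h {-1, 1, 2, 4} (by simp) (by decide)
      have wm := st W (r _) (z _ (by norm_num) (by norm_num) (by simp))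
      have w0 := z 0 (by norm_num) (by norm_num) (by simp)
      have w3 := z 3 (by norm_num) (by norm_num) (by simp)
      have w1 : W 1 = 0 := (r 0).next wm w0 h0
      have w2 : W 2 = 0 := (r 1).next w0 w1 h1
      have w4 : W 4 = 0 := (r 3).next w2 w3 h3
      simp only [Finset.mem_insert, Finset.mem_singleton] at hk
      rcases hk with rfl | rfl | rfl | rfl <;> contradiction
  · obtain ⟨W, ⟨k, hk, hW⟩, z, r⟩ := h {-1, 1, 2, 3} (by simp) (by decide)
    have wm := st W (r _) (z _ (by norm_num) (by norm_num) (by simp))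
    have w0 := z 0 (by norm_num) (by norm_num) (by simp)
    have w1 : W 1 = 0 := (r 0).next wm w0 h0
    have w2 : W 2 = 0 := (r 1).next w0 w1 h1
    have w3 : W 3 = 0 := (r 2).next w1 w2 h2
    simp only [Finset.mem_insert, Finset.mem_singleton] at hk
    rcases hk with rfl | rfl | rfl | rfl <;> contradiction

/-- the Hessian has rank at least `3` (`4` for `p = 2`) -/
theorem hess {G : Type*} [AddCommGroup G] [DecidableEq G] {t : G}
    (ht : ∀ k : ℤ, 0 < k → k < 7 → k • t ≠ 0) {L : G → Prop} (hL : ∀ x (k : ℤ), L x → L (x + k • t))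
    (hp : 2 ≤ p) {v : G → K} (hv : ∀ x, v x ≠ 0 → L x) {i j : G} (hi : v i ≠ 0) (hj : v j ≠ 0) (hij : i ≠ j)
    (H : ∀ I : Finset G, (∀ x ∈ I, L x) → (if p = 2 then 4 else 3) ≤ I.card →
      ∃ w : G → K, (∃ x, w x ≠ 0) ∧ (∀ x ∉ I, w x = 0) ∧ ∀ x, L x →
        v (x - t) ^ (p - 1) * w (x - t) - v x ^ (p - 2) * v (x + t) * w x + v x ^ (p - 1) * w (x + t) = 0) :
    False := by
  have inj : ∀ s (k l : ℤ), -2 ≤ k → k ≤ 4 → -2 ≤ l → l ≤ 4 → s + k • t = s + l • t → k = l := by
    intro s k l a b c d e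
    rw [add_right_inj] at e
    by_contra hne
    rcases lt_or_gt_of_ne hne with h | h
    · exact ht (l - k) (by omega) (by omega) (by rw [sub_smul, e, sub_self])
    · exact ht (k - l) (by omega) (by omega) (by rw [sub_smul, e, sub_self])
  have loc : ∀ s, L s → Loc p fun k : ℤ => v (s + k • t) := fun s hs J hJ hc => by
    obtain ⟨w, ⟨x, hx⟩, z, r⟩ := H (J.image fun k => s + k • t)
      (fun x hx => by obtain ⟨k, -, rfl⟩ := Finset.mem_image.1 hx; exact hL _ _ hs)
      (by rwa [Finset.card_image_of_injOn fun k a l b e =>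
        inj s k l (hJ k a).1 (hJ k a).2 (hJ l b).1 (hJ l b).2 e])
    refine ⟨fun k => w (s + k • t), ?_, fun k a b c => z _ fun d => ?_, fun k => ?_⟩
    · obtain ⟨k, a, rfl⟩ := Finset.mem_image.1 (by_contra fun c => hx (z x c))
      exact ⟨k, a, hx⟩
    · obtain ⟨l, a', e⟩ := Finset.mem_image.1 d
      exact c (inj s l k (hJ l a').1 (hJ l a').2 a b e ▸ a')
    · have := r _ (hL s k hs)
      simpa only [Row, sub_smul, add_smul, one_smul, add_sub_assoc, add_assoc] using this
  by_cases hn : ∃ s, v s ≠ 0 ∧ v (s + t) ≠ 0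
  · obtain ⟨s, h0, h1⟩ := hn
    by_cases h2 : p = 2
    · subst h2
      by_cases a : v (s - t) = 0
      · exact loc_start (loc s (hv s h0)) (by simpa [← sub_eq_add_neg] using a) (by simpa using h0)
          (by simpa using h1)
      by_cases b : v (s - t - t) = 0
      · exact loc_start (loc _ (hv _ a)) (by simpa [← sub_eq_add_neg] using b) (by simpa using a)
          (by simpa using h0)
      refine loc_four (loc _ (hv _ b)) (by simpa using b) (by simpa using a) ?_ ?_
      · rwa [show s - t - t + (2 : ℤ) • t = s by module]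
      · rwa [show s - t - t + (3 : ℤ) • t = s + t by module]
    · exact loc_odd (by omega) (loc s (hv s h0)) (by simpa using h0) (by simpa using h1)
  · have nb : ∀ s, v s ≠ 0 → v (s + t) = 0 := fun s a => by_contra fun b => hn ⟨s, a, b⟩
    have nb' : ∀ s, v s ≠ 0 → v (s - t) = 0 := fun s a => by_contra fun b => a (by simpa using nb _ b)
    have t0 : t ≠ 0 := by simpa using ht 1 (by norm_num) (by norm_num)
    have Lt : ∀ x, L x → L (x + t) := fun x a => by simpa using hL x 1 a
    have hc : ({i, j, i + t, j + t} : Finset G).card = 4 := by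
      have a : i ≠ j + t := fun e => hi (e ▸ nb j hj)
      have b : j ≠ i + t := fun e => hj (e ▸ nb i hi)
      rw [Finset.card_insert_of_notMem (by simp [hij, a, t0]),
        Finset.card_insert_of_notMem (by simp [b, t0]), Finset.card_pair (by simpa using hij)]
    obtain ⟨w, ⟨x, hx⟩, z, r⟩ := H {i, j, i + t, j + t} (by
      simp only [Finset.mem_insert, Finset.mem_singleton]
      rintro x (rfl | rfl | rfl | rfl)
      exacts [hv _ hi, hv _ hj, Lt _ (hv _ hi), Lt _ (hv _ hj)]) (by rw [hc]; split_ifs <;> omega)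
    have key : ∀ s, v s ≠ 0 → w (s + t) = 0 ∧ w s = 0 := fun s a => by
      have e1 := r s (hv s a)
      have e2 := r _ (Lt _ (hv s a))
      rw [nb s a, nb' s a, zero_pow (by omega)] at e1
      have e3 : w (s + t) = 0 := by simpa [a] using e1
      rw [e3, add_sub_cancel_right, nb s a, zero_pow (n := p - 1) (by omega)] at e2
      exact ⟨e3, by simpa [a] using e2⟩
    have := by_contra fun c => hx (z x c)
    simp only [Finset.mem_insert, Finset.mem_singleton] at this
    rcases this with rfl | rfl | rfl | rfl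
    exacts [hx (key _ hi).2, hx (key _ hj).2, hx (key _ hi).1, hx (key _ hj).1]

end CF.UsP.P4
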