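import Cfsg.Agent.Us.PA
import Cfsg.Agent.Us.P4b
import Cfsg.Agent.Us.P4c

/-! The Klein form: the case `q = p`, `d = 1`. -/

set_option autoImplicit false

namespace CF.UsP

open MvPolynomial CF.Sing.PA Finsupp

variable {K : Type*} [Field K] {p n : ℕ} [NeZero (2 * 1 * n)]

namespace P4

theorem bar_bar (u : Ix 1 n) : bar (bar u) = u := by
  have := ZMod.natCast_self (2 * 1 * n)
  simp only [bar]
  push_cast at this ⊢
  linear_combination this

theorem lv_n (hn : n = 7 ∨ n = 11) : lv ((1 * n : ℕ) : Ix 1 n) = 1 := by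
  rw [lv, map_natCast]
  rcases hn with rfl | rfl <;> decide

theorem st (hn : n = 7 ∨ n = 11) : St (fun u : Ix 1 n => lv u = 0) bar (· + 1) := by
  have a : ∀ x : ZMod (2 * 1), x + 1 = 0 ↔ ¬ x = 0 := by decide
  refine ⟨bar_bar, fun u => ?_, fun u => ?_, fun u => ?_⟩
  · rw [bar, lv, map_add, ← a]
    exact iff_of_eq (congrArg (fun x => lv u + x = 0) (lv_n hn))
  · rw [lv, map_add, map_one, a]
  · rw [bar, add_assoc, Ne, add_eq_left]
    rcases hn with rfl | rfl <;> decide

theorem jr_zero (hp : 2 ≤ p) {β j : Ix 1 n → ℤ} (h : Jr p 1 β j) (a : ∀ u, β (bar u) = - β u)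
    (b : ∀ u, |β u| < p) (u : Ix 1 n) : β u = 0 := by
  simp only [Jr, Nat.cast_one, one_mul] at h
  have hp' : (2 : ℤ) ≤ p := by exact_mod_cast hp
  obtain ⟨m, hm⟩ := Finite.exists_max fun u => |j u|
  have h1 : ∀ u, |j u| ≤ 1 := fun u => (hm u).trans (by
    have e := h (m - 1)
    rw [sub_add_cancel] at e
    have e2 : |p * j m| ≤ |j (m - 1)| + |β (m - 1)| := by
      rw [show p * j m = j (m - 1) - β (m - 1) by linarith]; exact abs_sub _ _
    rw [abs_mul, abs_of_nonneg (by omega : (0 : ℤ) ≤ p)] at e2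
    have := hm (m - 1)
    have := b (m - 1)
    by_contra c
    nlinarith)
  by_cases h0 : ∀ u, j u = 0
  · simpa [h0] using (h u).symm
  exfalso
  push Not at h0
  obtain ⟨x, hx⟩ := h0
  have dn : ∀ y, j (y + 1) = j x → j y = j x := fun y e => by
    have e1 := h y
    have e2 := abs_lt.1 (b y)
    have e3 := abs_le.1 (h1 y)
    have e4 := abs_le.1 (h1 x)
    rw [e] at e1
    rcases (by omega : j x = 1 ∨ j x = -1) with c | c <;> rw [c] at e1 ⊢ <;> omega
  have al : ∀ k : ℕ, j (x - k) = j x := fun k => by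
    induction k with
    | zero => simp
    | succ k ih => exact dn _ (by rw [← ih]; push_cast; ring_nf)
  have al' : ∀ y, j y = j x := fun y => by simpa using al (x - y).val
  have e1 := h x
  have e2 := h (bar x)
  rw [a, al', al' (bar x + 1)] at e2
  rw [al' (x + 1)] at e1
  have : j x * (p - 1) = 0 := by linarith
  rcases mul_eq_zero.1 this with c | c <;> omega

end P4

open P4

theorem klein [CharP K p] {M M' : Matrix (Ix 1 n) (Ix 1 n) K} {r : Ix 1 n}
    {Λ : Pl K 1 n →ₗ[K] K} (P : Par p 1 n 1) (F : Fr M M' r) (h : Fn p 1 M Λ)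
    (car : ∀ u Q, Λ (X u ^ p * Q) = Λ (X (u + 1) * Q)) {D : ℕ} (low : ∀ A, A.degree < D → Λ (mn A) = 0)
    (ki : ∀ a b A, lv a = lv b → a ≠ b → A.degree = D → Λ (ee a b (mn A)) = 0)
    {B : Ix 1 n →₀ ℕ} (hB : B.degree = D) (hΛ : Λ (mn B) ≠ 0) : D = 0 ∨ 2 * (n * (p - 1)) < D + 2 * p := by
  by_contra hc
  push Not at hc
  have S := st P.hn
  have hp := P.pp.two_le
  have car' : ∀ (A : Ix 1 n →₀ ℕ) u, Λ (mn (A + single u p)) = Λ (mn (A + single (u + 1) 1)) := fun A u => by
    have := car u (mn A)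
    rwa [X_pow_eq_monomial, X, monomial_mul, monomial_mul, one_mul, add_comm _ A, add_comm _ A] at this
  have sy : ∀ A : Ix 1 n →₀ ℕ, (∀ x, A x < p) → Λ (mn A) ≠ 0 → ∀ x, A x = A (bar x) := fun A hA hl x => by
    obtain ⟨j, hj⟩ := h.jr A hl
    have := jr_zero hp hj (fun u => by simp [bt, bar_bar]) (fun u => by
      have := hA u
      have := hA (bar u)
      rw [bt, abs_lt]
      omega) x
    rw [bt] at this
    omega
  have red : ∀ A : Ix 1 n →₀ ℕ, A.degree = D → Λ (mn A) ≠ 0 → ∀ x, A x < p := fun A hA hl x => by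
    by_contra c
    obtain ⟨A, rfl⟩ := ex_add (not_lt.1 c)
    exact hl (by rw [car', low _ (by simp at hA ⊢; omega)])
  have sB := sy B (red B hB hΛ) hΛ
  have gB : g K (fun u : Ix 1 n => lv u = 0) bar B ≠ 0 := by
    rw [g, if_pos fun x _ => sB x]
    exact Finset.prod_ne_zero_iff.2 fun x _ => (CharP.cast_eq_zero_iff K p _).not.2
      (P.pp.dvd_factorial.not.2 (red B hB hΛ x).not_ge)
  obtain ⟨a, ha⟩ : ∃ a, D = 2 * (a + 1) := by
    have h1 := om_deg (L := fun u : Ix 1 n => lv u = 0) B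
    have h2 := S.g_om gB
    exact ⟨D / 2 - 1, by omega⟩
  have lw := S.low (lam := fun A => Λ (mn A)) (fun A hA hl => sy A (red A hA hl) hl) (fun A a c La Lc ac hA => by
    have := ki a c (A + single a 1 + single (bar c) 1) (La.trans Lc.symm) ac (by simpa [add_assoc] using hA)
    rw [ee_apply, pderiv_monomial, pderiv_monomial, add_tsub_cancel_right, add_right_comm A,
      add_tsub_cancel_right, X, X, monomial_mul, monomial_mul, map_sub, mn_smul _ (_ * _), mn_smul _ (_ * _),
      map_smul, map_smul, sub_eq_zero] at this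
    convert this using 1
    · rw [add_comm (single c 1), add_right_comm A]
      simp [S.ne La Lc]
    · rw [add_comm (single (bar a) 1)]
      simp [(S.ne La Lc).symm]) hB hΛ (red B hB hΛ)
  have nx := S.next P.pp (lam := fun A => Λ (mn A)) (κ := Λ (mn B) / g K (fun u : Ix 1 n => lv u = 0) bar B)
    sy car' (a := a) fun A hA => by
      have := lw A (by omega)
      field_simp
      exact this
  have blk : ∀ u w, M u w ≠ 0 → (lv u = 0 ↔ lv w = 0) := fun u w e => by rw [F.blk u w e]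
  have top : Inv (fun u : Ix 1 n => lv u = 0) bar (· + 1) M p a := fun A hA => by
    have e := ext_hom (μ := Λ) (ν := (Λ (mn B) / g K (fun u : Ix 1 n => lv u = 0) bar B) •
      nu K (fun u : Ix 1 n => lv u = 0) bar (· + 1) p) (fun A hA => by
        rw [LinearMap.smul_apply, nu_mn]; exact nx A hA) (hA ▸ sbm_hom blk A)
    have e2 := nx A hA
    rw [← nu_mn] at e2
    exact mul_left_cancel₀ (div_ne_zero hΛ gB) (e.symm.trans ((h.inv _).trans e2))
  have dn : ∀ k, k ≤ a → Inv (fun u : Ix 1 n => lv u = 0) bar (· + 1) M p k →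
      Inv (fun u : Ix 1 n => lv u = 0) bar (· + 1) M p 0 := fun k => by
    induction k with
    | zero => exact fun _ => id
    | succ k ih =>
      refine fun hk i => ih (by omega) (S.down blk F.inv F.adj i ?_)
      rw [card_fib]
      omega
  obtain ⟨u, -, -, h1, h2⟩ := F.edge 0
  have blk' : ∀ x, M' u x ≠ 0 → (lv x = 0 ↔ lv u = 0) := fun x e => by
    have := blk _ _ (F.adj u x ▸ e)
    rwa [S.Lb, S.Lb, not_iff_not] at this
  have hu : lv u = 0 := (blk' 0 h1).1 (map_zero _)
  have ht : ∀ x : Ix 1 n, bar (x + 1) = x + (1 + ((1 * n : ℕ) : Ix 1 n)) := fun x => add_assoc _ _ _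
  have lt : lv (1 + ((1 * n : ℕ) : Ix 1 n)) = 0 := by
    have := (S.Lb _).2 fun c => (S.Ln 0).1 c (map_zero _)
    rwa [ht, zero_add] at this
  refine hess (t := (1 + ((1 * n : ℕ) : Ix 1 n))) (fun k a b => ?_) (L := fun u : Ix 1 n => lv u = 0)
    (fun x k hx => ?_) hp (v := M' u) (fun x hx => (blk' x hx).2 hu) h1 h2 (by simpa using F.r0.symm)
    fun I hI hc => ?_
  · rcases P.hn with rfl | rfl <;> interval_cases k <;> decide
  · change lev _ _ _ = 0 at hx lt ⊢
    rw [map_add, map_zsmul, hx, lt, smul_zero, add_zero]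
  · obtain ⟨w, a1, a2, a3⟩ := S.rank hp (add_left_injective 1) blk F.inv F.adj (dn a le_rfl top) hu
      (u' := u - (1 + ((1 * n : ℕ) : Ix 1 n))) (by rw [ht, sub_add_cancel]) I hI hc
    refine ⟨w, a1, a2, fun x hx => ?_⟩
    have := a3 x (x - (1 + ((1 * n : ℕ) : Ix 1 n))) hx (by
      change lev _ _ _ = 0 at hx lt ⊢
      rw [map_sub, hx, lt, sub_zero]) (by rw [ht, sub_add_cancel])
    rwa [ht] at this

end CF.UsP
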