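import Cfsg.Agent.Us.P3a
import Cfsg.Agent.Us.P4

/-! Only `q + 1` multidegrees survive. -/

set_option autoImplicit false

namespace CF.UsP

open MvPolynomial CF.Sing.PA Finsupp

variable {K : Type*} [Field K] {p e n d D : ℕ} [NeZero (2 * e * n)]
  {M M' : Matrix (Ix e n) (Ix e n) K} {r a b u v : Ix e n} {Λ : Pl K e n →ₗ[K] K} {A B B' C : Ix e n →₀ ℕ}
  {β j : Ix e n → ℤ} {t : ZMod (2 * e)}

namespace P3

theorem sum_bt (P : Par p e n d) (B : Ix e n →₀ ℕ) (t : ZMod (2 * e)) :
    ∑ u with lv u = t, bt B u = W B t - W B (t + (e : ℕ)) := by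
  simp only [bt, Finset.sum_sub_distrib, W_eq, Nat.cast_sum, sub_right_inj]
  exact Finset.sum_nbij' bar bar (fun u => by simp +contextual [P.lv_bar]) (fun u h => by
    simp only [Finset.mem_filter, Finset.mem_univ, true_and] at h ⊢
    exact add_right_cancel ((P.lv_bar _).symm.trans ((bar_bar u).symm ▸ h))) (fun u _ => bar_bar u) (fun u _ => bar_bar u)
    fun _ _ => rfl

theorem W_bar (P : Par p e n d) (h : bt B = 0) (t : ZMod (2 * e)) : W B (t + (e : ℕ)) = W B t := by
  have := sum_bt P B t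
  simp only [h, Pi.zero_apply, Finset.sum_const_zero] at this
  omega

theorem sum_ep (v : Ix e n) (t : ZMod (2 * e)) :
    ∑ u with lv u = t, ep v u = (if lv v = t then 1 else 0) - if lv (bar v) = t then 1 else 0 := by
  simp [ep, bar_eq]

theorem cases_t (P : Par p e n d) (t : ZMod (2 * e)) : ∃ s : Fin e, t = (s : ℕ) ∨ t = (s : ℕ) + (e : ℕ) := by
  have : NeZero (2 * e) := ⟨by have := P.e0; omega⟩
  have := t.val_lt
  by_cases h : t.val < e
  · exact ⟨⟨_, h⟩, .inl (by simp)⟩
  · exact ⟨⟨t.val - e, by omega⟩, .inr (by rw [← Nat.cast_add, Nat.sub_add_cancel (by omega)]; simp)⟩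

theorem W_test (P : Par p e n d) (i : Fin e → Fin p) (s : Fin e) : W (test n p i) (s : ℕ) + i s = n * (p - 1) := by
  have k : ∀ u : Ix e n, lv u = (s : ℕ) → ∀ s' : Fin e, (u = (s' : ℕ) ∨ bar u = (s' : ℕ)) ↔ (s' = s ∧ u = (s : ℕ)) := fun u l s' => by
    have := s.2
    have := s'.2
    refine ⟨fun h => h.elim (fun h => ?_) fun h => ?_, fun h => .inl (h.1 ▸ h.2)⟩
    · rw [h, lv, map_natCast, ZMod.natCast_eq_natCast_iff', Nat.mod_eq_of_lt (by omega), Nat.mod_eq_of_lt (by omega)] at l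
      exact ⟨Fin.ext l, l ▸ h⟩
    · have := P.lv_bar u
      rw [h, l, lv, map_natCast, ← Nat.cast_add, ZMod.natCast_eq_natCast_iff', Nat.mod_eq_of_lt (by omega),
        Nat.mod_eq_of_lt (by omega)] at this
      omega
  have m : ((s : ℕ) : Ix e n) ∈ ({u | lv u = (s : ℕ)} : Finset _) := by simp
  rw [W_eq, ← Finset.sum_ite_eq_of_mem' _ _ (fun _ => (i s : ℕ)) m, ← Finset.sum_add_distrib,
    Finset.sum_const_nat (m := p - 1), card_fib]
  intro u hu
  have := (i s).2
  simp only [test, equivFunOnFinite_symm_apply_apply, k u (Finset.mem_filter.1 hu).2, ite_and, Finset.sum_ite_eq',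
    Finset.mem_univ, if_true]
  split_ifs <;> omega

theorem bar_succ (P : Par p e n d) (a : Ix e n) : a ≠ bar (a + 1) := fun h => by
  have : ((1 + e * n : ℕ) : Ix e n) = 0 := by rw [bar, add_assoc, left_eq_add] at h; exact_mod_cast h
  have := Nat.le_of_dvd (by omega) ((ZMod.natCast_eq_zero_iff _ _).1 this)
  have := Nat.mul_le_mul (Nat.pos_of_ne_zero P.e0) (show 7 ≤ n by have := P.hn; omega)
  rw [mul_assoc] at *
  omega

theorem jr_carry (h : Jr p d (bt (C + single (u + 1) 1)) j) : Jr p d (bt (C + single u p)) (j - (d : ℤ) • ep (u + 1)) :=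
  fun v => by
    have := h v
    simp only [bt_add, bt_single, Pi.add_apply, Pi.sub_apply, Pi.smul_apply, smul_eq_mul, ep_succ] at this ⊢
    rw [this]; push_cast; ring

theorem ne_succ (P : Par p e n d) (l : lv v = lv u) : v ≠ u + 1 := fun h => P.lv_succ_ne u (h ▸ l)

theorem ne_bar_succ (P : Par p e n d) (e1 : e ≠ 1) (l : lv v = lv u) : bar v ≠ u + 1 := fun h =>
  e1 ((P.lv_succ_bar u).1 (h ▸ lv_bar l))

theorem ep_succ_left (P : Par p e n d) (e1 : e ≠ 1) (l : lv v = lv u) : ep (u + 1) v = 0 := by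
  simp [ep, ne_succ P l, ne_bar_succ P e1 l]

theorem ep_succ_right (P : Par p e n d) (e1 : e ≠ 1) (l : lv v = lv u) : ep v (u + 1) = 0 := by
  simp [ep, bar_eq, (ne_succ P l).symm, (ne_bar_succ P e1 l).symm]

namespace Ct

variable [CharP K p] (c : Ct p d D M M' r Λ)
include c

theorem test_ne (s : Sp Λ D B) (h : ∀ t, n * (p - 1) < W B t + p) : ∃ i : Fin e → Fin p, Λ (mn (test n p i)) ≠ 0 := by
  have p2 := c.p2
  have k : ∀ a, bt B a ≤ 0 := fun a => not_lt.1 fun k => by
    have := h (lv (bar a))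
    rw [W_eq, Finset.sum_eq_zero fun u hu => by
      simpa [bar_bar] using (c.typ s k (b := bar u) (by simpa [bar_bar] using (lv_bar (Finset.mem_filter.1 hu).2).symm)).2] at this
    have := Nat.mul_le_mul_right (p - 1) c.n7
    omega
  have z : bt B = 0 := funext fun a => le_antisymm (k a) (by simpa [bt_bar] using k (bar a))
  have le : ∀ t, W B t ≤ n * (p - 1) := fun t => by
    rw [W_eq]
    exact (Finset.sum_le_card_nsmul _ _ _ fun u _ => Nat.le_sub_one_of_lt (c.red s u)).trans_eq (by rw [card_fib]; rfl)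
  let i : Fin e → Fin p := fun s => ⟨n * (p - 1) - W B (s : ℕ), by have := h (s : ℕ); omega⟩
  have z' : bt (test n p i) = 0 := funext fun a => by simp [bt, test, bar_bar, or_comm]
  have w : ∀ s : Fin e, W B (s : ℕ) = W (test n p i) (s : ℕ) := fun s => by
    have := W_test c.P i s
    have := le (s : ℕ)
    simp only [i] at *
    omega
  refine ⟨i, (c.conn (fun u => ?_) _ B rfl s (funext fun t => ?_) (z.trans z'.symm)).2⟩
  · simp only [test, equivFunOnFinite_symm_apply_apply]; omega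
  · obtain ⟨s, rfl | rfl⟩ := cases_t c.P t
    exacts [w s, by rw [W_bar c.P z, W_bar c.P z', w]]

omit [CharP K p] in
theorem spare (h : W B (lv a) + p ≤ n * (p - 1)) : ∃ a', lv a' = lv a ∧ a' ≠ a ∧ B a' + 1 < p := by
  by_contra! k
  have m : a ∈ ({u | lv u = lv a} : Finset _) := by simp
  have := Finset.card_nsmul_le_sum (({u | lv u = lv a} : Finset _).erase a) (fun u => B u) (p - 1) fun u hu => by
    have := k u (Finset.mem_filter.1 (Finset.mem_of_mem_erase hu)).2 (Finset.ne_of_mem_erase hu)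
    omega
  rw [W_eq, ← Finset.sum_erase_add _ _ m] at h
  rw [Finset.card_erase_of_mem m, card_fib, smul_eq_mul, Nat.sub_one_mul] at this
  have := c.p2
  omega

theorem prep (l : lv b = lv a) (ab : a ≠ b) (hb : b ≠ bar (a + 1)) (s : Sp Λ D B) (h : W B (lv a) + p ≤ n * (p - 1))
    (h' : W B (lv (a + 1)) ≠ 0) : ∃ C, Sp Λ D (C + single (a + 1) 1) ∧ C a = 0 ∧ C b + 1 < p := by
  have p2 := c.p2
  obtain ⟨A, s, w, h0⟩ : ∃ A, Sp Λ D A ∧ W A = W B ∧ A a = 0 := by
    generalize hm : B a = m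
    induction m generalizing B with
    | zero => exact ⟨B, s, rfl, hm⟩
    | succ m ih =>
      obtain ⟨a', l, k1, k2⟩ := c.spare h
      obtain ⟨B', s', m⟩ := c.mv l s k1 (by omega) k2
      have := (mv_val c.P l k1 m).1
      rw [← mv_W l m] at h h' ⊢
      exact ih s' h h' (by omega)
  rw [← w] at h h'
  obtain ⟨A, s, h', h0, h1⟩ : ∃ A, Sp Λ D A ∧ W A (lv (a + 1)) ≠ 0 ∧ A a = 0 ∧ A b + 1 < p := by
    by_cases k : A b + 1 < p
    · exact ⟨A, s, h', h0, k⟩
    obtain ⟨a', l', k1, k2⟩ := c.spare h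
    have k3 : a' ≠ b := fun e => k (e ▸ k2)
    obtain ⟨B', s', m⟩ := c.mv (l'.trans l.symm) s k3 (by omega) k2
    obtain ⟨m1, m2, -⟩ := mv_val c.P (l'.trans l.symm) k3 m
    have := m2 a k1.symm (ne_bar c.P l'.symm)
    have := c.red s b
    exact ⟨B', s', mv_W (l'.trans l.symm) m ▸ h', by omega, by omega⟩
  obtain ⟨A, s, h0, h1, h2⟩ : ∃ A, Sp Λ D A ∧ A a = 0 ∧ A b + 1 < p ∧ 1 ≤ A (a + 1) := by
    by_cases k : 1 ≤ A (a + 1)
    · exact ⟨A, s, h0, h1, k⟩
    obtain ⟨v, k1, k2⟩ := Finset.exists_ne_zero_of_sum_ne_zero (W_eq A _ ▸ h')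
    have k3 : a + 1 ≠ v := by rintro rfl; omega
    have l' := (Finset.mem_filter.1 k1).2.symm
    obtain ⟨B', s', m⟩ := c.mv l' s k3 (by omega) (by omega)
    obtain ⟨m1, m2, -⟩ := mv_val c.P l' k3 m
    have := m2 a (ne_succ c.P rfl) (bar_succ c.P a)
    have := m2 b (ne_succ c.P l) hb
    exact ⟨B', s', by omega, by omega, by omega⟩
  obtain ⟨C, rfl⟩ := split h2
  simp only [Finsupp.add_apply] at h0 h1
  exact ⟨C, s, by omega, by omega⟩

theorem fin (l : lv b = lv a) (ab : a ≠ b) (hb : b ≠ bar (a + 1)) (s : Sp Λ D (C + single (a + 1) 1)) (h0 : C a = 0)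
    (h1 : C b + 1 < p) : Λ (ee b a (mn (C + single a (p - 1) + single b 1))) ≠ 0 := by
  have p2 := c.p2
  have n7 := c.n7
  have b1 := ne_bar (a := a) c.P rfl
  have b2 := ne_bar c.P l
  have b3 := ne_bar c.P l.symm
  have b4 : a + 1 ≠ bar a := fun h => bar_succ c.P a (bar_eq.2 h).symm
  have b5 : a + 1 ≠ bar b := fun h => hb (bar_eq.2 h).symm
  rw [ee_mn, add_tsub_cancel_right, add_assoc C (single a _) (single a _), ← single_add, Nat.sub_add_cancel (by omega), map_sub,
    map_smul, map_smul, c.carry]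
  suffices k : C (bar a) ≠ 0 → Λ (mn (C + single a (p - 1) + single b 1 - single (bar a) 1 + single (bar b) 1)) = 0 by
    rw [smul_eq_zero.2 ((eq_or_ne (C (bar a)) 0).imp (fun h => by simp [h, single_apply, b1, b2]) k), sub_zero]
    exact smul_ne_zero (mt (CharP.cast_eq_zero_iff K p _).1 fun k => by
      have := Nat.le_of_dvd (by simp) k
      simp [ab.symm] at this; omega) s.2
  intro k
  have ty := fun v (l : lv v = lv a) => c.typ s (a := bar a) (b := bar v) (by
    simp [bt, bar_bar, h0, single_apply, b4, (ne_succ c.P rfl).symm]; omega) (lv_bar l.symm)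
  obtain ⟨E, rfl⟩ := split (Nat.pos_of_ne_zero k)
  obtain ⟨G, rfl⟩ := split (B := E) (u := bar b) (k := p - 1) (by
    have := (ty b l).1
    simp [single_apply, b5, bar_inj, ab] at this; omega)
  rw [show G + single (bar b) (p - 1) + single (bar a) 1 + single a (p - 1) + single b 1 =
    G + single a (p - 1) + single b 1 + single (bar b) (p - 1) + single (bar a) 1 by abel, add_tsub_cancel_right, add_assoc,
    ← single_add, Nat.sub_add_cancel (by omega), c.carry]
  by_contra g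
  replace g : Sp Λ D _ := ⟨by simp only [← s.1, map_add, degree_single], g⟩
  obtain ⟨v, l', hv⟩ := exists_notMem (lv a) (s := {a, b, bar b + 1}) (Finset.card_le_three.trans_lt (by omega))
  simp only [Finset.mem_insert, Finset.mem_singleton, not_or] at hv
  have k1 := (ty a rfl).1
  have k2 := (ty v l').2
  have k3 := (c.typ g (a := a) (by
    simp only [bt, Finsupp.add_apply, single_apply, b1, b2, bar_inj, ab.symm, b4, ← bar_add, (ne_succ c.P l.symm).symm,
      if_true, if_false] at k1 ⊢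
    omega) l'.symm).1
  simp only [bar_bar, Finsupp.add_apply, single_eq_of_ne hv.1, single_eq_of_ne hv.2.1, single_eq_of_ne hv.2.2] at k2 k3
  omega

omit [CharP K p] in
theorem two (s : Sp Λ D (C + single (a + 1) 1)) (h : pj Λ (W (C + single a (p - 1) + single b 1)) (mn B) ≠ 0) :
    (∀ u, B u < p) ∨ ∃ G u, B = G + single u p ∧ Sp Λ D (G + single (u + 1) 1) := by
  refine or_iff_not_imp_left.2 fun k => ?_
  obtain ⟨u, k⟩ := not_forall.1 k
  obtain ⟨G, rfl⟩ := split (not_lt.1 k)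
  refine ⟨G, u, rfl, ?_, c.carry G u ▸ (pj_ne h).2⟩
  have := deg_eq (pj_ne h).1
  have := c.p2
  simp only [← s.1, map_add, degree_single] at *; omega

end Ct

variable [CharP K p]

theorem Ct.killN (c : Ct p n D M M' r Λ) (l : lv b = lv a) (ab : a = b + r ∨ b = a + r) (hb : b ≠ bar (a + 1))
    (s : Sp Λ D (C + single (a + 1) 1)) : Λ (ee b a (mn (C + single a (p - 1) + single b 1))) = 0 := by
  obtain ⟨j, hj⟩ := c.h.jr _ s.2
  refine (pj_self l).symm.trans (edgeN c.P c.F (c.h.pj c.F _) (fun B j h hj a b l => ?_) ab (j := j - (n : ℤ) • ep (a + 1)) ?_ ?_)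
  · rcases c.two s h with k | ⟨G, u, rfl, k⟩
    · exact tri c.P.hn (c.jlt k hj a) (c.jlt k hj b) (hj.cong c.P l)
    obtain ⟨i, hi⟩ := c.h.jr _ k.2
    have h1 := ne_bar c.P l
    have h2 := ne_bar c.P l.symm
    simp only [hj.uniq c.p2 (jr_carry hi), Pi.sub_apply, Pi.smul_apply, c.jc k hi l, ep, smul_eq_mul]
    split_ifs <;> simp_all
  · convert jr_carry hj using 1
    simp only [bt_add, bt_single, rt_eq, Nat.cast_sub c.P.pp.one_le]
    module
  · simp [c.jc s hj l, ep, ne_succ c.P l, ne_succ c.P rfl, bar_eq, hb, bar_succ c.P a]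

theorem Ct.kill1 (c : Ct p 1 D M M' r Λ) (e1 : e ≠ 1) (l : lv b = lv a) (ab : a ≠ b)
    (s : Sp Λ D (C + single (a + 1) 1)) : Λ (ee b a (mn (C + single a (p - 1) + single b 1))) = 0 := by
  have p2 := c.p2
  have z : ∀ {G u}, Sp Λ D (G + single (u + 1) 1) → bt G = - ep (u + 1) := fun s => by
    simpa [bt_add, bt_single, add_eq_zero_iff_eq_neg] using c.bt0 (c.red s) s.2
  have key : ∀ B, pj Λ (W (C + single a (p - 1) + single b 1)) (mn B) ≠ 0 →
      ∃ u, lv u = lv a ∧ bt B = (p : ℤ) • ep u - ep (u + 1) := fun B h => by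
    have k := sum_bt c.P B (lv a)
    rw [(pj_ne h).1, ← sum_bt c.P] at k
    simp only [bt_add, bt_single, z s, Pi.add_apply, Pi.smul_apply, Pi.neg_apply, smul_eq_mul, Finset.sum_add_distrib,
      Finset.sum_neg_distrib, ← Finset.mul_sum, sum_ep, l, lv_bar l, c.P.lv_bar_ne, c.P.lv_succ_ne, if_true, if_false,
      if_neg fun k : lv (bar (a + 1)) = lv a => ne_bar_succ c.P e1 k (bar_bar _)] at k
    rcases c.two s h with g | ⟨G, u, rfl, g⟩
    · simp [c.bt0 g (pj_ne h).2] at k; omega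
    refine ⟨u, by_contra fun g' => ?_, by rw [bt_add, bt_single, z g]; abel⟩
    simp only [bt_add, bt_single, z g, Pi.add_apply, Pi.smul_apply, Pi.neg_apply, smul_eq_mul, Finset.sum_add_distrib,
      Finset.sum_neg_distrib, ← Finset.mul_sum, sum_ep, g', if_false] at k
    split_ifs at k <;> omega
  refine (pj_self l).symm.trans (c.P.all c.F.r0 c.F.rl (fun a' l' => edge1 c.P c.F (c.h.pj c.F _) (fun B h v l => ?_)
    (fun B B' h h' a b a' b' l1 l2 l3 l4 ab g => ?_) l') l rfl ab.symm _)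
  · obtain ⟨u, k, k'⟩ := key B h
    simp [k', ep_succ_left c.P e1 (l.trans k.symm)]
  · obtain ⟨u, k, k1⟩ := key B h
    obtain ⟨u', k', k2⟩ := key B' h'
    obtain rfl : u = u' := by
      have := congrFun g (u + 1)
      simp only [k1, k2, rt_eq, Pi.sub_apply, Pi.smul_apply, ep_succ, ep_succ_right c.P e1 rfl, ep_succ_right c.P e1 (k'.trans k.symm),
        ep_succ_right c.P e1 (l1.trans k.symm), ep_succ_right c.P e1 (l2.trans k.symm), ep_succ_right c.P e1 (l3.trans k.symm),
        ep_succ_right c.P e1 (l4.trans k.symm)] at this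
      by_contra ne
      simp [ep, ne, (ne_bar (a := u) c.P rfl).symm, (ne_bar c.P (k'.trans k.symm)).symm] at this
    rw [k1, k2, sub_self] at g
    exact rt_inj c.P (l2.trans l1.symm) (l3.trans l1.symm) (l4.trans l1.symm) ab (sub_eq_zero.1 g.symm)

end P3

open P3

theorem zero [CharP K p] (P : Par p e n d) (F : Fr M M' r) (h : Fn p d M Λ)
    (car : ∀ u Q, Λ (X u ^ p * Q) = Λ (X (u + 1) * Q)) (h0 : Λ 1 = 0)
    (h1 : ∀ i : Fin e → Fin p, Λ (mn (test n p i)) = 0) : Λ = 0 := by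
  by_contra ne
  obtain ⟨B, b1, b2⟩ := (measure fun A : Ix e n →₀ ℕ => A.degree).wf.has_min {A | Λ (mn A) ≠ 0} (by
    by_contra k
    exact ne (LinearMap.ext (ext0 (f := .id) fun A => by_contra fun g => k ⟨A, g⟩)))
  have c : Ct p d B.degree M M' r Λ := ⟨P, F, h, car, fun A g => by_contra fun k => b2 A k g⟩
  have s : Sp Λ B.degree B := ⟨rfl, b1⟩
  have B0 : B ≠ 0 := by rintro rfl; exact b1 h0
  have : NeZero (2 * e) := ⟨by have := P.e0; omega⟩
  obtain ⟨t, t1, t2⟩ : ∃ t, W B t + p ≤ n * (p - 1) ∧ W B (t + 1) ≠ 0 := by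
    by_contra! k
    obtain ⟨t, ht⟩ : ∃ t, W B t + p ≤ n * (p - 1) := by
      by_contra! g
      obtain ⟨i, hi⟩ := c.test_ne s g
      exact hi (h1 i)
    have : ∀ m : ℕ, W B (t + m + 1) = 0 := fun m => by
      induction m with
      | zero => simpa using k t ht
      | succ m ih => exact k _ (by rw [Nat.cast_succ, ← add_assoc, ih]; omega)
    refine B0 ((degree_eq_zero_iff B).1 ((deg_eq (B := 0) (funext fun t' => ?_)).trans (map_zero _)))
    simpa using this (t' - 1 - t).val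
  by_cases k : d = 1 ∧ e = 1
  · obtain ⟨rfl, rfl⟩ := k
    have := klein P F h car c.low (fun a b A l ab g => c.ki l ab g) rfl b1
    have g := W_bar P (c.bt0 (c.red s) b1) t
    have k1 : ∀ t : ZMod (2 * 1), t ≠ t + (1 : ℕ) := by decide
    have k2 : ∀ t c : ZMod (2 * 1), c ≠ t → c = t + (1 : ℕ) := by decide
    rw [(degree_eq_zero_iff B).not.2 B0 |> eq_false, false_or, degree_eq, Finset.sum_eq_add t (t + (1 : ℕ))
      (k1 t) (fun c _ g => absurd (k2 t c g.1) g.2) (by simp) (by simp)] at this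
    simp only [W] at g t1
    omega
  obtain ⟨a, rfl, -⟩ := exists_notMem (n := n) t (s := ∅) (by have := c.n7; simp; omega)
  obtain ⟨b, ab, hb⟩ : ∃ b, (a = b + r ∨ b = a + r) ∧ b ≠ bar (a + 1) := by
    by_cases g : a + r = bar (a + 1)
    · refine ⟨a - r, .inl (by simp), fun g' => ?_⟩
      have := Nat.le_of_dvd two_pos ((P.smul_eq_zero F.r0 F.rl (k := 2)).1 (by rw [two_nsmul]; linear_combination g - g'))
      have := c.n7
      omega
    · exact ⟨_, .inr rfl, g⟩
  have l : lv b = lv a := by rcases ab with rfl | rfl <;> simp [F.rl]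
  have ne : a ≠ b := by rintro rfl; simp [F.r0] at ab
  obtain ⟨C, s, c1, c2⟩ := c.prep l ne hb s t1 (by simpa using t2)
  refine c.fin l ne hb s c1 c2 ?_
  rcases P.hd with rfl | ⟨rfl, -⟩
  exacts [c.kill1 (fun g => k ⟨rfl, g⟩) l ne s, c.killN l ab hb s]

end CF.UsP
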