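import Cfsg.Agent.Us.P1
import Cfsg.Agent.Us.P2a
import Cfsg.Agent.Us.P2b

/-! The lowest form of an invariant functional: moves and types. -/

set_option autoImplicit false

namespace CF.UsP.P3

open MvPolynomial CF.Sing.PA Finsupp

variable {K : Type*} [Field K] {p e n d D : ℕ} [NeZero (2 * e * n)]
  {M M' : Matrix (Ix e n) (Ix e n) K} {r a b u : Ix e n} {Λ : Pl K e n →ₗ[K] K} {A B B' C : Ix e n →₀ ℕ}
  {β j : Ix e n → ℤ}

/-- the weight of a variable -/
def ep (a u : Ix e n) : ℤ := (if u = a then 1 else 0) - if bar u = a then 1 else 0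

theorem bar_eq : bar u = a ↔ u = bar a := ⟨fun h => h ▸ (bar_bar u).symm, fun h => h ▸ bar_bar a⟩

theorem bar_inj : bar u = bar a ↔ u = a := by rw [bar_eq, bar_bar]

omit [NeZero (2 * e * n)] in
theorem rt_eq (a b : Ix e n) : rt a b = ep b - ep a := funext fun u => by simp only [rt, ep, Pi.sub_apply]; ring

omit [NeZero (2 * e * n)] in
theorem bt_add (A B : Ix e n →₀ ℕ) : bt (A + B) = bt A + bt B := funext fun u => by simp [bt]; ring

omit [NeZero (2 * e * n)] in
theorem bt_single (a : Ix e n) (k : ℕ) : bt (single a k) = (k : ℤ) • ep a := funext fun u => by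
  simp [bt, ep, single_apply, mul_sub, @eq_comm _ a]

theorem ep_bar (a : Ix e n) : ep (bar a) = - ep a := funext fun u => by simp [ep, bar_inj, bar_eq, bar_bar]

theorem ep_succ (a u : Ix e n) : ep (a + 1) (u + 1) = ep a u := by simp [ep, bar_add]

/-- `X a * X (bar a)` -/
noncomputable def y (a : Ix e n) : Ix e n →₀ ℕ := single a 1 + single (bar a) 1

theorem y_bar (a : Ix e n) : y (bar a) = y a := by rw [y, y, bar_bar, add_comm]

theorem bt_y (a : Ix e n) : bt (y a) = 0 := by simp [y, bt_add, bt_single, ep_bar]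

/-- multidegree -/
noncomputable abbrev W (A : Ix e n →₀ ℕ) : ZMod (2 * e) → ℕ := weight (wt (2 * e) n) A

theorem deg_eq (h : W A = W B) : A.degree = B.degree := by
  rw [degree_eq, degree_eq]; exact Finset.sum_congr rfl fun s _ => congrFun h s

theorem W_eq (A : Ix e n →₀ ℕ) (t : ZMod (2 * e)) : W A t = ∑ u with lv u = t, A u := weight_wt A t

omit [NeZero (2 * e * n)] in
theorem lv_add (a b : Ix e n) : lv (a + b) = lv a + lv b := map_add _ a b

omit [NeZero (2 * e * n)] in
theorem split {k : ℕ} (h : k ≤ B u) : ∃ C, B = C + single u k := ⟨_, (tsub_add_cancel_of_le (single_le_iff.2 h)).symm⟩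

omit [NeZero (2 * e * n)] in
theorem lv_bar (h : lv a = lv b) : lv (bar a) = lv (bar b) := by simp [bar, h]

omit [NeZero (2 * e * n)] in
theorem W_single (a : Ix e n) (k : ℕ) : W (single a k) = Pi.single (lv a) k := by
  rw [W, weight_single, wt, ← Pi.single_smul, smul_eq_mul, mul_one]

theorem mv_bt (h : B' + y b = B + y a) : bt B' = bt B := by simpa [bt_add, bt_y] using congrArg bt h

omit [NeZero (2 * e * n)] in
theorem mv_W (l : lv a = lv b) (h : B' + y b = B + y a) : W B' = W B := by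
  have := congrArg W h
  simpa only [y, map_add, W_single, l, lv_bar l, add_left_inj] using this

theorem ne_bar (P : Par p e n d) (l : lv a = lv b) : a ≠ bar b := fun k => P.lv_bar_ne b (k ▸ l)

theorem mv_val (P : Par p e n d) (l : lv a = lv b) (ab : a ≠ b) (h : B' + y b = B + y a) :
    (B' b + 1 = B b ∧ B' (bar b) + 1 = B (bar b) ∧ B' a = B a + 1 ∧ B' (bar a) = B (bar a) + 1) ∧
      (∀ u, u ≠ a → u ≠ bar a → B' u ≤ B u) ∧ ∀ u, u ≠ b → u ≠ bar b → B u ≤ B' u := by
  have k := fun u => DFunLike.congr_fun h u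
  have h1 := ne_bar P l
  have h2 := ne_bar P l.symm
  have h3 := ne_bar (a := a) P rfl
  have h4 := ne_bar (a := b) P rfl
  refine ⟨⟨?_, ?_, ?_, ?_⟩, fun u c c' => ?_, fun u c c' => ?_⟩
  · simpa [y, single_apply, ab, h2.symm, h4.symm] using k b
  · simpa [y, single_apply, bar_inj, ab, h1, h4] using k (bar b)
  · simpa [y, single_apply, ab.symm, h1.symm, h3.symm] using k a
  · simpa [y, single_apply, bar_inj, ab.symm, h2, h3] using k (bar a)
  · have := k u
    simp only [y, Finsupp.add_apply, single_eq_of_ne c, single_eq_of_ne c'] at this; omega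
  · have := k u
    simp only [y, Finsupp.add_apply, single_eq_of_ne c, single_eq_of_ne c'] at this; omega

theorem rt_inj (P : Par p e n d) {a' b' : Ix e n} (h1 : lv b = lv a) (h2 : lv a' = lv a) (h3 : lv b' = lv a) (ab : a ≠ b)
    (h : rt a b = rt a' b') : a = a' ∧ b = b' := by
  have k1 := congrFun h a
  have k2 := congrFun h b
  simp only [rt, (ne_bar P h1).symm, (ne_bar P h2).symm, (ne_bar P h3).symm, (ne_bar P h1.symm).symm, (ne_bar (a := a) P rfl).symm,
    (ne_bar (a := b) P rfl).symm, (ne_bar P (h2.trans h1.symm)).symm, (ne_bar P (h3.trans h1.symm)).symm, ab, ab.symm, if_true,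
    if_false] at k1 k2
  constructor <;> by_contra c <;> simp only [c, if_false] at k1 k2 <;> split_ifs at k1 k2 <;> omega

theorem exists_notMem (t : ZMod (2 * e)) {s : Finset (Ix e n)} (h : s.card < n) : ∃ u, lv u = t ∧ u ∉ s := by
  simpa using Finset.exists_mem_notMem_of_card_lt_card (h.trans_eq (card_fib t).symm)

theorem pj_ne {w : ZMod (2 * e) → ℕ} (h : pj Λ w (mn C) ≠ 0) : W C = w ∧ Λ (mn C) ≠ 0 := by
  rw [pj_mn] at h
  split_ifs at h with k
  exacts [⟨k, h⟩, absurd rfl h]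

theorem pj_self (l : lv a = lv b) : pj Λ (W A) (ee a b (mn A)) = Λ (ee a b (mn A)) := (pj_ee l _ _).trans (if_pos rfl)

omit [NeZero (2 * e * n)] in
theorem ext0 {f : Pl K e n →ₗ[K] Pl K e n} (h : ∀ A, Λ (f (mn A)) = 0) (Q : Pl K e n) : Λ (f Q) = 0 :=
  LinearMap.congr_fun (MvPolynomial.linearMap_ext (f := Λ ∘ₗ f) (g := 0) fun A => LinearMap.ext_ring (h A)) Q

theorem tri (hn : n = 7 ∨ n = 11) {x z : ℤ} (hx : |x| < n) (hz : |z| < n) (h : (n : ℤ) ∣ x - z) : x - z = 0 ∨ |x - z| = n := by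
  rw [abs_lt] at hx hz
  rw [abs_eq (by positivity)]
  rcases hn with rfl | rfl <;> omega

/-- the setting -/
structure Ct (p d D : ℕ) (M M' : Matrix (Ix e n) (Ix e n) K) (r : Ix e n) (Λ : Pl K e n →ₗ[K] K) : Prop where
  P : Par p e n d
  F : Fr M M' r
  h : Fn p d M Λ
  car : ∀ u Q, Λ (X u ^ p * Q) = Λ (X (u + 1) * Q)
  low : ∀ A, A.degree < D → Λ (mn A) = 0

/-- the support of the lowest form -/
def Sp (Λ : Pl K e n →ₗ[K] K) (D : ℕ) (B : Ix e n →₀ ℕ) : Prop := B.degree = D ∧ Λ (mn B) ≠ 0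

/-- `ee a b` kills a class -/
def Kl (Λ : Pl K e n →ₗ[K] K) (D : ℕ) (a b : Ix e n) (β : Ix e n → ℤ) : Prop :=
  ∀ A, A.degree = D → bt A + rt a b = β → Λ (ee a b (mn A)) = 0

theorem Kl.bar (k : Kl Λ D a b β) : Kl Λ D (bar b) (bar a) β := fun A h1 h2 => by
  rw [← neg_eq_zero, ← k A h1 (by rw [← h2, rt_eq, rt_eq, ep_bar, ep_bar]; abel), ← map_neg, ee_apply, ee_apply, bar_bar,
    bar_bar, neg_sub]

namespace Ct

variable (c : Ct p d D M M' r Λ)
include c

theorem p2 : 2 ≤ p := c.P.pp.two_le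

theorem n7 : 7 ≤ n := by have := c.P.hn; omega

theorem d0 : 0 < d := by have := c.P.hd; have := c.n7; omega

theorem carry (C : Ix e n →₀ ℕ) (u : Ix e n) : Λ (mn (C + single u p)) = Λ (mn (C + single (u + 1) 1)) := by
  have := c.car u (mn C)
  rwa [X_pow_eq_monomial, X, monomial_mul, monomial_mul, one_mul, add_comm _ C, add_comm _ C] at this

theorem red (s : Sp Λ D B) (u : Ix e n) : B u < p := by
  by_contra! k
  obtain ⟨C, rfl⟩ := split k
  refine s.2 ((c.carry C u).trans (c.low _ ?_))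
  have := c.p2
  simp [← s.1]; omega

theorem jlt (rd : ∀ u, B u < p) (h : Jr p d (bt B) j) (u : Ix e n) : |j u| < d :=
  h.lt c.p2 c.d0 (bt_bar B) (fun u => by have := rd u; have := rd (bar u); rw [bt, abs_lt]; omega) u

variable [CharP K p]

theorem move (k : Kl Λ D a b (bt B)) (s : Sp Λ D B) (ab : a ≠ b) (h1 : 1 ≤ B b) (h2 : B a + 1 < p) :
    ∃ B', Sp Λ D B' ∧ B' + y b = B + y a := by
  obtain ⟨C, rfl⟩ := split h1
  have h := k (C + single a 1) (by simp [← s.1]) (by simp [bt_add, bt_single, rt_eq])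
  rw [ee_mn, add_tsub_cancel_right, map_sub, map_smul, map_smul, sub_eq_zero] at h
  replace h := h.symm.trans_ne (smul_ne_zero (mt (CharP.cast_eq_zero_iff K p _).1 fun k => by
    have := Nat.le_of_dvd (by simp) k
    simp [ab] at this h2; omega) s.2)
  obtain ⟨E, hE⟩ := split (Nat.pos_of_ne_zero fun k => left_ne_zero_of_smul h (by rw [k]; simp))
  have g := right_ne_zero_of_smul h
  rw [hE, add_tsub_cancel_right] at g
  refine ⟨_, ⟨?_, g⟩, ?_⟩
  · simpa [← s.1] using (congrArg degree hE).symm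
  · rw [y, y, show C + single b 1 + (single a 1 + single (bar a) 1) = C + single a 1 + (single b 1 + single (bar a) 1) by abel, hE]
    abel

theorem mins (l : lv a = lv b) (ab : a ≠ b) (k : Kl Λ D a b β) (k' : Kl Λ D b a β) (m : ℕ) : ∀ B, B b = m → Sp Λ D B → bt B = β →
    min (B b) (p - 1 - B a) = min (B (bar b)) (p - 1 - B (bar a)) := by
  induction m using Nat.strong_induction_on with
  | _ m ih =>
  rintro B rfl s rfl
  by_cases h : 1 ≤ B b ∧ B a + 1 < p ∨ 1 ≤ B (bar b) ∧ B (bar a) + 1 < p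
  · obtain ⟨B', s', m⟩ : ∃ B', Sp Λ D B' ∧ B' + y b = B + y a := h.elim (fun h => c.move k s ab h.1 h.2) fun h => by
      simpa only [y_bar] using c.move k'.bar s (mt bar_inj.1 ab) h.1 h.2
    have := (mv_val c.P l ab m).1
    have := ih (B' b) (by omega) B' rfl s' (mv_bt m)
    have := c.red s' a
    have := c.red s' (bar a)
    omega
  · omega

theorem bt_eq (l : lv a = lv b) (ab : a ≠ b) (k : Kl Λ D a b (bt B)) (k' : Kl Λ D b a (bt B)) (s : Sp Λ D B) :
    bt B a = bt B b ∧ (0 < bt B a → (B a + B b : ℤ) + 1 = p + bt B a) := by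
  have := c.mins l ab k k' _ B rfl s rfl
  have := c.mins l.symm ab.symm k' k _ B rfl s rfl
  have := c.red s a
  have := c.red s b
  have := c.red s (bar a)
  have := c.red s (bar b)
  simp only [bt]
  omega

end Ct

theorem Ct.bt0 (c : Ct p 1 D M M' r Λ) (rd : ∀ u, B u < p) (h : Λ (mn B) ≠ 0) : bt B = 0 := funext fun u => by
  obtain ⟨j, hj⟩ := c.h.jr B h
  have k : ∀ u, j u = 0 := fun u => Int.abs_lt_one_iff.1 (c.jlt rd hj u)
  simpa [k] using (hj u).symm

variable [CharP K p]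

theorem Ct.eN (c : Ct p n D M M' r Λ) {w : ZMod (2 * e) → ℕ} (hw : ∀ B : Ix e n →₀ ℕ, W B = w → B.degree = D)
    (hab : b = a + r ∨ a = b + r)
    (hj : Jr p n (bt A + rt a b) j) (e0 : j a = j b) : pj Λ w (ee a b (mn A)) = 0 :=
  edgeN c.P c.F (c.h.pj c.F w) (fun B j h hj a b l => tri c.P.hn (c.jlt (c.red ⟨hw B (pj_ne h).1, (pj_ne h).2⟩) hj a)
    (c.jlt (c.red ⟨hw B (pj_ne h).1, (pj_ne h).2⟩) hj b) (hj.cong c.P l)) hab hj e0

theorem Ct.jr (c : Ct p n D M M' r Λ) (s : Sp Λ D B) (hj : Jr p n (bt B) j) (u : Ix e n) : j u = j (u + r) := by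
  have l : ∀ u, lv u = lv (u + r) := fun u => by rw [lv_add, c.F.rl, add_zero]
  have st : ∀ u, j u = j (u + r) → j (u + 1) = j (u + 1 + r) := fun u k => by
    have := (c.bt_eq (l u) (left_ne_add.2 c.F.r0) (fun A a h => (pj_self (l u)).symm.trans
      (c.eN (fun B e => (deg_eq e).trans a) (.inl rfl) (h ▸ hj) k)) (fun A a h => (pj_self (l u).symm).symm.trans
      (c.eN (fun B e => (deg_eq e).trans a) (.inr rfl) (h ▸ hj) k.symm)) s).1
    rw [hj u, hj (u + r), this, add_left_inj, add_right_comm] at k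
    exact mul_left_cancel₀ (by have := c.p2; omega) k
  obtain ⟨v, hv⟩ : ∃ v, j v = j (v + r) := by
    by_contra! k
    have f : ∀ v, 0 < j (v + r) ↔ ¬ 0 < j v := fun v => by
      have h1 := c.jlt (c.red s) hj v
      have h2 := c.jlt (c.red s) hj (v + r)
      have := (tri c.P.hn h1 h2 (hj.cong c.P (l v))).resolve_left (sub_ne_zero.2 (k v))
      rw [abs_eq (by positivity)] at this
      rw [abs_lt] at h1 h2
      omega
    have g : ∀ m : ℕ, 0 < j (m • r) ↔ (0 < j 0 ↔ Even m) := fun m => by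
      induction m with
      | zero => simp
      | succ m ih => rw [succ_nsmul, f, ih, Nat.even_add_one]; tauto
    have := g n
    rw [(c.P.smul_eq_zero c.F.r0 c.F.rl).2 dvd_rfl] at this
    have : ¬ Even n := by rcases c.P.hn with k | k <;> rw [k] <;> decide
    tauto
  have : ∀ m : ℕ, j (v + m) = j (v + m + r) := fun m => by
    induction m with
    | zero => simpa using hv
    | succ m ih => simpa [← add_assoc] using st _ ih
  simpa using this (u - v).val

namespace Ct

variable (c : Ct p d D M M' r Λ)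
include c

theorem ki (l : lv a = lv b) (ab : a ≠ b) (h : A.degree = D) : Λ (ee a b (mn A)) = 0 := by
  have hw : ∀ B, W B = W A → B.degree = D := fun B e => (deg_eq e).trans h
  refine (pj_self l).symm.trans (c.P.all c.F.r0 c.F.rl (fun a' l' => ?_) rfl l.symm ab _)
  rcases c.P.hd with rfl | ⟨rfl, -⟩
  · have z : ∀ B, pj Λ (W A) (mn B) ≠ 0 → bt B = 0 := fun B k => c.bt0 (c.red ⟨hw B (pj_ne k).1, (pj_ne k).2⟩) (pj_ne k).2
    exact edge1 c.P c.F (c.h.pj c.F _) (fun B k u _ => by simp [z B k]) (fun B B' k k' a b a' b' l1 l2 l3 l4 ab g =>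
      rt_inj c.P (l2.trans l1.symm) (l3.trans l1.symm) (l4.trans l1.symm) ab (by
        rw [z B k, z B' k', sub_self] at g; exact sub_eq_zero.1 g.symm)) l'
  · refine ext0 fun C => by_contra fun k => k ?_
    obtain ⟨B, b1, b2, -⟩ := exists_of_ee k
    obtain ⟨j, hj⟩ := c.h.jr B (pj_ne b1).2
    exact c.eN hw (.inl rfl) (b2 ▸ hj) (c.jr ⟨hw B (pj_ne b1).1, (pj_ne b1).2⟩ hj _)

theorem kl (l : lv a = lv b) (ab : a ≠ b) : Kl Λ D a b β := fun _ h _ => c.ki l ab h

theorem mv (l : lv a = lv b) (s : Sp Λ D B) (ab : a ≠ b) (h1 : 1 ≤ B b) (h2 : B a + 1 < p) :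
    ∃ B', Sp Λ D B' ∧ B' + y b = B + y a := c.move (c.kl l ab) s ab h1 h2

theorem btc (s : Sp Λ D B) (l : lv a = lv b) : bt B a = bt B b :=
  (eq_or_ne a b).elim (congrArg _) fun ab => (c.bt_eq l ab (c.kl l ab) (c.kl l.symm ab.symm) s).1

theorem jc (s : Sp Λ D B) (hj : Jr p d (bt B) j) (l : lv a = lv b) : j a = j b := by
  have := hj.uniq c.p2 (j' := fun u => j (u + (b - a))) fun u => by
    beta_reduce; rw [hj, add_right_comm, c.btc s (b := u) (by simp [l])]
  simpa using congrFun this a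

theorem typ (s : Sp Λ D B) (h : 0 < bt B a) (l : lv a = lv b) : B b + 1 = p ∧ B (bar b) = 0 := by
  have n7 := c.n7
  have sm : ∀ {B a b}, Sp Λ D B → 0 < bt B a → lv a = lv b → a ≠ b → (B a + B b : ℤ) + 1 = p + bt B a :=
    fun s h l ab => (c.bt_eq l ab (c.kl l ab) (c.kl l.symm ab.symm) s).2 h
  have k : ∀ a, 0 < bt B a → B a + 1 = p := fun a h => by_contra fun k => by
    obtain ⟨b, l, ab⟩ := exists_notMem (lv a) (s := {a}) (by simp; omega)
    obtain ⟨b', l', ab'⟩ := exists_notMem (lv a) (s := {a, b}) (Finset.card_le_two.trans_lt (by omega))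
    simp only [Finset.mem_insert, Finset.mem_singleton, not_or] at ab ab'
    have := c.red s a
    have := c.btc s l
    obtain ⟨B', s', m⟩ := c.mv l.symm s (Ne.symm ab) (by rw [bt] at this; omega) (by omega)
    obtain ⟨⟨-, -, m1, -⟩, -, m2⟩ := mv_val c.P l.symm (Ne.symm ab) m
    have := m2 b' ab'.2 (ne_bar c.P (l'.trans l.symm))
    have := sm s h l'.symm (Ne.symm ab'.1)
    have := sm s' (mv_bt m ▸ h) l'.symm (Ne.symm ab'.1)
    rw [mv_bt m] at this
    omega
  obtain ⟨b', l', ab'⟩ := exists_notMem (lv b) (s := {b}) (by simp; omega)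
  rw [c.btc s l] at h
  have := sm s h l'.symm fun e => by simp [e] at ab'
  have := k b h
  have := k b' (c.btc s l' ▸ h)
  rw [bt] at *
  omega

theorem conn (rd : ∀ u, B' u < p) (m : ℕ) : ∀ B, ∑ u, (B u - B' u) = m → Sp Λ D B → W B = W B' → bt B = bt B' → Sp Λ D B' := by
  induction m using Nat.strong_induction_on with
  | _ m ih =>
  rintro B rfl s w h
  by_cases k : ∃ b, B' b < B b
  · obtain ⟨b, hb⟩ := k
    obtain ⟨a, l, ha⟩ : ∃ a, lv a = lv b ∧ B a < B' a := by
      by_contra! k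
      have := congrFun w (lv b)
      rw [W_eq, W_eq] at this
      exact (Finset.sum_lt_sum (fun u hu => k u (Finset.mem_filter.1 hu).2) ⟨b, by simp, hb⟩).ne' this
    have ab : a ≠ b := by rintro rfl; omega
    obtain ⟨B1, s1, m⟩ := c.mv l s ab (by omega) (by have := rd a; omega)
    obtain ⟨m1, m2, -⟩ := mv_val c.P l ab m
    refine ih _ (Finset.sum_lt_sum (fun u _ => ?_) ⟨b, by simp, by omega⟩) B1 rfl s1 ((mv_W l m).trans w) ((mv_bt m).trans h)
    have := congrFun h a
    rw [bt, bt] at this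
    by_cases h1 : u = a
    · subst h1; omega
    by_cases h2 : u = bar a
    · subst h2; omega
    have := m2 u h1 h2
    omega
  · push Not at k
    obtain ⟨E, rfl⟩ := exists_add_of_le (show B ≤ B' from k)
    obtain rfl : E = 0 := by simpa [degree_eq_zero_iff] using deg_eq w
    rwa [add_zero]

end Ct

end CF.UsP.P3
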