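import Mathlib

/-! The Klein form: the values of the functional in the two lowest bidegrees. -/

set_option autoImplicit false

namespace CF.UsP.P4

open MvPolynomial Finsupp

variable {K : Type*} [Field K] {p : ℕ} {σ : Type*} [Fintype σ] [DecidableEq σ]
  {L : σ → Prop} [DecidablePred L] {b nx : σ → σ}

/-- two levels, exchanged by `b` and by `nx` -/
structure St (L : σ → Prop) (b nx : σ → σ) : Prop where
  bb : ∀ u, b (b u) = u
  Lb : ∀ u, L (b u) ↔ ¬ L u
  Ln : ∀ u, L (nx u) ↔ ¬ L u
  tne : ∀ u, b (nx u) ≠ u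

/-- bidegree -/
def om (L : σ → Prop) [DecidablePred L] (u : σ) : ℕ × ℕ := if L u then (1, 0) else (0, 1)

omit [Fintype σ] [DecidableEq σ] [DecidablePred L] in
theorem St.ne (S : St L b nx) {u w : σ} (hu : L u) (hw : L w) : b w ≠ u := fun e =>
  (S.Lb w).1 (e ▸ hu) hw

omit [Fintype σ] [DecidableEq σ] [DecidablePred L] in
theorem St.inj (S : St L b nx) {u w : σ} : b u = b w ↔ u = w :=
  ⟨fun e => by rw [← S.bb u, e, S.bb], fun e => by rw [e]⟩

omit [DecidableEq σ] in
theorem om_fst (A : σ →₀ ℕ) : (weight (om L) A).1 = ∑ x with L x, A x := by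
  rw [weight_eq_sum, Prod.fst_sum, Finset.sum_filter]
  refine Finset.sum_congr rfl fun x _ => ?_
  unfold om
  split_ifs <;> simp

omit [DecidableEq σ] in
theorem St.om_snd (S : St L b nx) (A : σ →₀ ℕ) : (weight (om L) A).2 = ∑ x with L x, A (b x) := by
  rw [weight_eq_sum, Prod.snd_sum, Finset.sum_filter]
  refine (Fintype.sum_equiv (Function.Involutive.toPerm b S.bb) _ _ fun x => ?_).symm
  have := S.Lb x
  change _ = (A (b x) • om L (b x)).2
  unfold om
  split_ifs <;> simp_all

omit [DecidableEq σ] in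
theorem om_deg (A : σ →₀ ℕ) : A.degree = (weight (om L) A).1 + (weight (om L) A).2 := by
  rw [weight_eq_sum, Prod.fst_sum, Prod.snd_sum, degree_eq_sum, ← Finset.sum_add_distrib]
  refine Finset.sum_congr rfl fun x _ => ?_
  unfold om
  split_ifs <;> simp

omit [Fintype σ] [DecidableEq σ] in
theorem om_pos {u : σ} (h : L u) (k : ℕ) : weight (om L) (single u k) = (k, 0) := by
  simp [weight_single, om, h]

omit [Fintype σ] [DecidableEq σ] in
theorem om_neg {u : σ} (h : ¬ L u) (k : ℕ) : weight (om L) (single u k) = (0, k) := by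
  simp [weight_single, om, h]

omit [Fintype σ] [DecidableEq σ] in
theorem ex_add {A : σ →₀ ℕ} {u : σ} {k : ℕ} (h : k ≤ A u) : ∃ A', A = A' + single u k :=
  ⟨A - single u k, (tsub_add_cancel_of_le (single_le_iff.2 h)).symm⟩

variable (K L b) in
/-- the apolar pairing -/
noncomputable def g (A : σ →₀ ℕ) : K :=
  if ∀ x, L x → A x = A (b x) then ∏ x with L x, ((A x).factorial : K) else 0

omit [DecidableEq σ] in
theorem St.g_om (S : St L b nx) {A : σ →₀ ℕ} (h : g K L b A ≠ 0) :
    (weight (om L) A).1 = (weight (om L) A).2 := by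
  rw [om_fst, S.om_snd]
  have : ∀ x, L x → A x = A (b x) := by_contra fun c => h (if_neg c)
  exact Finset.sum_congr rfl fun x hx => this x (Finset.mem_filter.1 hx).2

omit [DecidableEq σ] in
theorem g_big [CharP K p] (hp : p.Prime) {A : σ →₀ ℕ} {u : σ} (hu : L u) (h : p ≤ A u) :
    g K L b A = 0 := by
  unfold g
  split_ifs
  · exact Finset.prod_eq_zero (i := u) (by simpa using hu)
      ((CharP.cast_eq_zero_iff K p _).2 (hp.dvd_factorial.2 h))
  · rfl

theorem St.g_add (S : St L b nx) (A : σ →₀ ℕ) {w : σ} (hw : L w) :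
    g K L b (A + single w 1 + single (b w) 1) = (A w + 1) * g K L b A := by
  have e1 : ∀ x, L x → (A + single w 1 + single (b w) 1 : σ →₀ ℕ) x = A x + if w = x then 1 else 0 :=
    fun x hx => by simp [single_apply, S.ne hx hw]
  have e2 : ∀ x, L x →
      (A + single w 1 + single (b w) 1 : σ →₀ ℕ) (b x) = A (b x) + if w = x then 1 else 0 :=
    fun x hx => by simp [single_apply, (S.ne hw hx).symm, S.inj]
  unfold g
  by_cases h : ∀ x, L x → A x = A (b x)
  · rw [if_pos h, if_pos fun x hx => by rw [e1 x hx, e2 x hx, h x hx]]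
    have hm : w ∈ Finset.univ.filter L := by simpa using hw
    rw [← Finset.mul_prod_erase _ _ hm, ← Finset.mul_prod_erase _ _ hm, e1 w hw, if_pos rfl,
      Nat.factorial_succ, ← mul_assoc, Nat.cast_mul, Nat.cast_add, Nat.cast_one]
    congr 1
    refine Finset.prod_congr rfl fun x hx => ?_
    rw [e1 x (by simpa using Finset.mem_of_mem_erase hx), if_neg (Finset.ne_of_mem_erase hx).symm,
      add_zero]
  · rw [if_neg h, if_neg fun c => h fun x hx => by
      have := c x hx
      rw [e1 x hx, e2 x hx] at this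
      omega, mul_zero]

theorem St.g_con (S : St L b nx) (A : σ →₀ ℕ) {w : σ} (hw : L w) :
    g K L b (A + single (b w) 1) = A w * g K L b (A - single w 1) := by
  rcases Nat.eq_zero_or_pos (A w) with h | h
  · rw [h, Nat.cast_zero, zero_mul, g, if_neg]
    intro c
    have := c w hw
    simp [single_apply, S.ne hw hw, h] at this
  · obtain ⟨A, rfl⟩ := ex_add (k := 1) h
    rw [S.g_add A hw, add_tsub_cancel_right]
    simp

variable (K L b nx) in
/-- the values of `nu` on monomials -/
noncomputable def f (p : ℕ) (A : σ →₀ ℕ) : K :=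
  ∑ u with L u, if p ≤ A u then g K L b (A - single u p + single (nx u) 1) else 0

theorem St.f_con [CharP K p] (S : St L b nx) (A : σ →₀ ℕ) {w : σ} (hw : L w) :
    f K L b nx p (A + single (b w) 1) = A w * f K L b nx p (A - single w 1) := by
  rw [f, f, Finset.mul_sum]
  refine Finset.sum_congr rfl fun u hu => ?_
  replace hu : L u := by simpa using hu
  have hn : nx u ≠ w := fun e => (S.Ln u).1 (e ▸ hw) hu
  have e0 : (A + single (b w) 1 : σ →₀ ℕ) u = A u := by simp [S.ne hu hw]
  rw [e0]
  by_cases h : p ≤ A u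
  · obtain ⟨A, rfl⟩ := ex_add h
    have e1 : ((A + single u p : σ →₀ ℕ) w : K) = A w := by
      simp only [Finsupp.add_apply, single_apply]
      split_ifs <;> simp
    rw [if_pos h, add_right_comm A, add_tsub_cancel_right, add_right_comm A, S.g_con _ hw, e1]
    have e2 : (A + single (nx u) 1 : σ →₀ ℕ) w = A w := by simp [hn]
    rw [e2]
    rcases Nat.eq_zero_or_pos (A w) with h' | h'
    · simp [h']
    · obtain ⟨A, rfl⟩ := ex_add (k := 1) h'
      rw [add_right_comm A _ (single u p), add_tsub_cancel_right, if_pos (by simp), add_tsub_cancel_right,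
        add_right_comm A, add_tsub_cancel_right]
  · rw [if_neg h, if_neg fun c => h (c.trans (by simp)), mul_zero]

/-- the lowest degree -/
theorem St.low [CharP K p] (S : St L b nx) {lam : (σ →₀ ℕ) → K} {D : ℕ}
    (sy : ∀ A : σ →₀ ℕ, A.degree = D → lam A ≠ 0 → ∀ x, A x = A (b x))
    (rel : ∀ (A : σ →₀ ℕ) a c, L a → L c → a ≠ c → A.degree + 2 = D →
      (A a + 1) * lam (A + single c 1 + single (b c) 1) =
        (A (b c) + 1) * lam (A + single a 1 + single (b a) 1))
    {B : σ →₀ ℕ} (hB : B.degree = D) (hl : lam B ≠ 0) (red : ∀ x, B x < p) (A : σ →₀ ℕ)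
    (hA : A.degree = D) : lam A * g K L b B = lam B * g K L b A := by
  have sB := sy B hB hl
  have hs : ∀ A : σ →₀ ℕ, (∀ x, L x → A x = A (b x)) → A.degree = 2 * ∑ x with L x, A x := fun A h => by
    rw [om_deg (L := L), om_fst, S.om_snd, two_mul]
    congr 1
    exact Finset.sum_congr rfl fun x hx => (h x (Finset.mem_filter.1 hx).2).symm
  by_cases h : ∀ x, L x → A x = A (b x)
  swap
  · rw [g.eq_1 K L b A, if_neg h, by_contra (p := lam A = 0) fun c => h fun x _ => sy A hA c x, zero_mul,
      mul_zero]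
  induction hd : ∑ x with L x, (A x - B x) using Nat.strong_induction_on generalizing A with
  | _ d ih =>
  have hsum : ∑ x with L x, A x = ∑ x with L x, B x := by
    have := hs A h
    have := hs B fun x _ => sB x
    omega
  by_cases hc : ∃ c, L c ∧ B c < A c
  · obtain ⟨c, Lc, hc⟩ := hc
    obtain ⟨a, La, ha⟩ : ∃ a, L a ∧ A a < B a := by
      by_contra hn
      push Not at hn
      exact (Finset.sum_lt_sum (s := Finset.univ.filter L) (fun x hx => hn x (Finset.mem_filter.1 hx).2)
        ⟨c, by simpa using Lc, hc⟩).ne hsum.symm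
    have ac : a ≠ c := by rintro rfl; omega
    have hc' := h c Lc
    obtain ⟨A, rfl⟩ := ex_add (A := A) (u := b c) (k := 1) (by omega)
    obtain ⟨A, rfl⟩ := ex_add (A := A) (u := c) (k := 1) (by
      simp [S.ne Lc Lc] at hc; omega)
    have e1 : ∀ w, L w → ∀ x, L x →
        (A + single w 1 + single (b w) 1 : σ →₀ ℕ) x = A x + if w = x then 1 else 0 :=
      fun w hw x hx => by simp [single_apply, S.ne hx hw]
    have e2 : ∀ w, L w → ∀ x, L x →
        (A + single w 1 + single (b w) 1 : σ →₀ ℕ) (b x) = A (b x) + if w = x then 1 else 0 :=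
      fun w hw x hx => by simp [single_apply, (S.ne hw hx).symm, S.inj]
    have h' : ∀ x, L x → A x = A (b x) := fun x hx => by
      have := h x hx
      rw [e1 c Lc x hx, e2 c Lc x hx] at this
      omega
    have hA' : A.degree + 2 = D := by simpa [add_assoc] using hA
    rw [e1 c Lc a La, if_neg ac.symm, add_zero] at ha
    have i := ih _ ?_ (A + single a 1 + single (b a) 1) (by simpa [add_assoc] using hA')
      (fun x hx => by rw [e1 a La x hx, e2 a La x hx, h' x hx]) rfl
    · have r := rel A a c La Lc ac hA'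
      have h0 : (A a + 1 : K) ≠ 0 := by
        have := red a
        exact_mod_cast (CharP.cast_eq_zero_iff K p (A a + 1)).not.2
          (Nat.not_dvd_of_pos_of_lt (by omega) (by omega))
      rw [S.g_add A La] at i
      rw [S.g_add A Lc]
      rw [← h' c Lc] at r
      refine mul_left_cancel₀ h0 ?_
      linear_combination g K L b B * r + (A c + 1) * i
    · rw [← hd]
      refine Finset.sum_lt_sum (fun x hx => ?_) ⟨c, by simpa using Lc, ?_⟩
      · replace hx : L x := by simpa using hx
        rw [e1 a La x hx, e1 c Lc x hx]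
        split_ifs with h1 h2 <;> first | omega | (subst h1; omega)
      · rw [e1 c Lc c Lc, if_pos rfl] at hc ⊢
        rw [e1 a La c Lc, if_neg ac]
        omega
  · push Not at hc
    have e : ∀ x, L x → A x = B x := fun x hx =>
      (Finset.sum_eq_sum_iff_of_le fun x hx => hc x (Finset.mem_filter.1 hx).2).1 hsum x (by simpa using hx)
    have : A = B := by
      ext x
      by_cases hx : L x
      · exact e x hx
      · have hb := (S.Lb x).2 hx
        rw [← S.bb x, ← h _ hb, ← sB _, e _ hb]
    rw [this]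

/-- the next bidegree -/
theorem St.next [CharP K p] (hp : p.Prime) (S : St L b nx) {lam : (σ →₀ ℕ) → K} {a : ℕ} {κ : K}
    (sy : ∀ A : σ →₀ ℕ, (∀ x, A x < p) → lam A ≠ 0 → ∀ x, A x = A (b x))
    (car : ∀ (A : σ →₀ ℕ) u, lam (A + single u p) = lam (A + single (nx u) 1))
    (low : ∀ A : σ →₀ ℕ, A.degree = 2 * (a + 1) → lam A = κ * g K L b A)
    (A : σ →₀ ℕ) (hA : weight (om L) A = (a + p + 1, a)) : lam A = κ * f K L b nx p A := by
  have hd := om_deg (L := L) A
  rw [hA] at hd
  by_cases h : ∃ u, L u ∧ p ≤ A u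
  · obtain ⟨u, hu, h⟩ := h
    obtain ⟨A, rfl⟩ := ex_add h
    rw [car, low _ (by simp at hd ⊢; omega), f, Finset.sum_eq_single u, if_pos h, add_tsub_cancel_right]
    · intro w hw wu
      split_ifs
      · exact g_big hp hu (by simp [wu]; omega)
      · rfl
    · simp [hu]
  push Not at h
  rw [f, Finset.sum_eq_zero fun u hu => if_neg (h u (by simpa using hu)).not_ge, mul_zero]
  by_cases h' : ∃ u, ¬ L u ∧ p ≤ A u
  · obtain ⟨u, hu, h'⟩ := h'
    obtain ⟨A, rfl⟩ := ex_add h'
    rw [car, low _ (by simp at hd ⊢; omega)]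
    by_contra c
    have := S.g_om (right_ne_zero_of_mul c)
    rw [map_add, om_neg hu, Prod.ext_iff] at hA
    rw [map_add, om_pos ((S.Ln u).2 hu)] at this
    simp at this hA
    omega
  · push Not at h'
    by_contra c
    have := sy A (fun x => by by_cases hx : L x; exacts [h x hx, h' x hx]) c
    have e : (weight (om L) A).1 = (weight (om L) A).2 := by
      rw [om_fst, S.om_snd]
      exact Finset.sum_congr rfl fun x _ => this x
    rw [hA] at e
    simp at e
    omega

end CF.UsP.P4
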