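import Cfsg.Agent.Us.PA
import Cfsg.Agent.Sing.A3

/-! The unitary Singer cycle: the frame and the functionals attached to a linear isometry. -/

set_option autoImplicit false
set_option linter.style.haveILetI false

namespace CF.UsP.P5

open MvPolynomial CF.Sing.PA Finsupp

section
variable {K : Type*} [Field K] [Fintype K] {p N : ℕ} [Fact p.Prime] [CharP K p] [NeZero N]

omit [Fintype K] [NeZero N] in
theorem fr_zero (x : K) : fr p (0 : ZMod N) x = x := by
  rw [fr_def, ZMod.val_zero, pow_zero, pow_one]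

/-- independence of the Frobenius powers -/
theorem indep (hK : Fintype.card K = p ^ N) {a : ZMod N → K} (h : ∀ x, ∑ w, a w * fr p w x = 0)
    (w : ZMod N) : a w = 0 := by
  classical
  have hp := (Fact.out : p.Prime).one_lt
  let P : Polynomial K := ∑ w, Polynomial.monomial (p ^ w.val) (a w)
  have h0 : P = 0 := by
    refine Polynomial.eq_zero_of_natDegree_lt_card_of_eval_eq_zero P Function.injective_id
      (fun x => ?_) ?_
    · rw [← h x]
      simp only [P, Polynomial.eval_finsetSum, Polynomial.eval_monomial, id, fr_def]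
    · rw [hK]
      refine lt_of_le_of_lt (Polynomial.natDegree_sum_le_of_forall_le _ _ (n := p ^ N - 1)
        fun u _ => (Polynomial.natDegree_monomial_le _).trans ?_) ?_
      · have := Nat.pow_lt_pow_right hp (ZMod.val_lt u); omega
      · have : 0 < p ^ N := by positivity
        omega
  have := congrArg (fun Q => Polynomial.coeff Q (p ^ w.val)) h0
  simp only [P, Polynomial.finsetSum_coeff, Polynomial.coeff_monomial, Polynomial.coeff_zero] at this
  rwa [Finset.sum_eq_single w (fun u _ hu => if_neg fun c =>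
    hu (ZMod.val_injective _ (Nat.pow_right_injective hp c))) (by simp), if_pos rfl] at this

theorem uniq (hK : Fintype.card K = p ^ N) {a b : ZMod N → K}
    (h : ∀ x, ∑ w, a w * fr p w x = ∑ w, b w * fr p w x) : a = b := by
  funext w
  refine sub_eq_zero.1 (indep hK (a := fun w => a w - b w) (fun x => ?_) w)
  simp only [sub_mul, Finset.sum_sub_distrib, h x, sub_self]

theorem row (hK : Fintype.card K = p ^ N) (c : ZMod N → K) (u : ZMod N) (x : K) :
    ∑ w, fr p u (c (w - u)) * fr p w x = fr p u (∑ w, c w * fr p w x) := by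
  rw [← ev_ell hK, ell, map_sum]
  simp [ev]

end

variable {K : Type*} [Field K] [Fintype K] {p e n d : ℕ} [Fact p.Prime] [CharP K p]
  [NeZero (2 * e * n)]

/-- the matrix of a linearized polynomial -/
noncomputable def mat (p : ℕ) [Fact p.Prime] [CharP K p] (c : Ix e n → K) :
    Matrix (Ix e n) (Ix e n) K := fun u w => fr p u (c (w - u))

theorem mat_inv (hK : Fintype.card K = p ^ (2 * e * n)) {c c' : Ix e n → K}
    (h : ∀ x, ∑ w, c w * fr p w (∑ w, c' w * fr p w x) = x) : mat p c * mat p c' = 1 := by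
  ext u w
  refine congrFun (uniq hK (a := fun w => (mat p c * mat p c') u w)
    (b := fun w => (1 : Matrix (Ix e n) (Ix e n) K) u w) fun x => ?_) w
  simp only [Matrix.mul_apply, Finset.sum_mul, Matrix.one_apply, ite_mul, one_mul, zero_mul,
    Finset.sum_ite_eq, Finset.mem_univ, if_true]
  rw [Finset.sum_comm]
  simp only [mat, mul_assoc, ← Finset.mul_sum, row hK, h]

theorem ev_sb (hK : Fintype.card K = p ^ (2 * e * n)) (c : Ix e n → K) (x : K) (P : Pl K e n) :
    ev p _ x (sb (mat p c) P) = ev p _ (∑ w, c w * fr p w x) P := by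
  induction P using MvPolynomial.induction_on with
  | C a => simp [ev, sb]
  | add P Q h1 h2 => simp only [map_add, h1, h2]
  | mul_X P u h1 =>
    rw [map_mul, map_mul, map_mul, h1, sb, aeval_X]
    congr 1
    rw [ev, ev, eval_X, ← row hK, map_sum]
    simp [mat]

/-- the functional attached to a function on `K` -/
noncomputable def lam (p e n : ℕ) [Fact p.Prime] [CharP K p] (f : K → K) : Pl K e n →ₗ[K] K where
  toFun P := ∑ x, f x * ev p _ x P
  map_add' P Q := by simp only [map_add, mul_add, Finset.sum_add_distrib]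
  map_smul' a P := by
    simp only [RingHom.id_apply, smul_eq_mul, Finset.mul_sum, smul_eq_C_mul, map_mul, ev, eval_C]
    exact Finset.sum_congr rfl fun x _ => by ring

omit [NeZero (2 * e * n)] in
theorem lam_apply (f : K → K) (P : Pl K e n) : lam p e n f P = ∑ x, f x * ev p _ x P := rfl

theorem lam_car (hK : Fintype.card K = p ^ (2 * e * n)) (f : K → K) (u : Ix e n) (Q : Pl K e n) :
    lam p e n f (X u ^ p * Q) = lam p e n f (X (u + 1) * Q) := by
  simp only [lam_apply, map_mul, map_pow, ev, eval_X, fr_succ hK]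

theorem lam_inv (hK : Fintype.card K = p ^ (2 * e * n)) {f : K → K} {c : Ix e n → K} (g : K ≃ K)
    (hc : ∀ x, ∑ w, c w * fr p w x = g x) (hf : ∀ x, f (g x) = f x) (P : Pl K e n) :
    lam p e n f (sb (mat p c) P) = lam p e n f P := by
  simp only [lam_apply, ev_sb hK, hc]
  rw [← g.sum_comp fun x => f x * ev p _ x P]
  simp only [hf]

theorem lam_tor {f : K → K} {t : K} (ht : t ≠ 0) (hf : ∀ x, f (t * x) = f x) {A : Ix e n →₀ ℕ}
    (h : lam p e n f (mn A) ≠ 0) : ∏ u, fr p u t ^ A u = 1 := by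
  refine mul_right_cancel₀ h ?_
  rw [one_mul]
  conv_rhs => rw [lam_apply, ← Equiv.sum_comp (Equiv.mulLeft₀ t ht)]
  simp only [lam_apply, Equiv.mulLeft₀_apply, hf, ev_mono, map_mul, mul_pow, Finset.prod_mul_distrib,
    Finset.mul_sum]
  exact Finset.sum_congr rfl fun x _ => by ring

omit [NeZero (2 * e * n)] in
theorem lam_eq_zero {f : K → K} (h : lam p e n f = 0) (z : K) : f z = 0 := by
  classical
  have := LinearMap.congr_fun h (1 - (X 0 - C z) ^ (Fintype.card K - 1))
  rw [lam_apply, Finset.sum_eq_single z (fun x _ hx => ?_) (by simp)] at this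
  · have h1 : Fintype.card K - 1 ≠ 0 := by have := Fintype.one_lt_card (α := K); omega
    simpa [ev, fr_zero, h1] using this
  · simp only [map_sub, map_one, map_pow, ev, eval_X, eval_C, fr_zero]
    rw [FiniteField.pow_card_sub_one_eq_one _ (sub_ne_zero.2 hx), sub_self, mul_zero]

variable {F : Type*} [Field F] [Fintype F] [Algebra F K]

theorem coef (hK : Fintype.card K = p ^ (2 * e * n)) (hq : Fintype.card F = p ^ (2 * e))
    (f : K →ₗ[F] K) : ∃ c : Ix e n → K, (∀ w, c w ≠ 0 → ∃ j : ℕ, w = (2 * e * j : ℕ)) ∧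
      ∀ x, ∑ w, c w * fr p w x = f x := by
  obtain ⟨c, hc⟩ := CF.Sing.exists_linpoly f
  refine ⟨fun w => ∑ j, if w = (2 * e * j.1 : ℕ) then c j else 0, fun w hw => ?_, fun x => ?_⟩
  · obtain ⟨j, -, hj⟩ := Finset.exists_ne_zero_of_sum_ne_zero hw
    exact ⟨j, by by_contra c; simp only [c, if_false] at hj; exact hj rfl⟩
  · simp only [Finset.sum_mul, hc]
    rw [Finset.sum_comm]
    refine Finset.sum_congr rfl fun j _ => ?_
    simp only [ite_mul, zero_mul, Finset.sum_ite_eq', Finset.mem_univ, if_true]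
    rw [fr_natCast hK, hq, ← pow_mul]

theorem fr_aut (hK : Fintype.card K = p ^ (2 * e * n)) (hq : Fintype.card F = p ^ (2 * e)) (j : ℕ)
    (z : K) : fr p ((2 * e * j : ℕ) : Ix e n) z =
      (FiniteField.frobeniusAlgEquivOfAlgebraic F K ^ j) z := by
  rw [AlgEquiv.coe_pow, FiniteField.coe_frobeniusAlgEquivOfAlgebraic_iterate, fr_natCast hK, hq,
    ← pow_mul]

theorem adj (hK : Fintype.card K = p ^ (2 * e * n)) (hq : Fintype.card F = p ^ (2 * e))
    {g : K ≃ₗ[F] K} (iso : ∀ x y, Algebra.trace F K (g x * g y ^ p ^ (e * n)) =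
      Algebra.trace F K (x * y ^ p ^ (e * n))) {c c' : Ix e n → K}
    (c1 : ∀ w, c w ≠ 0 → ∃ j : ℕ, w = (2 * e * j : ℕ)) (c2 : ∀ x, ∑ w, c w * fr p w x = g x)
    (c4 : ∀ x, ∑ w, c' w * fr p w x = g.symm x) (u w : Ix e n) :
    mat p c' u w = mat p c (bar w) (bar u) := by
  have b0 : ((e * n : ℕ) : Ix e n) + (e * n : ℕ) = 0 := by
    rw [← Nat.cast_add, ← two_mul, ← mul_assoc, ZMod.natCast_self]
  have h1 : ∀ y, g.symm y ^ p ^ (e * n) =
      ∑ w, fr p (-w) (c w) * fr p (-w) (y ^ p ^ (e * n)) := fun y => by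
    refine sub_eq_zero.1 ((traceForm_nondegenerate F K).1 _ fun x => ?_)
    rw [Algebra.traceForm_apply, mul_comm, mul_sub, map_sub, ← iso, g.apply_symm_apply, ← c2,
      Finset.sum_mul, Finset.mul_sum, map_sum, map_sum, sub_eq_zero]
    refine Finset.sum_congr rfl fun w _ => ?_
    by_cases h : c w = 0
    · simp [h]
    obtain ⟨j, hj⟩ := c1 w h
    rw [← Algebra.trace_eq_of_algEquiv (FiniteField.frobeniusAlgEquivOfAlgebraic F K ^ j) (x * _),
      ← fr_aut hK hq, ← hj, map_mul (fr p w), map_mul (fr p w), ← fr_add hK, ← fr_add hK,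
      add_neg_cancel, fr_zero, fr_zero]
    congr 1; ring
  have h2 : c' = fun s => fr p (bar s) (c (-s)) := uniq hK fun y => by
    have := congrArg (fr p ((e * n : ℕ) : Ix e n)) (h1 y)
    rw [← fr_natCast hK, ← fr_natCast hK, ← fr_add hK, b0, fr_zero, map_sum] at this
    rw [c4, this]
    refine Fintype.sum_equiv (Equiv.neg _) _ _ fun w => ?_
    simp only [map_mul, ← fr_add hK, Equiv.neg_apply, neg_neg]
    rw [show ((e * n : ℕ) : Ix e n) + (-w + (e * n : ℕ)) = -w by linear_combination b0, bar,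
      add_comm (-w)]
  simp only [mat, h2, ← fr_add hK]
  rw [show u + bar (w - u) = bar w by simp only [bar]; ring,
    show -(w - u) = bar u - bar w by simp only [bar]; ring]

theorem frame (hK : Fintype.card K = p ^ (2 * e * n)) (hq : Fintype.card F = p ^ (2 * e))
    {g : K ≃ₗ[F] K} (iso : ∀ x y, Algebra.trace F K (g x * g y ^ p ^ (e * n)) =
      Algebra.trace F K (x * y ^ p ^ (e * n))) (nm : ¬ ∃ σ : K ≃ₐ[F] K, ∀ x, g x = g 1 * σ x) :
    ∃ (c c' : Ix e n → K) (r : Ix e n), Fr (mat p c) (mat p c') r ∧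
      ∀ x, ∑ w, c w * fr p w x = g x := by
  obtain ⟨c, c1, c2⟩ := coef hK hq (g : K →ₗ[F] K)
  obtain ⟨c', -, c4⟩ := coef hK hq (g.symm : K →ₗ[F] K)
  have l : ∀ w, c w ≠ 0 → lv w = 0 := fun w hw => by
    obtain ⟨j, rfl⟩ := c1 w hw
    rw [lv, map_natCast, Nat.cast_mul, ZMod.natCast_self, zero_mul]
  obtain ⟨j, hj⟩ : ∃ j, c j ≠ 0 := by
    by_contra h0
    push Not at h0
    have := c2 1
    simp only [h0, zero_mul, Finset.sum_const_zero] at this
    exact one_ne_zero (g.map_eq_zero_iff.1 this.symm)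
  obtain ⟨k, hk, hjk⟩ : ∃ k, c k ≠ 0 ∧ j ≠ k := by
    by_contra h0
    push Not at h0
    obtain ⟨i, hi⟩ := c1 j hj
    have e1 : ∀ z, g z = c j * (FiniteField.frobeniusAlgEquivOfAlgebraic F K ^ i) z := fun z => by
      have := c2 z
      rw [Finset.sum_eq_single j (fun k _ hk => by
        rw [not_not.1 (mt (h0 k) hk.symm), zero_mul]) (by simp)] at this
      rw [← fr_aut hK hq, ← hi]; exact this.symm
    exact nm ⟨_, fun z => by rw [e1, e1, map_one, mul_one]⟩
  have ad := adj hK hq iso c1 c2 c4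
  refine ⟨c, c', j - k, ⟨fun u w h => ?_, mat_inv hK fun x => by rw [c4, c2]; simp, ad,
    sub_ne_zero.2 hjk, by rw [lv, map_sub]; exact sub_eq_zero.2 ((l j hj).trans (l k hk).symm),
    fun s => ⟨s + j, ?_⟩⟩, c2⟩
  · have := l _ (mt (fun h0 => by rw [mat, h0, map_zero]) h)
    rw [lv, map_sub, sub_eq_zero] at this
    exact this.symm
  · have e1 : s + j - (s + (j - k)) = k := by ring
    rw [ad, ad]
    simp only [mat, bar, add_sub_add_right_eq_sub, e1, add_sub_cancel_left, ne_eq, map_eq_zero,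
      hj, hk, not_false_eq_true, and_self]

theorem mem_iff {α : Type*} [Finite α] {O : Set α} {h : α → α} (hi : Function.Injective h)
    (hO : ∀ x ∈ O, h x ∈ O) (x : α) : h x ∈ O ↔ x ∈ O := by
  refine ⟨fun hx => ?_, hO x⟩
  obtain ⟨y, hy, e⟩ := ((Set.toFinite O).injOn_iff_bijOn_of_mapsTo hO).1 hi.injOn |>.surjOn hx
  exact hi e ▸ hy

/-- the bound, given the vanishing theorem and the carries -/
theorem bound_of {F L : Type*} [Field F] [Fintype F] [Field L] [Finite L] [Algebra F L] {q m : ℕ}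
    (hz : ∀ {p e : ℕ} [NeZero (2 * e * n)] [CharP L p] {M M' : Matrix (Ix e n) (Ix e n) L} {r : Ix e n}
      {Λ : Pl L e n →ₗ[L] L}, Par p e n d → Fr M M' r → Fn p d M Λ →
      (∀ u Q, Λ (X u ^ p * Q) = Λ (X (u + 1) * Q)) → Λ 1 = 0 →
      (∀ i : Fin e → Fin p, Λ (mn (test n p i)) = 0) → Λ = 0)
    (hj : ∀ {p e : ℕ} [NeZero (2 * e * n)] [Fintype L] [Fact p.Prime] [CharP L p],
      Fintype.card L = p ^ (2 * e * n) → m * d = p ^ (e * n) + 1 → ∀ A : Ix e n →₀ ℕ,
      (∀ t : L, t ^ m = 1 → ∏ u, fr p u t ^ A u = 1) → ∃ j, Jr p d (bt A) j)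
    (hF : Fintype.card F = q ^ 2) (hn : n = 7 ∨ n = 11) (hL : Module.finrank F L = n)
    (hd : d = 1 ∨ d = n ∧ n ∣ q + 1) (hm : m * d = q ^ n + 1) (g : L ≃ₗ[F] L)
    (iso : ∀ x y, Algebra.trace F L (g x * g y ^ q ^ n) = Algebra.trace F L (x * y ^ q ^ n))
    (nm : ¬ ∃ σ : L ≃ₐ[F] L, ∀ x, g x = g 1 * σ x) (O : Fin (q + 2) → Set L)
    (ne : ∀ i, (O i).Nonempty) (dj : Pairwise fun i j => Disjoint (O i) (O j))
    (hT : ∀ i (t : L), t ^ m = 1 → ∀ x ∈ O i, t * x ∈ O i) (hg : ∀ i, ∀ x ∈ O i, g x ∈ O i) :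
    False := by
  classical
  letI := Fintype.ofFinite L
  obtain ⟨p, hp⟩ := CharP.exists F
  obtain ⟨k, pp, hq⟩ := FiniteField.card F p
  haveI := Fact.mk pp
  haveI : CharP L p := charP_of_injective_algebraMap (algebraMap F L).injective p
  obtain ⟨e, -, rfl⟩ := (Nat.dvd_prime_pow pp).1 (show q ∣ p ^ (k : ℕ) from
    hq ▸ hF ▸ dvd_pow_self q two_ne_zero)
  rw [← pow_mul, mul_comm] at hF
  have e0 : e ≠ 0 := fun c => by
    have := Fintype.one_lt_card (α := F)
    simp [hF, c] at this
  haveI : NeZero (2 * e * n) := ⟨by rcases hn with rfl | rfl <;> positivity⟩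
  have hK : Fintype.card L = p ^ (2 * e * n) := by
    rw [Module.card_eq_pow_finrank (K := F), hF, hL, ← pow_mul]
  rw [← pow_mul] at hm iso
  obtain ⟨c, c', r, Fm, c2⟩ := frame hK hF iso nm
  let f : (Fin (p ^ e + 2) → L) →ₗ[L] L → L :=
    { toFun := fun a x => ∑ i, if x ∈ O i then a i else 0
      map_add' := fun a b => by
        funext x
        simp only [Pi.add_apply, ← Finset.sum_add_distrib]
        exact Finset.sum_congr rfl fun i _ => by split_ifs <;> simp
      map_smul' := fun t a => by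
        funext x
        simp only [Pi.smul_apply, smul_eq_mul, RingHom.id_apply, Finset.mul_sum, mul_ite, mul_zero] }
  let φ : (L → L) →ₗ[L] Option (Fin e → Fin p) → L :=
    { toFun := fun f i => lam p e n f (i.elim 1 fun i => mn (test n p i))
      map_add' := fun a b => by
        funext i
        simp only [lam_apply, Pi.add_apply, add_mul, Finset.sum_add_distrib]
      map_smul' := fun t a => by
        funext x
        simp only [lam_apply, Pi.smul_apply, smul_eq_mul, RingHom.id_apply, Finset.mul_sum,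
          mul_assoc] }
  obtain ⟨a, ha, a0⟩ := (Submodule.ne_bot_iff _).1 (LinearMap.ker_ne_bot_of_finrank_lt (f := φ ∘ₗ f)
    (by simp))
  have m0 : m ≠ 0 := fun c => by simp [c] at hm
  have fi : ∀ h : L → L, Function.Injective h → (∀ i, ∀ x ∈ O i, h x ∈ O i) → ∀ x,
      f a (h x) = f a x := fun h h1 h2 x => by
    change ∑ i, (if h x ∈ O i then a i else 0) = ∑ i, (if x ∈ O i then a i else 0)
    simp only [mem_iff h1 (h2 _) x]
  have h0 := hz (Λ := lam p e n (f a)) ⟨pp, e0, hn, hd⟩ Fm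
    ⟨lam_inv hK g.toEquiv c2 (fi g g.injective hg), fun A hA => hj hK hm A fun t ht => by
        have t0 : t ≠ 0 := fun c => by simp [c, m0] at ht
        exact lam_tor t0 (fi _ (mul_right_injective₀ t0) fun i => hT i t ht) hA⟩
    (lam_car hK _) (congrFun ha none) fun i => congrFun ha (some i)
  refine a0 (funext fun i => ?_)
  obtain ⟨z, hz⟩ := ne i
  have := lam_eq_zero h0 z
  change ∑ i, (if z ∈ O i then a i else 0) = 0 at this
  rwa [Finset.sum_eq_single i (fun j _ hj => if_neg fun c => Set.disjoint_left.1 (dj hj) c hz)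
    (by simp), if_pos hz] at this

end CF.UsP.P5
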