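import Cfsg.Agent.Us.P1
import Cfsg.Agent.Us.P3
import Cfsg.Agent.Us.P5a

/-! The unitary Singer cycle: at most `q + 1` invariant sets. -/

set_option autoImplicit false

namespace CF.UsP

variable {n d : ℕ}

theorem bound {F L : Type*} [Field F] [Fintype F] [Field L] [Finite L] [Algebra F L] {q m : ℕ}
    (hF : Fintype.card F = q ^ 2) (hn : n = 7 ∨ n = 11) (hL : Module.finrank F L = n)
    (hd : d = 1 ∨ d = n ∧ n ∣ q + 1) (hm : m * d = q ^ n + 1) (g : L ≃ₗ[F] L)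
    (iso : ∀ x y, Algebra.trace F L (g x * g y ^ q ^ n) = Algebra.trace F L (x * y ^ q ^ n))
    (nm : ¬ ∃ σ : L ≃ₐ[F] L, ∀ x, g x = g 1 * σ x) (O : Fin (q + 2) → Set L)
    (ne : ∀ i, (O i).Nonempty) (dj : Pairwise fun i j => Disjoint (O i) (O j))
    (hT : ∀ i (t : L), t ^ m = 1 → ∀ x ∈ O i, t * x ∈ O i) (hg : ∀ i, ∀ x ∈ O i, g x ∈ O i) : False :=
  P5.bound_of (fun P F h c h0 h1 => zero P F h c h0 h1) (fun hK hm A h => exists_j hK hm A h)
    hF hn hL hd hm g iso nm O ne dj hT hg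

end CF.UsP
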