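import Cfsg.Agent.MaxSub.UnitA

/-! A unitary space over an adjoint-closed field of full degree: the trace form model. -/

set_option autoImplicit false

namespace CF.UsP

open Cfsg Cfsg.Geo CF.MaxSub Matrix Module
open scoped MatrixGroups

variable {ι : Type} [Fintype ι] [DecidableEq ι] {F : Type*} [Field F] [Fintype F] {φ : FD ι F} {q n : ℕ}
  {L : Type*} [Field L] [Finite L] [Algebra F L]

/-- transitive on every level of non-zero vectors -/
def Tr (φ : FD ι F) (H : Subgroup (GL ι F)) : Prop :=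
  ∀ x y, x ≠ 0 → y ≠ 0 → φ.f x x = φ.f y y → ∃ g ∈ H, g.val *ᵥ x = y

namespace P6

theorem card_L (h : φ.IsU q) (hL : finrank F L = n) : Nat.card L = (q ^ n) ^ 2 := by
  rw [natCard_eq_pow_finrank (K := F), hL, Nat.card_eq_fintype_card, h.card, ← pow_mul, ← pow_mul, mul_comm]

theorem model (h : φ.IsU q) (hn : Fintype.card ι = n) (n0 : n ≠ 0) (hL : finrank F L = n)
    (j : L →ₐ[F] Matrix ι ι F) (ha : ∀ k, ∃ k', φ.adj (j k) = j k') :
    ∃ e : L ≃ₗ[F] (ι → F), (∀ k x, e (k * x) = j k *ᵥ e x) ∧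
      ∀ x y, φ.f (e x) (e y) = Algebra.trace F L (x * y ^ q ^ n) := by
  haveI := Fintype.ofFinite L
  haveI : Nonempty ι := Fintype.card_pos_iff.1 (by omega)
  obtain ⟨ψ, hψ, -⟩ := exists_FD_u (F := L) (q := q ^ n) (by rw [← Nat.card_eq_fintype_card, card_L h hL]) 1
  have inj : Function.Injective j := j.toRingHom.injective
  choose τ' hτ using ha
  have a1 : φ.adj 1 = 1 := φ.adj_eq_iff.2 fun u v => by simp
  let τ : L →+* L :=
    { toFun := τ'
      map_one' := inj (by rw [← hτ, map_one, a1])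
      map_mul' := fun x y => inj (by rw [← hτ, map_mul, φ.adj_mul, hτ, hτ, ← map_mul, mul_comm])
      map_zero' := inj (by rw [← hτ, map_zero, ← zero_smul F (0 : Matrix ι ι F), φ.adj_smul]; simp)
      map_add' := fun x y => inj (by rw [← hτ, map_add, φ.adj_add, hτ, hτ, map_add]) }
  have hτ' : ∀ k, φ.adj (j k) = j (τ k) := hτ
  have t2 : ∀ k, τ (τ k) = k := fun k => inj (by
    rw [← hτ', ← hτ']; exact φ.adj_eq_iff.2 fun u v => (φ.f_mulVec_right _ u v).symm)
  have tF : ∀ c : F, τ (algebraMap F L c) = algebraMap F L (φ.σ c) := fun c => inj (by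
    rw [← hτ', j.commutes, j.commutes, Algebra.algebraMap_eq_smul_one, Algebra.algebraMap_eq_smul_one, φ.adj_smul, a1])
  have te : τ = ψ.σ := invol_unique t2 ψ.invol (fun e => by
    obtain ⟨θ, hθ⟩ := h.exists_ne
    exact hθ ((algebraMap F L).injective (by rw [← tF, e]; rfl))) hψ.ne
  have tt : ∀ z, Algebra.trace F L (τ z) = φ.σ (Algebra.trace F L z) := fun z => (algebraMap F L).injective (by
    rw [← tF, FiniteField.algebraMap_trace_eq_sum_pow, FiniteField.algebraMap_trace_eq_sum_pow, map_sum]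
    simp only [map_pow])
  have mk : ∀ v : ι → F, v ≠ 0 → ∃ e : L ≃ₗ[F] (ι → F), ∀ x, e x = j x *ᵥ v := fun v hv => by
    let E : L →ₗ[F] (ι → F) :=
      { toFun := fun x => j x *ᵥ v
        map_add' := fun x y => by rw [map_add, add_mulVec]
        map_smul' := fun c x => by rw [map_smul, smul_mulVec]; rfl }
    refine ⟨E.linearEquivOfInjective ((injective_iff_map_eq_zero E).2 fun x (e : j x *ᵥ v = 0) => ?_)
      (by rw [hL, finrank_fintype_fun_eq_card, hn]), fun x => rfl⟩
    by_contra c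
    refine hv ?_
    rw [← one_mulVec v, ← map_one j, ← inv_mul_cancel₀ c, map_mul, ← mulVec_mulVec, e, mulVec_zero]
  obtain ⟨v, hv⟩ := exists_ne (0 : ι → F)
  have nd := traceForm_nondegenerate F L
  obtain ⟨a, ha⟩ := ((Algebra.traceForm F L).toDual nd).surjective
    { toFun := fun x => φ.f (j x *ᵥ v) v
      map_add' := fun x y => by rw [map_add, add_mulVec, φ.f_add_left]
      map_smul' := fun c x => by rw [map_smul, smul_mulVec, φ.f_smul_left]; rfl }
  have ha' : ∀ x, φ.f (j x *ᵥ v) v = Algebra.trace F L (a * x) := fun x => (LinearMap.congr_fun ha x).symm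
  have hb : ∀ x y, φ.f (j x *ᵥ v) (j y *ᵥ v) = Algebra.trace F L (a * (τ y * x)) := fun x y => by
    rw [φ.f_mulVec_right, hτ', mulVec_mulVec, ← map_mul, ha']
  have aa : τ a = a := by
    refine sub_eq_zero.1 (nd.1 _ fun z => ?_)
    have := hb 1 (τ z)
    rw [← h.conj_f, map_one, one_mulVec, ha', ← tt, map_mul, t2, mul_one] at this
    rw [Algebra.traceForm_apply, sub_mul, map_sub, this, sub_self]
  have a0 : a ≠ 0 := fun e => by
    obtain ⟨E, hE⟩ := mk v hv
    refine hv (φ.eq_zero_of_left fun u => ?_)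
    obtain ⟨x, rfl⟩ := E.surjective u
    rw [hE, ha', e, zero_mul, map_zero]
  obtain ⟨b, hb'⟩ := hψ.exists_norm (te ▸ aa)
  rw [← te] at hb'
  have b0 : b ≠ 0 := fun e => a0 (by rw [← hb', e, zero_mul])
  obtain ⟨E, hE⟩ := mk v hv
  obtain ⟨e, he⟩ := mk (j b⁻¹ *ᵥ v) (by rw [← hE]; simpa using b0)
  refine ⟨e, fun k x => by rw [he, he, map_mul, ← mulVec_mulVec], fun x y => ?_⟩
  rw [he, he, mulVec_mulVec, mulVec_mulVec, ← map_mul, ← map_mul, hb, ← hψ.σ, ← te, ← hb', map_mul τ, map_inv₀]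
  congr 1
  have : τ b ≠ 0 := (map_ne_zero τ).2 b0
  field_simp

end P6

end CF.UsP
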