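import Cfsg.Agent.Us.P6a
import Cfsg.Agent.MaxSub.C3C

/-! Overgroups of the unitary Singer normaliser are transitive on every level, given the bound on invariant sets. -/

set_option autoImplicit false

namespace CF.UsP.P6

open Cfsg Cfsg.Geo CF.MaxSub Matrix Module
open scoped MatrixGroups

universe u v

variable {ι : Type} [Fintype ι] [DecidableEq ι] {F : Type u} [Field F] [Fintype F] {φ : FD ι F} {q n : ℕ}

/-- the bound on the number of invariant sets -/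
def Bd (F : Type u) [Field F] (L : Type v) [Field L] [Algebra F L] (q n : ℕ) : Prop :=
  ∀ d m : ℕ, (d = 1 ∨ d = n ∧ n ∣ q + 1) → m * d = q ^ n + 1 → ∀ g : L ≃ₗ[F] L,
    (∀ x y, Algebra.trace F L (g x * g y ^ q ^ n) = Algebra.trace F L (x * y ^ q ^ n)) →
    (¬ ∃ σ : L ≃ₐ[F] L, ∀ x, g x = g 1 * σ x) → ∀ O : Fin (q + 2) → Set L, (∀ i, (O i).Nonempty) →
    (Pairwise fun i j => Disjoint (O i) (O j)) → (∀ i (t : L), t ^ m = 1 → ∀ x ∈ O i, t * x ∈ O i) →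
    (∀ i, ∀ x ∈ O i, g x ∈ O i) → False

theorem arith (hn : n = 7 ∨ n = 11) (q : ℕ) : ∃ (A d m : ℕ) (α β : ℤ), A * (q + 1) = q ^ n + 1 ∧
    (d = 1 ∨ d = n ∧ n ∣ q + 1) ∧ m * d = q ^ n + 1 ∧ α + β = 1 ∧ (m : ℤ) ∣ α * A ∧ (m : ℤ) ∣ β * (q + 1) := by
  have o : Odd n := by rcases hn with rfl | rfl <;> decide
  have pr : n.Prime := by rcases hn with rfl | rfl <;> norm_num
  obtain ⟨A, hA⟩ := o.nat_add_dvd_pow_add_pow q 1
  rw [one_pow, mul_comm] at hA
  have hA' : (q : ℤ) ^ n + 1 = A * (q + 1) := by exact_mod_cast hA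
  obtain ⟨k, hk⟩ : ∃ k : ℤ, (A : ℤ) = n + (q + 1) * k := by
    have q0 : (q : ℤ) + 1 ≠ 0 := by positivity
    rcases hn with rfl | rfl
    · exact ⟨q ^ 5 - 2 * q ^ 4 + 3 * q ^ 3 - 4 * q ^ 2 + 5 * q - 6, mul_right_cancel₀ q0 (by
        rw [← hA']; push_cast; ring)⟩
    · exact ⟨q ^ 9 - 2 * q ^ 8 + 3 * q ^ 7 - 4 * q ^ 6 + 5 * q ^ 5 - 6 * q ^ 4 + 7 * q ^ 3 - 8 * q ^ 2 + 9 * q - 10,
        mul_right_cancel₀ q0 (by rw [← hA']; push_cast; ring)⟩
  by_cases c : n ∣ q + 1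
  · obtain ⟨B, hB⟩ := c
    have hB' : (q : ℤ) + 1 = n * B := by exact_mod_cast hB
    exact ⟨A, n, A * B, -(B * k), 1 + B * k, hA.symm, .inr ⟨rfl, B, hB⟩, by rw [hA, hB]; ring, by ring,
      ⟨-k, by push_cast; ring⟩, 1, by push_cast; rw [hk, hB']; ring⟩
  · obtain ⟨u, w, e⟩ := Nat.isCoprime_iff_coprime.2 ((pr.coprime_iff_not_dvd).2 c)
    push_cast at e
    exact ⟨A, 1, q ^ n + 1, (w - u * k) * (q + 1), u * A, hA.symm, .inl rfl, mul_one _, by rw [hk]; linear_combination e,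
      ⟨w - u * k, by push_cast; rw [hA']; ring⟩, u, by push_cast; rw [hA']; ring⟩

theorem mem_range_pow {K : Type*} [Field K] (i : F →+* K) {t : K} (h : t ^ Fintype.card F = t) : ∃ a, i a = t := by
  have h1 := (Polynomial.splits_X_pow_nat_card_sub_X (K := F)).roots_map i
  have h2 : t ∈ ((Polynomial.X ^ Nat.card F - Polynomial.X : Polynomial F).map i).roots := by
    simp [h, FiniteField.X_pow_card_sub_X_ne_zero K Fintype.one_lt_card]
  obtain ⟨a, -, e⟩ := Multiset.mem_map.1 (h1 ▸ h2)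
  exact ⟨a, e⟩

variable {L : Type v} [Field L] [Finite L] [Algebra F L] {j : L →ₐ[F] Matrix ι ι F} {e : L ≃ₗ[F] (ι → F)}
  {H : Subgroup (GL ι F)}

theorem torus (h : φ.IsU q) (hL : finrank F L = n) (he : ∀ k x, e (k * x) = j k *ᵥ e x)
    (hf : ∀ x y, φ.f (e x) (e y) = Algebra.trace F L (x * y ^ q ^ n))
    (h2 : ∀ t : Lˣ, Units.map (j : L →* Matrix ι ι F) t ∈ φ.su → Units.map (j : L →* Matrix ι ι F) t ∈ H)
    (h3 : scalars ι F ⊓ φ.isom ≤ H) {A m : ℕ} {α β : ℤ} (hA : A * (q + 1) = q ^ n + 1) (s : α + β = 1)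
    (d1 : (m : ℤ) ∣ α * A) (d2 : (m : ℤ) ∣ β * (q + 1)) {t : Lˣ} (ht : t ^ m = 1) :
    Units.map (j : L →* Matrix ι ι F) t ∈ H := by
  have q2 := h.two_le
  have iso : ∀ t : Lˣ, t ^ (q ^ n + 1) = 1 → Units.map (j : L →* Matrix ι ι F) t ∈ φ.isom := fun t ht =>
    φ.mem_isom.2 fun u v => by
      obtain ⟨x, rfl⟩ := e.surjective u
      obtain ⟨y, rfl⟩ := e.surjective v
      have : (t : L) ^ q ^ n * t = 1 := by rw [← pow_succ, ← Units.val_pow_eq_pow_val, ht, Units.val_one]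
      change φ.f (j t *ᵥ _) (j t *ᵥ _) = _
      rw [← he, ← he, hf, hf, mul_pow]
      congr 1
      linear_combination x * y ^ q ^ n * this
  have dt : ∀ t : L, (j t).det = Algebra.norm F t := fun t => by
    rw [Algebra.norm_apply, ← LinearMap.det_conj _ e, ← LinearMap.det_toLin']
    congr 1
    exact LinearMap.ext fun v => by
      obtain ⟨x, rfl⟩ := e.surjective v
      simp [he]
  have pw : ∀ (γ : ℤ) (k : ℕ), (m : ℤ) ∣ γ * k → (t ^ γ) ^ k = 1 := fun γ k ⟨c, hc⟩ => by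
    rw [← zpow_natCast, ← _root_.zpow_mul, hc, _root_.zpow_mul, zpow_natCast, ht, _root_.one_zpow]
  have p1 := pw α A d1
  have p2 := pw β (q + 1) (by exact_mod_cast d2)
  rw [← zpow_one t, ← s, _root_.zpow_add, map_mul]
  refine mul_mem (h2 _ ⟨iso _ (by rw [← hA, pow_mul, p1, one_pow]), mem_specialLinear.2 ?_⟩)
    (h3 ⟨?_, iso _ (by rw [← hA, mul_comm, pow_mul, p2, one_pow])⟩)
  · refine (dt _).trans ((algebraMap F L).injective ?_)
    obtain ⟨C, hC⟩ := Nat.sub_one_dvd_pow_sub_one q n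
    rw [FiniteField.algebraMap_norm_eq_pow, card_L h hL, Nat.card_eq_fintype_card, h.card, map_one,
      show (q ^ n) ^ 2 - 1 = (q ^ 2 - 1) * (A * C) by
        rw [← one_pow 2, Nat.sq_sub_sq, Nat.sq_sub_sq, hC, ← hA]; ring,
      Nat.mul_div_cancel_left _ (by have := Nat.pow_le_pow_left q2 2; omega), pow_mul, ← Units.val_pow_eq_pow_val, p1]
    simp
  · obtain ⟨c, hc⟩ := mem_range_pow (algebraMap F L) (t := (t ^ β : Lˣ)) (by
      rw [h.card, ← Units.val_pow_eq_pow_val, show q ^ 2 = (q + 1) * (q - 1) + 1 by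
        obtain ⟨k, rfl⟩ := Nat.exists_eq_add_of_le' q2; simp; ring, pow_succ, pow_mul, p2, one_pow, one_mul])
    exact (mem_scalars_iff _).2 ⟨.mk0 c fun z => (t ^ β).ne_zero (by rw [← hc, z, map_zero]), by
      change j _ = c • _
      rw [← hc, j.commutes, Algebra.algebraMap_eq_smul_one]⟩

theorem trans0 (h : φ.IsU q) (hn : n = 7 ∨ n = 11) (hι : Fintype.card ι = n) (hL : finrank F L = n) (bd : Bd F L q n)
    (j : L →ₐ[F] Matrix ι ι F) (ha : ∀ k, ∃ k', φ.adj (j k) = j k') (h1 : H ≤ φ.isom)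
    (h2 : ∀ t : Lˣ, Units.map (j : L →* Matrix ι ι F) t ∈ φ.su → Units.map (j : L →* Matrix ι ι F) t ∈ H)
    (h3 : scalars ι F ⊓ φ.isom ≤ H) {g : GL ι F} (hg : g ∈ H)
    (h4 : ¬ ∃ σ : L ≃ₐ[F] L, ∀ k, g.val * j k = j (σ k) * g.val) : Tr φ H := fun x y x0 y0 exy => by
  classical
  by_contra c
  obtain ⟨e, he, hf⟩ := model h hι (by omega) hL j ha
  obtain ⟨A, d, m, α, β, hA, hd, hm, s, d1, d2⟩ := arith hn q
  have fx : ∀ v, φ.f v v ^ q = φ.f v v := fun v => by rw [← h.σ, h.conj_f]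
  let κ : (ι → F) → Option (Option {c : F // c ^ q = c}) := fun v =>
    if v = 0 then none else if ∃ k ∈ H, k.val *ᵥ x = v then some none else some (some ⟨_, fx v⟩)
  have inv : ∀ k ∈ H, ∀ v, κ (k.val *ᵥ v) = κ v := fun k hk v => by
    have a : k.val *ᵥ v = 0 ↔ v = 0 := ⟨fun z => by rw [← inv_mulVec_mulVec k v, z, mulVec_zero], fun z => by simp [z]⟩
    have b : (∃ l ∈ H, l.val *ᵥ x = k.val *ᵥ v) ↔ ∃ l ∈ H, l.val *ᵥ x = v :=
      ⟨fun ⟨l, a, b⟩ => ⟨k⁻¹ * l, mul_mem (inv_mem hk) a, by rw [Units.val_mul, ← mulVec_mulVec, b, inv_mulVec_mulVec]⟩,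
        fun ⟨l, a, b⟩ => ⟨k * l, mul_mem hk a, by rw [Units.val_mul, ← mulVec_mulVec, b]⟩⟩
    simp only [κ, a, b, φ.mem_isom.1 (h1 hk)]
  have sj : Function.Surjective κ := by
    rintro (_ | _ | ⟨a, ha⟩)
    · exact ⟨0, if_pos rfl⟩
    · exact ⟨x, (if_neg x0).trans (if_pos ⟨1, one_mem _, by simp⟩)⟩
    by_cases k : a = φ.f x x
    · exact ⟨y, (if_neg y0).trans ((if_neg c).trans (by simp [k, exy]))⟩
    obtain ⟨v, v0, hv⟩ : ∃ v, v ≠ 0 ∧ φ.f v v = a := by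
      by_cases z : a = 0
      · obtain ⟨v, -, a, b⟩ := h.exists_iso (U := ⊤) (by simp; omega)
        exact ⟨v, a, z ▸ b⟩
      · haveI : Nonempty ι := Fintype.card_pos_iff.1 (by omega)
        obtain ⟨v, -, b⟩ := h.exists_eq (U := ⊤) (fun v _ hv => ⟨by_contra fun z => hv
          (φ.eq_zero_of_left fun u => by_contra fun k => z ⟨u, trivial, k⟩), by_contra fun z => hv
          (φ.eq_zero_of_right fun u => by_contra fun k => z ⟨u, trivial, k⟩)⟩) top_ne_bot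
          ((h.σ a).trans ha)
        exact ⟨v, fun w => z (by rw [← b, w, ← zero_smul F (0 : ι → F), φ.f_smul_left, zero_mul]), b⟩
    exact ⟨v, (if_neg v0).trans ((if_neg fun ⟨l, a, b⟩ => k (by rw [← hv, ← b, φ.mem_isom.1 (h1 a)])).trans
      (by simp [hv]))⟩
  let ε : Fin (q + 2) ≃ Option (Option {c : F // c ^ q = c}) := Fintype.equivOfCardEq (by
    rw [Fintype.card_option, Fintype.card_option, Fintype.card_fin, ← Nat.card_eq_fintype_card,
      Geom.card_fixed_eq h.card])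
  let G : L ≃ₗ[F] L := e.trans ((Geom.glEquiv ι F g).trans e.symm)
  have hG : ∀ z, e (G z) = g.val *ᵥ e z := fun z => e.apply_symm_apply _
  refine bd d m hd hm G (fun u v => by rw [← hf, ← hf, hG, hG, φ.mem_isom.1 (h1 hg)]) (fun ⟨σ, hσ⟩ => h4 ⟨σ, fun k => ?_⟩)
    (fun i => {z | κ (e z) = ε i}) (fun i => ?_) (fun i k n => Set.disjoint_left.2 fun z a b => n (ε.injective
      (a.symm.trans b))) (fun i t ht z hz => ?_) fun i z hz => (hG z ▸ inv g hg _).trans hz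
  · refine Matrix.ext_iff_mulVec.2 fun v => ?_
    obtain ⟨z, rfl⟩ := e.surjective v
    rw [← mulVec_mulVec, ← mulVec_mulVec, ← he, ← hG, ← hG, ← he, hσ, hσ z, map_mul σ, mul_left_comm]
  · obtain ⟨v, hv⟩ := sj (ε i)
    exact ⟨e.symm v, by simpa using hv⟩
  · have m0 : m ≠ 0 := fun z => by simp [z] at hm
    have t0 : t ≠ 0 := fun z => by simp [z, m0] at ht
    exact (he t z ▸ inv _ (torus h hL he hf h2 h3 hA s d1 d2 (t := .mk0 t t0) (Units.ext ht)) _).trans hz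

theorem trans_of (h : φ.IsU q) (hn : Fintype.card ι = 7 ∨ Fintype.card ι = 11)
    (bd : ∀ (L : Type u) [Field L] [Finite L] [Algebra F L], finrank F L = Fintype.card ι → Bd F L q (Fintype.card ι))
    {S : Subalgebra F (Matrix ι ι F)} (hS : IsFieldSubalgebra (Fintype.card ι) S) (ha : IsAdjointClosedFor φ.f S)
    (h1 : H ≤ φ.isom) (h2 : subalgebraNormalizer S ⊓ φ.su ≤ H) (h3 : scalars ι F ⊓ φ.isom ≤ H)
    (h4 : ¬ H ≤ subalgebraNormalizer S) : Tr φ H := by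
  haveI : Nonempty ι := Fintype.card_pos_iff.1 (by omega)
  letI := (isField_of_fieldSubalgebra hS).toField
  obtain ⟨g, hg, n⟩ := SetLike.not_le_iff_exists.1 h4
  refine trans0 (L := S) h hn rfl hS.finrank_eq (bd S hS.finrank_eq) S.val (fun k => ?_) h1
    (fun t ht => h2 ⟨fun k => ⟨fun a => ?_, fun a => ?_⟩, ht⟩) h3 hg fun ⟨σ, hσ⟩ => n fun k => ⟨fun a => ?_, fun a => ?_⟩
  · obtain ⟨k', a, b⟩ := ha k k.2
    exact ⟨⟨k', a⟩, φ.adj_eq_iff.2 b⟩
  · exact mul_mem (mul_mem t.1.2 a) (t⁻¹).1.2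
  · have := mul_mem (mul_mem (show (Units.map (S.val : S →* Matrix ι ι F) t)⁻¹.val ∈ S from (t⁻¹).1.2) a)
      (show (Units.map (S.val : S →* Matrix ι ι F) t).val ∈ S from t.1.2)
    rwa [← mul_assoc, Units.inv_mul_cancel_right, Units.inv_mul_cancel_left] at this
  · rw [show g.val * k = _ from hσ ⟨k, a⟩, mul_assoc, Units.mul_inv, mul_one]
    exact (σ _).2
  · have := hσ (σ.symm ⟨_, a⟩)
    rw [σ.apply_symm_apply, Subalgebra.coe_val, Units.inv_mul_cancel_right, Units.mul_right_inj] at this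
    exact this ▸ (σ.symm _).2

end CF.UsP.P6
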