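import Cfsg.Agent.Us.P6a
import Cfsg.Agent.Geom.UGen
import Cfsg.Agent.MaxSub.FormA

/-! The unitary Singer normaliser is maximal, given transitivity of its overgroups and the local analysis. -/

set_option autoImplicit false

namespace CF.UsP.P7

open Cfsg Cfsg.Geo CF.MaxSub Matrix Module Subgroup
open scoped MatrixGroups

variable {ι : Type} [Fintype ι] [DecidableEq ι] {F : Type*} [Field F] [Fintype F] {φ : FD ι F} {q : ℕ}

theorem su_le4 (h : φ.IsU q) (hι : 4 ≤ Fintype.card ι) {M : Subgroup (GL ι F)}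
    (hM : ∀ v hv a, φ.σ a = -a → φ.tvf v hv a ∈ M) : φ.su ≤ M := fun g hg => by
  have hH : Geom.IsHerm φ.B := ⟨h.ne, φ.invol, φ.B_symm h.eps⟩
  have : Geom.uTransSub hH ≤ (M.map (Geom.glEquiv ι F).toMonoidHom).subgroupOf _ :=
    (closure_le _).2 (by
      rintro _ ⟨v, s, hv, hs, rfl⟩
      exact ⟨_, hM v hv s hs, LinearEquiv.ext fun x => φ.tvf_mulVec v hv s x⟩)
  rw [Geom.uTransSub_eq_suSub hH φ.B_nondeg (by simp; omega) (.inr (by simpa))] at this
  obtain ⟨g', h1, h2⟩ := @this ⟨Geom.glEquiv ι F g, Geom.mem_UG.2 fun u v => φ.mem_isom.1 hg.1 v u⟩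
    (Geom.mem_suSub.2 ((Geom.det_glEquiv g).trans (mem_specialLinear.1 hg.2)))
  exact (Geom.glEquiv ι F).injective h2 ▸ h1

theorem skew (h : φ.IsU q) {v : ι → F} (hv : φ.f v v = 0) (v0 : v ≠ 0) {a : F} (t : φ.tvf v hv a ∈ φ.isom) :
    φ.σ a = -a := by
  obtain ⟨x, hx⟩ : ∃ x, φ.f x v ≠ 0 := by_contra fun z => v0 (φ.eq_zero_of_left fun u => by_contra fun k => z ⟨u, k⟩)
  have := φ.mem_isom.1 t x x
  rw [φ.tvf_mulVec, φ.f_add_left, φ.f_add_right, φ.f_add_right, φ.f_smul_left, φ.f_smul_left, φ.f_smul_right,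
    φ.f_smul_right, hv, map_mul, h.conj_f] at this
  exact mul_right_cancel₀ (mul_ne_zero hx fun k => hx (φ.f_eq_zero_comm k)) (by linear_combination this)

theorem tvf_pow (v : ι → F) (hv : φ.f v v = 0) (a : F) : ∀ k : ℕ, φ.tvf v hv a ^ k = φ.tvf v hv (k * a)
  | 0 => by simp [φ.tvf_zero]
  | k + 1 => by rw [pow_succ, tvf_pow v hv a k, ← φ.tvf_add]; congr 1; push_cast; ring

theorem su_le_of (h : φ.IsU q) (hι : 4 ≤ Fintype.card ι) {X : Subgroup (GL ι F)}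
    (t : Tr φ (X ⊔ scalars ι F ⊓ φ.isom)) (h1 : X ≤ φ.isom) {v : ι → F} {hv : φ.f v v = 0} {a : F} (v0 : v ≠ 0)
    (a0 : a ≠ 0) (m : φ.tvf v hv a ∈ X ⊔ scalars ι F ⊓ φ.isom) : φ.su ≤ X := by
  haveI : Nonempty ι := Fintype.card_pos_iff.1 (by omega)
  have l : X ⊔ scalars ι F ⊓ φ.isom ≤ φ.isom := sup_le h1 inf_le_right
  have dc : ∀ g ∈ X ⊔ scalars ι F ⊓ φ.isom, ∃ x ∈ X, ∃ z ∈ scalars ι F ⊓ φ.isom, g = x * z := fun g hg => by
    rw [sup_eq_closure] at hg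
    induction hg using closure_induction with
    | mem g hg => exact hg.elim (fun k => ⟨g, k, 1, one_mem _, by simp⟩) fun k => ⟨1, one_mem _, g, k, by simp⟩
    | one => exact ⟨1, one_mem _, 1, one_mem _, by simp⟩
    | mul g k _ _ a b =>
      obtain ⟨x, hx, z, hz, rfl⟩ := a
      obtain ⟨y, hy, w, hw, rfl⟩ := b
      exact ⟨_, mul_mem hx hy, _, mul_mem hz hw, by
        rw [mul_assoc, ← mul_assoc z, scalars_comm hz.1 y]; simp only [mul_assoc]⟩
    | inv g _ a =>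
      obtain ⟨x, hx, z, hz, rfl⟩ := a
      exact ⟨_, inv_mem hx, _, inv_mem hz, by rw [_root_.mul_inv_rev, scalars_comm (inv_mem hz.1)]⟩
  have sa := skew h hv v0 (l m)
  have q0 : (q : F) = 0 := by
    have := FiniteField.cast_card_eq_zero F
    rwa [h.card, Nat.cast_pow, pow_eq_zero_iff two_ne_zero] at this
  have m' : φ.tvf v hv a ∈ X := by
    obtain ⟨x, hx, z, ⟨⟨c, rfl⟩, hz⟩, e⟩ := dc _ m
    have c1 : c ^ (q + 1) = 1 := Units.ext (by
      rw [Units.val_pow_eq_pow_val, pow_succ', ← h.σ]; exact φ.norm_eq_one_of_scalarGL_mem hz)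
    have := congrArg (· ^ (q + 1)) e
    simp only [tvf_pow, Nat.cast_add, q0, Nat.cast_one, zero_add, one_mul] at this
    rw [this, Commute.mul_pow (scalars_comm ⟨c, rfl⟩ x).symm, ← map_pow, c1, map_one, mul_one]
    exact pow_mem hx _
  refine su_le4 h hι fun w hw b hb => ?_
  by_cases z : w = 0 ∨ b = 0
  · rw [show φ.tvf w hw b = 1 from Units.ext (Matrix.ext_iff_mulVec.2 fun x => by
      rcases z with z | z <;> simp [φ.tvf_mulVec, z])]
    exact one_mem _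
  obtain ⟨w0, b0⟩ := not_or.1 z
  obtain ⟨c, hc⟩ := h.exists_norm (c := b / a) (by rw [map_div₀, hb, sa, neg_div_neg_eq])
  have c0 : c ≠ 0 := fun k => div_ne_zero b0 a0 (by rw [← hc, k, zero_mul])
  obtain ⟨g, hg, e⟩ := t v (c • w) v0 (smul_ne_zero c0 w0) (by
    rw [φ.f_smul_left, φ.f_smul_right, hv, hw, mul_zero, mul_zero])
  obtain ⟨x, hx, z, hz, k⟩ := dc g hg
  have := mul_mem (mul_mem hx m') (inv_mem hx)
  rw [show x * φ.tvf v hv a * x⁻¹ = g * φ.tvf v hv a * g⁻¹ by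
    rw [k, mul_assoc x z, scalars_comm hz.1]; group, φ.conj_tvf (l hg)] at this
  convert this using 1
  refine Units.ext (Matrix.ext_iff_mulVec.2 fun y => ?_)
  rw [φ.tvf_mulVec, φ.tvf_mulVec, e, φ.f_smul_right, smul_smul, ← div_mul_cancel₀ b a0, ← hc]
  congr 2; ring

theorem singer_of (h : φ.IsU q) (hn : 4 ≤ Fintype.card ι)
    (loc : ∀ H ≤ φ.isom, Tr φ H → ∃ v, ∃ hv : φ.f v v = 0, ∃ a, v ≠ 0 ∧ a ≠ 0 ∧ φ.tvf v hv a ∈ H)
    {S : Subalgebra F (Matrix ι ι F)} (hS : IsFieldSubalgebra (Fintype.card ι) S)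
    (tr : ∀ H ≤ φ.isom, subalgebraNormalizer S ⊓ φ.su ≤ H → scalars ι F ⊓ φ.isom ≤ H →
      ¬ H ≤ subalgebraNormalizer S → Tr φ H) : IsMaximalIn φ.su (subalgebraNormalizer S ⊓ φ.su) := by
  refine ⟨lt_of_le_of_ne inf_le_right fun e => (h.roots (by omega)).not_le_field (by omega) (by omega) hS
    (e.ge.trans inf_le_left), fun X a b => ?_⟩
  by_cases c : X ≤ subalgebraNormalizer S
  · exact .inl (le_antisymm (le_inf c b) a)
  have l : X ⊔ scalars ι F ⊓ φ.isom ≤ φ.isom := sup_le (b.trans inf_le_left) inf_le_right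
  have t := tr _ l (a.trans le_sup_left) le_sup_right fun k => c (le_sup_left.trans k)
  obtain ⟨v, hv, s, v0, s0, m⟩ := loc _ l t
  exact .inr (le_antisymm b (su_le_of h hn t (b.trans inf_le_left) v0 s0 m))

end CF.UsP.P7
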