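import Cfsg.Agent.Us.P5
import Cfsg.Agent.Us.P6b
import Cfsg.Agent.Us.P7a

/-! The unitary Singer normaliser: transitivity of its overgroups, and maximality given the local analysis. -/

set_option autoImplicit false

namespace CF.UsP

open Cfsg Cfsg.Geo CF.MaxSub Matrix
open scoped MatrixGroups

variable {ι : Type} [Fintype ι] [DecidableEq ι] {F : Type*} [Field F] [Fintype F] {φ : FD ι F} {q : ℕ}

theorem trans (h : φ.IsU q) (hn : Fintype.card ι = 7 ∨ Fintype.card ι = 11) {S : Subalgebra F (Matrix ι ι F)}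
    (hS : IsFieldSubalgebra (Fintype.card ι) S) (ha : IsAdjointClosedFor φ.f S) {H : Subgroup (GL ι F)}
    (h1 : H ≤ φ.isom) (h2 : subalgebraNormalizer S ⊓ φ.su ≤ H) (h3 : scalars ι F ⊓ φ.isom ≤ H)
    (h4 : ¬ H ≤ subalgebraNormalizer S) : Tr φ H :=
  P6.trans_of h hn (fun _ _ _ _ hL _ _ hd hm => bound h.card hn hL hd hm) hS ha h1 h2 h3 h4

theorem singer (h : φ.IsU q) (hn : Fintype.card ι = 7 ∨ Fintype.card ι = 11)
    (loc : ∀ H ≤ φ.isom, Tr φ H → ∃ v, ∃ hv : φ.f v v = 0, ∃ a, v ≠ 0 ∧ a ≠ 0 ∧ φ.tvf v hv a ∈ H)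
    {S : Subalgebra F (Matrix ι ι F)} (hS : IsFieldSubalgebra (Fintype.card ι) S)
    (ha : IsAdjointClosedFor φ.f S) : IsMaximalIn φ.su (subalgebraNormalizer S ⊓ φ.su) :=
  P7.singer_of h (by omega) loc hS fun _ => trans h hn hS ha

end CF.UsP
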