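import Cfsg.Agent.Sing.A2

/-! The unitary Singer cycle by the polynomial method: definitions. -/

set_option autoImplicit false

namespace CF.UsP

open MvPolynomial CF.Sing.PA

/-- indices of the variables `X u = x ^ p ^ u` -/
abbrev Ix (e n : ℕ) := ZMod (2 * e * n)

/-- polynomials in the variables -/
abbrev Pl (K : Type*) [Field K] (e n : ℕ) := MvPolynomial (Ix e n) K

variable {K : Type*} [Field K] {e n : ℕ}

/-- the conjugate index -/
def bar (u : Ix e n) : Ix e n := u + (e * n : ℕ)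

/-- the level of an index -/
abbrev lv (u : Ix e n) : ZMod (2 * e) := lev (2 * e) n u

/-- the weight of a monomial -/
def bt (A : Ix e n →₀ ℕ) (u : Ix e n) : ℤ := (A u : ℤ) - A (bar u)

/-- the weight of `ee a b` -/
def rt (a b u : Ix e n) : ℤ :=
  ((if u = b then 1 else 0) - if u = a then 1 else 0) -
    ((if bar u = b then 1 else 0) - if bar u = a then 1 else 0)

/-- the carries of a weight that is trivial on the torus -/
def Jr (p d : ℕ) (β j : Ix e n → ℤ) : Prop := ∀ u, j u = p * j (u + 1) + d * β u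

/-- monomials -/
noncomputable abbrev mn (A : Ix e n →₀ ℕ) : Pl K e n := monomial A 1

/-- the derivation `X b ∂ a - X (bar a) ∂ (bar b)` -/
noncomputable def ee (a b : Ix e n) : Pl K e n →ₗ[K] Pl K e n :=
  LinearMap.mulLeft K (X b) ∘ₗ (pderiv a).toLinearMap -
    LinearMap.mulLeft K (X (bar a)) ∘ₗ (pderiv (bar b)).toLinearMap

theorem ee_apply (a b : Ix e n) (P : Pl K e n) :
    ee a b P = X b * pderiv a P - X (bar a) * pderiv (bar b) P := rfl

/-- the numerical parameters -/
structure Par (p e n d : ℕ) : Prop where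
  pp : p.Prime
  e0 : e ≠ 0
  hn : n = 7 ∨ n = 11
  hd : d = 1 ∨ d = n ∧ n ∣ p ^ e + 1

variable [NeZero (2 * e * n)]

/-- linear substitution -/
noncomputable def sb (M : Matrix (Ix e n) (Ix e n) K) : Pl K e n →ₐ[K] Pl K e n :=
  aeval fun u => ∑ w, C (M u w) * X w

/-- the matrix of a non-monomial isometry and of its inverse -/
structure Fr (M M' : Matrix (Ix e n) (Ix e n) K) (r : Ix e n) : Prop where
  blk : ∀ u w, M u w ≠ 0 → lv u = lv w
  inv : M * M' = 1
  adj : ∀ u w, M' u w = M (bar w) (bar u)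
  r0 : r ≠ 0
  rl : lv r = 0
  edge : ∀ s, ∃ u, M s u ≠ 0 ∧ M (s + r) u ≠ 0 ∧ M' u s ≠ 0 ∧ M' u (s + r) ≠ 0

/-- an invariant functional -/
structure Fn (p d : ℕ) (M : Matrix (Ix e n) (Ix e n) K) (μ : Pl K e n →ₗ[K] K) : Prop where
  inv : ∀ P, μ (sb M P) = μ P
  jr : ∀ A, μ (mn A) ≠ 0 → ∃ j, Jr p d (bt A) j

/-- the part of a functional in one multidegree -/
noncomputable def pj (μ : Pl K e n →ₗ[K] K) (D : ZMod (2 * e) → ℕ) : Pl K e n →ₗ[K] K :=
  μ ∘ₗ weightedHomogeneousComponent (wt (2 * e) n) D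

/-- the test monomials -/
noncomputable def test (n p : ℕ) [NeZero (2 * e * n)] (i : Fin e → Fin p) : Ix e n →₀ ℕ :=
  Finsupp.equivFunOnFinite.symm fun u =>
    p - 1 - ∑ s : Fin e, if u = (s : ℕ) ∨ bar u = (s : ℕ) then (i s : ℕ) else 0

end CF.UsP
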